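import Cfsg.Agent.Elusive25.UnipOrth

/-!
Subspaces fixed by elements of order `p` of orthogonal groups: consequences for partitions.
-/

set_option autoImplicit false

namespace Cfsg.Agent.Elusive25

open Module QuadraticMap Cfsg.Agent.Classical

variable {F : Type*} [Field F]

theorem bNondeg_of_anisotropic {V : Type*} [AddCommGroup V] [Module F V] (h2 : (2 : F) ≠ 0)
    {Q : QuadraticForm F V} (h : Q.Anisotropic) : BNondeg Q := fun x hx => h x (by
  have := hx x
  rw [polar_self, nsmul_eq_mul, Nat.cast_ofNat] at this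
  exact (mul_eq_zero.1 this).resolve_left h2)

/-- The sum of a multiset with entries `1`, `2`, `3`. -/
theorem sum_of_small {ν : Multiset ℕ} (h : ∀ e ∈ ν, e = 1 ∨ e = 2 ∨ e = 3) :
    ν.sum = ν.count 1 + 2 * ν.count 2 + 3 * ν.count 3 := by
  induction ν using Multiset.induction_on with
  | empty => simp
  | cons a s ih =>
    have hs := ih fun e he => h e (Multiset.mem_cons_of_mem he)
    rcases h a (Multiset.mem_cons_self a s) with rfl | rfl | rfl <;>
      simp [Multiset.count_cons, hs] <;> ring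

theorem even_sum {ν : Multiset ℕ} (h : ∀ e ∈ ν, Even e) : Even ν.sum := by
  induction ν using Multiset.induction_on with
  | empty => simp
  | cons a s ih =>
    rw [Multiset.sum_cons]
    exact (h a (Multiset.mem_cons_self a s)).add (ih fun e he => h e (Multiset.mem_cons_of_mem he))

/-- Replacing a pair `e, e` of even parts by `e + 1, e - 1` loses no good sub-partition. -/
theorem subpartition_of_split {m e : ℕ} (he : Even e) (hm : Even m) {ρ : Multiset ℕ}
    (hρ : ∀ a ∈ ρ, Even a) (he0 : 0 < e) {ν : Multiset ℕ} (hν : ν ≤ (e + 1) ::ₘ (e - 1) ::ₘ ρ)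
    (hsum : ν.sum = m) (hev : ∀ a, Even a → Even (ν.count a)) :
    ∃ ν' : Multiset ℕ, ν' ≤ e ::ₘ e ::ₘ ρ ∧ ν'.sum = m ∧ ∀ a, Even a → Even (ν'.count a) := by
  have ho1 : ¬ Even (e + 1) := by rw [Nat.even_add_one, not_not]; exact he
  have ho2 : ¬ Even (e - 1) := by
    obtain ⟨r, hr⟩ := he
    rintro ⟨s, hs⟩
    omega
  have hsum' : ∀ ν' ≤ ρ, Even ν'.sum := fun ν' h => even_sum fun a ha => hρ a (Multiset.mem_of_le h ha)
  by_cases h1 : e + 1 ∈ ν
  · obtain ⟨ν₁, rfl⟩ := Multiset.exists_cons_of_mem h1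
    have hν₁ := (Multiset.cons_le_cons_iff _).1 hν
    by_cases h2 : e - 1 ∈ ν₁
    · obtain ⟨ν₂, rfl⟩ := Multiset.exists_cons_of_mem h2
      refine ⟨e ::ₘ e ::ₘ ν₂, Multiset.cons_le_cons _ (Multiset.cons_le_cons _
        ((Multiset.cons_le_cons_iff _).1 hν₁)), ?_, fun a ha => ?_⟩
      · simp only [Multiset.sum_cons] at hsum ⊢; omega
      · have := hev a ha
        simp only [Multiset.count_cons] at this ⊢
        rw [if_neg (fun h : a = e - 1 => ho2 (h ▸ ha)), if_neg (fun h : a = e + 1 => ho1 (h ▸ ha))] at this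
        split_ifs <;> simpa [Nat.even_add_one] using this
    · exfalso
      rw [← hsum, Multiset.sum_cons, Nat.even_add] at hm
      exact ho1 (hm.2 (hsum' _ ((Multiset.le_cons_of_notMem h2).1 hν₁)))
  · have hν₁ := (Multiset.le_cons_of_notMem h1).1 hν
    by_cases h2 : e - 1 ∈ ν
    · exfalso
      obtain ⟨ν₂, rfl⟩ := Multiset.exists_cons_of_mem h2
      rw [← hsum, Multiset.sum_cons, Nat.even_add] at hm
      exact ho2 (hm.2 (hsum' _ ((Multiset.cons_le_cons_iff _).1 hν₁)))
    · exact ⟨ν, ((Multiset.le_cons_of_notMem h2).1 hν₁).trans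
        ((Multiset.le_cons_self _ _).trans (Multiset.le_cons_self _ _)), hsum, hev⟩

variable [Fintype F] {κ : Type} [Fintype κ] [DecidableEq κ]

/-- A fixed subspace gives a sub-partition. -/
theorem exists_fixed_subpartition {p : ℕ} [Fact p.Prime] [CharP F p] (h2 : (2 : F) ≠ 0)
    {R : QuadraticForm F (κ → F)} (hR : BNondeg R) {m : ℕ} {P : Submodule F (κ → F) → Prop}
    (H : ∀ x : Matrix.GeneralLinearGroup κ F, x ∈ Cfsg.Geo.omegaGL ⇑R → x ^ p = 1 →
      (∀ z : F, (x : Matrix κ κ F) ≠ z • (1 : Matrix κ κ F)) →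
      ∃ W : Submodule F (κ → F), (finrank F W = m ∧ Cfsg.Geo.IsNondegenerateOn (polar ⇑R) W ∧ P W) ∧
        W.map (Matrix.toLin' (x : Matrix κ κ F)) ≤ W)
    (μ : Multiset ℕ) (hb : ∀ e ∈ μ, e ≤ p) (heven : ∀ e, Even e → Even (μ.count e))
    (hsum : μ.sum = Fintype.card κ)
    (htype : (∃ e ∈ μ, Odd e) ∨ ∃ X : Submodule F (κ → F),
      2 * finrank F X = Fintype.card κ ∧ ∀ x ∈ X, R x = 0)
    (hbig : ∃ e ∈ μ, 1 < e) :
    ∃ ν : Multiset ℕ, ν ≤ μ ∧ ν.sum = m ∧ (∀ e, Even e → Even (ν.count e)) ∧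
      ∃ W, P W ∧ ((∀ e ∈ ν, e = 2) → Cfsg.Geo.IsPlusTypeOn ⇑R W) := by
  classical
  obtain ⟨g, hgp, hgd⟩ := exists_unipotent h2 μ hb heven hR hsum htype
  have hp2 : p ≠ 2 := fun h => h2 (by
    have := CharP.cast_eq_zero F p
    rw [h] at this
    exact_mod_cast this)
  have hodd : Odd p := (Fact.out : p.Prime).odd_of_ne_two hp2
  have hx := glOf_mem_omegaGL R (mem_commutator_of_pow hR (OrthGen.notExceptional_of_two_ne_zero h2)
    hodd hgp)
  set x := glOf R g
  have hxp : x ^ p = 1 := by rw [← map_pow, hgp, map_one]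
  have hlin : Matrix.toLin' (x : Matrix κ κ F) = (g.1 : (κ → F) ≃ₗ[F] κ → F).toLinearMap :=
    LinearMap.ext fun v => by rw [Matrix.toLin'_apply]; exact glOf_mulVec R g v
  set f : Module.End F (κ → F) := (g.1 : (κ → F) ≃ₗ[F] κ → F).toLinearMap with hfdef
  have hfp : f ^ p = 1 := by
    rw [← hlin]
    show Matrix.toLinAlgEquiv' (x : Matrix κ κ F) ^ p = 1
    rw [← map_pow, ← Units.val_pow_eq_pow_val, hxp, Units.val_one, map_one]
  obtain ⟨e₀, he₀, he₀1⟩ := hbig
  have hne : Nonempty κ := Fintype.card_pos_iff.1 (by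
    rw [← hsum]
    have := Multiset.single_le_sum (fun e _ => Nat.zero_le e) e₀ he₀
    omega)
  have hns : ∀ z : F, (x : Matrix κ κ F) ≠ z • (1 : Matrix κ κ F) := by
    intro z hz
    have hfz : f = z • (1 : Module.End F (κ → F)) := by
      rw [← hlin, hz, map_smul, Matrix.toLin'_one]; rfl
    have hzp : z ^ p = 1 := by
      have h := hfp
      rw [hfz, smul_pow, one_pow] at h
      have h1 := congrFun (LinearMap.congr_fun h (fun _ => (1 : F))) (Classical.arbitrary κ)
      simpa using h1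
    have hz1 : z = 1 := by
      have : (z - 1) ^ p = 0 := by rw [sub_pow_char, hzp, one_pow, sub_self]
      exact sub_eq_zero.1 (eq_zero_of_pow_eq_zero this)
    have h := hgd 1
    rw [hfz, hz1, one_smul, sub_self, Elusive.layerDim, Elusive.layerSpace, pow_one,
      Submodule.map_zero, finrank_bot] at h
    have : 0 < μ.countP fun e => 1 < e := Multiset.countP_pos.2 ⟨e₀, he₀, he₀1⟩
    omega
  obtain ⟨W, ⟨hWm, hWnd, hWP⟩, hWmap⟩ := H x hx hxp hns
  rw [hlin] at hWmap
  have hiso : ∀ u v, polarBilin R (f u) (f v) = polarBilin R u v := fun u v => by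
    simp only [polarBilin_apply_apply, polar, ← map_add]
    simp only [hfdef, LinearEquiv.coe_coe]
    erw [g.2 (u + v), g.2 u, g.2 v]
  have hS : LinearMap.BilinForm.IsSymm (polarBilin R) := ⟨fun x y => by simp [polar_comm]⟩
  have hB : (polarBilin R).Nondegenerate :=
    ⟨fun x hx => hR x fun y => hx y, fun x hx => hR x fun y => by
      rw [polar_comm]; exact hx y⟩
  have hNp : (f - 1) ^ p = 0 := by
    have : CharP (Module.End F (κ → F)) p :=
      charP_of_injective_algebraMap (RingHom.injective (algebraMap F (Module.End F (κ → F)))) p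
    rw [sub_pow_char_of_commute p (Commute.one_right f), hfp, one_pow, sub_self]
  obtain ⟨ν, hν, hνs, hνe, hνc⟩ := exists_subpartition_parity h2 hS hB hiso hNp hgd hWmap
    (fun w hw hw0 => (hWnd w hw hw0).1)
  refine ⟨ν, hν, hνs.trans hWm, hνe, W, hWP, fun htwo => ?_⟩
  set L := Elusive.layerDim (f - 1) W
  have hWN : ∀ v ∈ W, (f - 1) v ∈ W := fun v hv => W.sub_mem (hWmap ⟨v, hv, rfl⟩) hv
  have hLeq : ∀ k, k ≠ 1 → L k = L (k + 1) := fun k hk => by
    have h1 : L (k + 1) ≤ L k := Elusive.layerDim_succ_le hWN k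
    have h3 : ν.count (k + 1) = 0 := Multiset.count_eq_zero.2 fun h => hk (by have := htwo _ h; omega)
    rw [hνc] at h3
    omega
  have hL2 : L 2 = 0 := by
    have hall : ∀ i, L 2 = L (2 + i) := by
      intro i
      induction i with
      | zero => rfl
      | succ i ih => rw [ih, hLeq (2 + i) (by omega), add_assoc]
    rw [hall p]
    show Elusive.layerDim (f - 1) W (2 + p) = 0
    rw [Elusive.layerDim, Elusive.layerSpace, pow_eq_zero_of_le (by omega) hNp, Submodule.map_zero,
      finrank_bot]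
  have hW2 : finrank F W = 2 * L 1 := by
    rw [← hνs, Multiset.eq_replicate_card.2 htwo, Multiset.sum_replicate, smul_eq_mul, mul_comm,
      show Multiset.card ν = ν.count (1 + 1) from (Multiset.count_eq_card.2 fun e he => (htwo e he).symm).symm,
      hνc, show L (1 + 1) = 0 from hL2, Nat.sub_zero]
  refine ⟨Elusive.layerSpace (f - 1) W 1, ?_, ?_, hW2.symm⟩
  · rintro _ ⟨v, ⟨hv, -⟩, rfl⟩
    rw [pow_one]; exact hWN v hv
  · rintro _ ⟨v, ⟨-, hv⟩, rfl⟩
    have hz : f ((f - 1) v) = (f - 1) v := by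
      have h : ((f - 1) ^ (1 + 1) : Module.End F (κ → F)) v = 0 := hv
      rw [pow_succ, pow_one, Module.End.mul_apply, LinearMap.sub_apply, Module.End.one_apply,
        sub_eq_zero] at h
      exact h
    have h3 : polarBilin R (f v) ((f - 1) v) = polarBilin R v ((f - 1) v) := by
      have := hiso v ((f - 1) v)
      rwa [hz] at this
    have h4 : polar ⇑R ((f - 1) v) ((f - 1) v) = 0 := by
      rw [← polarBilin_apply_apply]
      conv_lhs => arg 1; arg 2; rw [LinearMap.sub_apply, Module.End.one_apply]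
      rw [map_sub, LinearMap.sub_apply, h3, sub_self]
    rw [polar_self, nsmul_eq_mul, Nat.cast_ofNat] at h4
    rw [pow_one]
    exact (mul_eq_zero.1 h4).resolve_left h2

/-- The partition condition for a realisable partition. -/
theorem subpartition_of_fixed {p : ℕ} [Fact p.Prime] [CharP F p] (h2 : (2 : F) ≠ 0)
    {R : QuadraticForm F (κ → F)} (hR : BNondeg R) {m : ℕ} (hm : m ≤ Fintype.card κ)
    {P : Submodule F (κ → F) → Prop}
    (H : ∀ x : Matrix.GeneralLinearGroup κ F, x ∈ Cfsg.Geo.omegaGL ⇑R → x ^ p = 1 →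
      (∀ z : F, (x : Matrix κ κ F) ≠ z • (1 : Matrix κ κ F)) →
      ∃ W : Submodule F (κ → F), (finrank F W = m ∧ Cfsg.Geo.IsNondegenerateOn (polar ⇑R) W ∧ P W) ∧
        W.map (Matrix.toLin' (x : Matrix κ κ F)) ≤ W)
    (μ : Multiset ℕ) (hb : ∀ e ∈ μ, 0 < e ∧ e ≤ p) (heven : ∀ e, Even e → Even (μ.count e))
    (hsum : μ.sum = Fintype.card κ)
    (htype : (∃ e ∈ μ, Odd e) ∨ ∃ X : Submodule F (κ → F),
      2 * finrank F X = Fintype.card κ ∧ ∀ x ∈ X, R x = 0) :
    ∃ ν : Multiset ℕ, ν ≤ μ ∧ ν.sum = m ∧ ∀ e, Even e → Even (ν.count e) := by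
  by_cases hbig : ∃ e ∈ μ, 1 < e
  · obtain ⟨ν, h1, h3, h4, -⟩ := exists_fixed_subpartition h2 hR H μ (fun e he => (hb e he).2) heven
      hsum htype hbig
    exact ⟨ν, h1, h3, h4⟩
  · have hone : ∀ e ∈ μ, e = 1 := fun e he => by
      have := (hb e he).1
      by_contra h
      exact hbig ⟨e, he, by omega⟩
    refine ⟨Multiset.replicate m 1, ?_, by simp, fun e he => ?_⟩
    · rw [Multiset.eq_replicate_card.2 hone] at hsum ⊢
      rw [Multiset.sum_replicate, smul_eq_mul, mul_one] at hsum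
      exact (Multiset.replicate_le_replicate 1).2 (by omega)
    · rw [Multiset.count_replicate, if_neg]
      · exact Even.zero
      · rintro rfl; exact Nat.not_even_one he

end Cfsg.Agent.Elusive25
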