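import Cfsg.Agent.Elusive.InvariantDim
import Mathlib.GroupTheory.Sylow

/-!
Subgroups of order five are conjugate when no element of order five fixes a vector in dimension four.
-/

set_option autoImplicit false

namespace Cfsg.Agent.Elusive25

open Matrix
open scoped MatrixGroups

/-- If commuting elements of order `r` generate the same subgroup, subgroups of order `r` are conjugate. -/
theorem exists_conj_mem_zpowers {G : Type*} [Group G] [Finite G] {r : ℕ} [Fact r.Prime]
    (hC : ∀ c y : G, orderOf c = r → orderOf y = r → Commute c y → y ∈ Subgroup.zpowers c)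
    {x y : G} (hx : orderOf x = r) (hy : orderOf y = r) : ∃ g : G, g⁻¹ * x * g ∈ Subgroup.zpowers y := by
  have hpg : ∀ z : G, orderOf z = r → IsPGroup r (Subgroup.zpowers z) := fun z hz =>
    IsPGroup.of_card (n := 1) (by rw [Nat.card_zpowers, hz, pow_one])
  obtain ⟨P, hP⟩ := (hpg x hx).exists_le_sylow
  obtain ⟨Q, hQ⟩ := (hpg y hy).exists_le_sylow
  obtain ⟨g, hg⟩ := MulAction.exists_smul_eq G P Q
  have hx' : g * x * g⁻¹ ∈ Q := by
    rw [← hg]
    exact ⟨x, hP (Subgroup.mem_zpowers x), rfl⟩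
  have : Nontrivial Q :=
    (Subgroup.nontrivial_iff_exists_ne_one _).2 ⟨y, hQ (Subgroup.mem_zpowers y), fun h => by
      rw [h, orderOf_one] at hy; exact (Fact.out : r.Prime).ne_one hy.symm⟩
  have := Q.isPGroup'.center_nontrivial
  have hdvd : r ∣ Nat.card (Subgroup.center Q) := by
    obtain ⟨k, hk, hc⟩ := (Q.isPGroup'.to_subgroup _).nontrivial_iff_card.1 this
    exact hc ▸ dvd_pow_self r hk.ne'
  obtain ⟨c, hc⟩ := exists_prime_orderOf_dvd_card' r hdvd
  set c' : G := ((c : Q) : G) with hc'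
  have hco : orderOf c' = r := by rw [hc', Subgroup.orderOf_coe, Subgroup.orderOf_coe, hc]
  have hcomm : ∀ z ∈ Q, Commute c' z := fun z hz =>
    (congrArg Subtype.val (Subgroup.mem_center_iff.1 c.2 ⟨z, hz⟩)).symm
  have h1 := hC c' _ hco hy (hcomm y (hQ (Subgroup.mem_zpowers y)))
  have hx'o : orderOf (g * x * g⁻¹) = r := by rw [← MulAut.conj_apply, MulEquiv.orderOf_eq, hx]
  have h2 := hC c' _ hco hx'o (hcomm _ hx')
  have heq : Subgroup.zpowers y = Subgroup.zpowers c' := by
    refine Subgroup.eq_of_le_of_card_ge (Subgroup.zpowers_le.2 h1) ?_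
    rw [Nat.card_zpowers, Nat.card_zpowers, hy, hco]
  exact ⟨g⁻¹, by rw [inv_inv, heq]; exact h2⟩

variable {ι : Type} [Fintype ι] [DecidableEq ι] [Nonempty ι] {F : Type*} [Field F]

/-- The product identity for fifth roots of unity. -/
theorem prod_sub_five {A : Type*} [CommRing A] (C Y : A) (h : 1 + C + C ^ 2 + C ^ 3 + C ^ 4 = 0) :
    (Y - 1) * (Y - C) * (Y - C ^ 2) * (Y - C ^ 3) * (Y - C ^ 4) = Y ^ 5 - 1 := by
  linear_combination (-Y ^ 4 + (C + C ^ 3) * Y ^ 3 - (C ^ 3 + C ^ 5) * Y ^ 2 + C ^ 6 * Y - (C - 1) * (C ^ 5 + 1)) * h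

/-- Commuting elements of order five generate the same subgroup if none of their products fixes a vector. -/
theorem mem_zpowers_of_free (T : Subgroup (GL ι F))
    (hfree : ∀ g ∈ T, g ^ 5 = 1 → g ≠ 1 → ∀ v, (g : Matrix ι ι F) *ᵥ v = v → v = 0)
    {c y : GL ι F} (hcT : c ∈ T) (hyT : y ∈ T) (hc : c ^ 5 = 1) (hc1 : c ≠ 1) (hy : y ^ 5 = 1) (hcy : Commute c y) :
    y ∈ Subgroup.zpowers c := by
  by_contra hno
  have hinj : ∀ j : ℕ, ((y : Matrix ι ι F) - (c : Matrix ι ι F) ^ j).det ≠ 0 := fun j h0 => by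
    obtain ⟨v, hv0, hv⟩ := Matrix.exists_mulVec_eq_zero_iff.2 h0
    rw [Matrix.sub_mulVec, sub_eq_zero] at hv
    refine hv0 (hfree ((c ^ j)⁻¹ * y) (T.mul_mem (T.inv_mem (T.pow_mem hcT j)) hyT) ?_ ?_ v ?_)
    · rw [((hcy.pow_left j).inv_left).mul_pow, inv_pow, ← pow_mul, mul_comm j, pow_mul, hc, one_pow, inv_one, one_mul, hy]
    · intro h1
      exact hno (by rw [← (inv_mul_eq_one.1 h1)]; exact Subgroup.pow_mem _ (Subgroup.mem_zpowers c) j)
    · rw [Units.val_mul, ← Matrix.mulVec_mulVec, hv, ← Units.val_pow_eq_pow_val, Matrix.mulVec_mulVec, ← Units.val_mul,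
        inv_mul_cancel, Units.val_one, Matrix.one_mulVec]
  set C := (c : Matrix ι ι F)
  set Y := (y : Matrix ι ι F)
  have hΦ : 1 + C + C ^ 2 + C ^ 3 + C ^ 4 = 0 := by
    have h0 : (C - 1) * (1 + C + C ^ 2 + C ^ 3 + C ^ 4) = 0 := by
      rw [show (C - 1) * (1 + C + C ^ 2 + C ^ 3 + C ^ 4) = C ^ 5 - 1 by noncomm_ring, ← Units.val_pow_eq_pow_val, hc,
        Units.val_one, sub_self]
    have hd : IsUnit (C - 1).det := by
      refine isUnit_iff_ne_zero.2 fun hd => ?_
      obtain ⟨v, hv0, hv⟩ := Matrix.exists_mulVec_eq_zero_iff.2 hd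
      rw [Matrix.sub_mulVec, Matrix.one_mulVec, sub_eq_zero] at hv
      exact hv0 (hfree c hcT hc hc1 v hv)
    have := congrArg ((C - 1)⁻¹ * ·) h0
    rwa [← mul_assoc, Matrix.nonsing_inv_mul _ hd, one_mul, mul_zero] at this
  let S := Algebra.adjoin F ({C, Y} : Set (Matrix ι ι F))
  letI : CommRing S := Algebra.adjoinCommRingOfComm F (by
    have h : C * Y = Y * C := congrArg Units.val hcy.eq
    intro a ha b hb
    simp only [Set.mem_insert_iff, Set.mem_singleton_iff] at ha hb
    rcases ha with rfl | rfl <;> rcases hb with rfl | rfl <;> first | rfl | exact h | exact h.symm)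
  let C' : S := ⟨C, Algebra.subset_adjoin (by simp)⟩
  let Y' : S := ⟨Y, Algebra.subset_adjoin (by simp)⟩
  have h := congrArg Subtype.val (prod_sub_five C' Y' (Subtype.ext hΦ))
  have hY : Y ^ 5 = 1 := by rw [← Units.val_pow_eq_pow_val, hy, Units.val_one]
  have h' : (Y - C ^ 0) * (Y - C ^ 1) * (Y - C ^ 2) * (Y - C ^ 3) * (Y - C ^ 4) = 0 := by
    rw [pow_zero, pow_one]
    exact h.trans (by show Y ^ 5 - 1 = 0; rw [hY, sub_self])
  have hd := congrArg Matrix.det h'
  simp only [Matrix.det_mul, Matrix.det_zero] at hd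
  simp only [mul_eq_zero, hinj, or_self] at hd

omit [Nonempty ι] in
/-- No fixed vectors when the prime field order has multiplicative order four. -/
theorem fixed_free_five [Fintype F] (hι : Fintype.card ι = 4)
    (ho : orderOf ((Fintype.card F : ℕ) : ZMod 5) = 4) {g : GL ι F} (hg : g ^ 5 = 1) (hg1 : g ≠ 1) {v : ι → F}
    (hv : (g : Matrix ι ι F) *ᵥ v = v) : v = 0 := by
  have : Fact (Nat.Prime 5) := ⟨by norm_num⟩
  have h5 : ¬ 5 ∣ Fintype.card F := fun h => by
    rw [(ZMod.natCast_eq_zero_iff _ 5).2 h, orderOf_eq_zero_iff'.2 (fun n hn => by simp [zero_pow hn.ne'])] at ho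
    omega
  set f : Module.End F (ι → F) := Matrix.toLinAlgEquiv' (g : Matrix ι ι F)
  have hf : f ^ 5 = 1 := by rw [← map_pow, ← Units.val_pow_eq_pow_val, hg, Units.val_one, map_one]
  have hmod := Elusive.finrank_fixed_mod hf h5
  rw [ho, Module.finrank_fintype_fun_eq_card, hι] at hmod
  set K := LinearMap.ker (f - 1)
  have hle : Module.finrank F K ≤ 4 := (Submodule.finrank_le _).trans_eq (by rw [Module.finrank_fintype_fun_eq_card, hι])
  by_contra hv0
  have hK : K ≠ ⊥ := fun h => hv0 (by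
    rw [← Submodule.mem_bot F, ← h, LinearMap.mem_ker, LinearMap.sub_apply, Module.End.one_apply, sub_eq_zero]
    exact hv)
  have hpos : 0 < Module.finrank F K := Nat.pos_of_ne_zero fun h => hK (Submodule.finrank_eq_zero.1 h)
  have htop := Submodule.eq_top_of_finrank_eq (show Module.finrank F K = Module.finrank F (ι → F) by
    rw [Module.finrank_fintype_fun_eq_card, hι]; omega)
  refine hg1 (Units.ext (Matrix.ext_of_mulVec_single fun j => ?_))
  rw [Units.val_one, Matrix.one_mulVec]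
  have : Pi.single j (1 : F) ∈ K := htop ▸ Submodule.mem_top
  rw [LinearMap.mem_ker, LinearMap.sub_apply, Module.End.one_apply, sub_eq_zero] at this
  exact this

end Cfsg.Agent.Elusive25
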