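import Cfsg.Agent.Classical.UBasic

/-!
Bases of eigenvectors; orthonormal eigenvectors of unitary maps in odd characteristic.
-/

set_option autoImplicit false

namespace Cfsg.Agent.Elusive25

open Module
open scoped Matrix

variable {F : Type*} [Field F]

/-- A spanning set of eigenvectors contains a basis. -/
theorem exists_eigenbasis {n : ℕ} (M : Matrix (Fin n) (Fin n) F) (C : F → Prop)
    (h : ∀ v, v ∈ Submodule.span F {w : Fin n → F | ∃ μ, C μ ∧ M *ᵥ w = μ • w}) :
    ∃ (Q : Matrix.GeneralLinearGroup (Fin n) F) (l : Fin n → F),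
      (∀ i, C (l i)) ∧ M * (Q : Matrix (Fin n) (Fin n) F) = (Q : Matrix (Fin n) (Fin n) F) * Matrix.diagonal l := by
  classical
  obtain ⟨t, htE, htspan, hli⟩ := exists_linearIndependent F {w : Fin n → F | ∃ μ, C μ ∧ M *ᵥ w = μ • w}
  have : Finite t := hli.finite
  letI := Fintype.ofFinite t
  let b₀ : Basis t F (Fin n → F) := Basis.mk hli (by
    rw [Subtype.range_coe, htspan]; exact fun v _ => h v)
  let b := b₀.reindex (Fintype.equivFinOfCardEq
    (show Fintype.card t = n by rw [← finrank_eq_card_basis b₀, Module.finrank_fin_fun]))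
  have hb : ∀ i, ∃ μ, C μ ∧ M *ᵥ b i = μ • b i := fun i => by
    simp only [b, Basis.reindex_apply, b₀, Basis.mk_apply]
    exact htE (_ : t).2
  choose l hl hl' using hb
  refine ⟨Matrix.GeneralLinearGroup.mk'' (Matrix.of fun i j => b j i) ?_, l, hl, ?_⟩
  · rw [← Matrix.isUnit_iff_isUnit_det, ← Matrix.linearIndependent_cols_iff_isUnit]
    exact b.linearIndependent
  · show M * (Matrix.of fun i j => b j i) = (Matrix.of fun i j => b j i) * Matrix.diagonal l
    ext i j
    rw [Matrix.mul_diagonal, Matrix.of_apply]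
    refine (congrFun (hl' j) i).trans ?_
    rw [Pi.smul_apply, smul_eq_mul, mul_comm]

/-- The vectors fixed up to a cube root of unity span. -/
theorem span_eigen_cube {n : ℕ} {ω η : F} (hω : IsPrimitiveRoot ω 3) (hη : η ≠ 0)
    (M : Matrix (Fin n) (Fin n) F) (hM : ∀ v, M *ᵥ (M *ᵥ (M *ᵥ v)) = η ^ 3 • v) (v : Fin n → F) :
    v ∈ Submodule.span F {w : Fin n → F | ∃ μ, (∃ k, k < 3 ∧ μ = η * ω ^ k) ∧ M *ᵥ w = μ • w} := by
  have hω3 : ω ^ 3 = 1 := hω.pow_eq_one
  have hsum : 1 + ω + ω ^ 2 = 0 := by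
    have := hω.geom_sum_eq_zero (by norm_num)
    simpa [Finset.sum_range_succ] using this
  have h3 : (3 : F) ≠ 0 := fun h => hω.ne_one (by norm_num) (by
    have : (ω - 1) * (ω - 1) = 0 := by linear_combination hsum - ω * h
    linear_combination mul_self_eq_zero.1 this)
  let P : F → (Fin n → F) := fun μ => (3 : F)⁻¹ • (v + μ⁻¹ • (M *ᵥ v) + (μ⁻¹ * μ⁻¹) • (M *ᵥ (M *ᵥ v)))
  have hP : ∀ k : ℕ, M *ᵥ P (η * ω ^ k) = (η * ω ^ k) • P (η * ω ^ k) := by
    intro k
    have hμ0 : η * ω ^ k ≠ 0 := mul_ne_zero hη (pow_ne_zero _ (hω.ne_zero (by norm_num)))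
    have hμ3 : (η * ω ^ k) ^ 3 = η ^ 3 := by rw [mul_pow, ← pow_mul, mul_comm k, pow_mul, hω3, one_pow, mul_one]
    generalize η * ω ^ k = μ at *
    simp only [P, Matrix.mulVec_smul, Matrix.mulVec_add, hM, ← hμ3, smul_add, smul_smul]
    field_simp
    module
  have hv : v = P (η * ω ^ 0) + P (η * ω ^ 1) + P (η * ω ^ 2) := by
    funext i
    simp only [P, Pi.add_apply, Pi.smul_apply, smul_eq_mul, pow_zero, pow_one, mul_one, mul_inv]
    have h1 : ω⁻¹ = ω ^ 2 := inv_eq_of_mul_eq_one_right (by linear_combination hω3)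
    have h2 : (ω ^ 2)⁻¹ = ω := inv_eq_of_mul_eq_one_right (by linear_combination hω3)
    rw [h1, h2]
    field_simp
    generalize v i = a, (M *ᵥ v) i = b, (M *ᵥ (M *ᵥ v)) i = c
    linear_combination (-(b * η) - c) * hsum - c * ω * hω3
  rw [hv]
  refine add_mem (add_mem ?_ ?_) ?_ <;>
    exact Submodule.subset_span ⟨_, ⟨_, by norm_num, rfl⟩, hP _⟩

/-- The vectors fixed up to a sign span. -/
theorem span_eigen_sq {n : ℕ} (h2 : (2 : F) ≠ 0) (M : Matrix (Fin n) (Fin n) F)
    (hM : ∀ v, M *ᵥ (M *ᵥ v) = v) (v : Fin n → F) :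
    v ∈ Submodule.span F {w : Fin n → F | ∃ μ : F, (μ = 1 ∨ μ = -1) ∧ M *ᵥ w = μ • w} := by
  have hv : v = (2 : F)⁻¹ • (v + M *ᵥ v) + (2 : F)⁻¹ • (v - M *ᵥ v) := by
    rw [← smul_add, show v + M *ᵥ v + (v - M *ᵥ v) = (2 : F) • v by module, smul_smul,
      inv_mul_cancel₀ h2, one_smul]
  rw [hv]
  refine add_mem (Submodule.subset_span ⟨1, Or.inl rfl, ?_⟩) (Submodule.subset_span ⟨-1, Or.inr rfl, ?_⟩)
  · rw [Matrix.mulVec_smul, Matrix.mulVec_add, hM]; module
  · rw [Matrix.mulVec_smul, Matrix.mulVec_sub, hM]; module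

open Classical.U in
/-- Orthonormal eigenvectors of a unitary map. -/
theorem exists_orthonormal_eigen {n q : ℕ} (hF : SqField F q) (h2 : (2 : F) ≠ 0)
    (M : Matrix (Fin n) (Fin n) F) (hiso : ∀ u v, herm q (M *ᵥ u) (M *ᵥ v) = herm q u v)
    (C : F → Prop) (hC : ∀ μ, C μ → μ * μ ^ q = 1) :
    ∀ (k : ℕ) (S : Submodule F (Fin n → F)), finrank F S = k →
      (∀ x ∈ S, (∀ y ∈ S, herm q x y = 0) → x = 0) →
      (∀ x ∈ S, x ∈ Submodule.span F {w : Fin n → F | w ∈ S ∧ ∃ μ, C μ ∧ M *ᵥ w = μ • w}) →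
      ∃ (b : Fin k → Fin n → F) (l : Fin k → F), (∀ i, b i ∈ S) ∧
        (∀ i, C (l i) ∧ M *ᵥ b i = l i • b i) ∧
        ∀ i j, herm q (b i) (b j) = if i = j then 1 else 0 := by
  have horth : ∀ u w : Fin n → F, ∀ μ ν : F, C ν → M *ᵥ u = μ • u → M *ᵥ w = ν • w →
      μ ≠ ν → herm q u w = 0 := by
    intro u w μ ν hν hu hw hne
    have h := hiso u w
    rw [hu, hw, herm_smul_left, herm_smul_right] at h
    by_contra h0
    refine hne ?_
    have h' : (μ * ν ^ q) * herm q u w = 1 * herm q u w := by rw [one_mul, mul_assoc]; exact h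
    linear_combination ν * mul_right_cancel₀ h0 h' - μ * hC ν hν
  intro k
  induction k with
  | zero => intro S _ _ _; exact ⟨Fin.elim0, Fin.elim0, fun i => i.elim0, fun i => i.elim0, fun i => i.elim0⟩
  | succ k ih =>
    intro S hS hnd hspan
    obtain ⟨u, ⟨huS, μ, hμ, hu⟩, huu⟩ : ∃ u ∈ {w : Fin n → F | w ∈ S ∧ ∃ μ, C μ ∧ M *ᵥ w = μ • w},
        herm q u u ≠ 0 := by
      by_contra hno
      push Not at hno
      have hpair : ∀ u ∈ {w : Fin n → F | w ∈ S ∧ ∃ μ, C μ ∧ M *ᵥ w = μ • w},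
          ∀ w ∈ {w : Fin n → F | w ∈ S ∧ ∃ μ, C μ ∧ M *ᵥ w = μ • w}, herm q u w = 0 := by
        rintro u ⟨huS, μ, hμ, hu⟩ w ⟨hwS, ν, hν, hw⟩
        by_cases hμν : μ = ν
        · subst hμν
          by_contra hx
          set c : F := ((herm q u w)⁻¹) ^ q with hc
          have h1 := hno (u + c • w) ⟨add_mem huS (S.smul_mem c hwS), μ, hμ, by
            rw [Matrix.mulVec_add, Matrix.mulVec_smul, hu, hw, smul_add, smul_comm]⟩
          rw [herm_add_left, hF.herm_add_right, hF.herm_add_right, herm_smul_left, herm_smul_right,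
            herm_smul_left, herm_smul_right, hno u ⟨huS, μ, hμ, hu⟩, hno w ⟨hwS, μ, hν, hw⟩,
            ← hF.herm_symm u w, hc, hF.pow_pow, inv_mul_cancel₀ hx, ← mul_pow, inv_mul_cancel₀ hx,
            one_pow] at h1
          exact h2 (by linear_combination h1)
        · exact horth u w μ ν hν hu hw hμν
      have hne : S ≠ ⊥ := fun h => by rw [h, finrank_bot] at hS; omega
      obtain ⟨x, hx, hx0⟩ := Submodule.exists_mem_ne_zero_of_ne_bot hne
      refine hx0 (hnd x hx fun y hy => ?_)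
      clear hx0
      have hxs := hspan x hx
      have hys := hspan y hy
      clear hx hy
      induction hxs using Submodule.span_induction with
      | mem a ha =>
        induction hys using Submodule.span_induction with
        | mem b hb => exact hpair a ha b hb
        | zero => exact hF.herm_zero_right a
        | add b b' _ _ hb hb' => rw [hF.herm_add_right, hb, hb', add_zero]
        | smul c b _ hb => rw [herm_smul_right, hb, mul_zero]
      | zero => simp [herm_def]
      | add a a' _ _ ha ha' => rw [herm_add_left, ha, ha', add_zero]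
      | smul c a _ ha => rw [herm_smul_left, ha, mul_zero]
    -- normalise
    obtain ⟨t, ht⟩ := hF.exists_norm (c := (herm q u u)⁻¹) (by rw [inv_pow, hF.herm_symm])
    have ht0 : t ≠ 0 := fun h => huu (inv_eq_zero.1 (by rw [← ht, h, zero_pow (by omega)]))
    let u₁ := t • u
    have hu₁S : u₁ ∈ S := S.smul_mem t huS
    have hu₁ : M *ᵥ u₁ = μ • u₁ := by rw [Matrix.mulVec_smul, hu, smul_comm]
    have hu₁u : herm q u₁ u₁ = 1 := by
      rw [herm_smul_left, herm_smul_right, ← mul_assoc, ← pow_succ', ht, inv_mul_cancel₀ huu]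
    let φ : (Fin n → F) →ₗ[F] F :=
      { toFun := fun x => herm q x u₁
        map_add' := fun x y => herm_add_left x y u₁
        map_smul' := fun c x => herm_smul_left c x u₁ }
    have hφ : ∀ x, φ x = herm q x u₁ := fun x => rfl
    set S' := S ⊓ LinearMap.ker φ with hS'
    have hproj : ∀ x ∈ S, x - φ x • u₁ ∈ S' := fun x hx => by
      refine ⟨sub_mem hx (S.smul_mem _ hu₁S), ?_⟩
      rw [SetLike.mem_coe, LinearMap.mem_ker, map_sub, map_smul, hφ u₁, hu₁u, smul_eq_mul, mul_one, sub_self]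
    have hu₁0 : u₁ ≠ 0 := fun h => one_ne_zero (by rw [← hu₁u, h]; exact hF.herm_zero_right _)
    have hdim : finrank F S' = k := by
      have hsup : S' ⊔ F ∙ u₁ = S := by
        refine le_antisymm (sup_le inf_le_left ((Submodule.span_singleton_le_iff_mem _ _).2 hu₁S)) fun x hx => ?_
        rw [← sub_add_cancel x (φ x • u₁)]
        exact Submodule.add_mem_sup (hproj x hx) (Submodule.smul_mem _ _ (Submodule.mem_span_singleton_self u₁))
      have hinf : S' ⊓ F ∙ u₁ = ⊥ := by
        rw [eq_bot_iff]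
        rintro x ⟨⟨-, hx⟩, hx'⟩
        obtain ⟨c, rfl⟩ := Submodule.mem_span_singleton.1 hx'
        rw [SetLike.mem_coe, LinearMap.mem_ker, map_smul, hφ u₁, hu₁u, smul_eq_mul, mul_one] at hx
        simp [hx]
      have h := Submodule.finrank_sup_add_finrank_inf_eq S' (F ∙ u₁)
      rw [hsup, hinf, finrank_bot, finrank_span_singleton hu₁0] at h
      omega
    obtain ⟨b, l, hbS, hbl, hb⟩ := ih S' hdim (fun x hx hx' => hnd x hx.1 fun y hy => by
      have := hx' _ (hproj y hy)
      rw [sub_eq_add_neg, ← neg_smul, hF.herm_add_right, herm_smul_right,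
        show herm q x u₁ = 0 from hx.2, mul_zero, add_zero] at this
      exact this) (fun x hx => by
      have hle : (Submodule.span F {w : Fin n → F | w ∈ S ∧ ∃ μ, C μ ∧ M *ᵥ w = μ • w}).map
          (LinearMap.id - φ.smulRight u₁) ≤
          Submodule.span F {w : Fin n → F | w ∈ S' ∧ ∃ μ, C μ ∧ M *ᵥ w = μ • w} := by
        rw [Submodule.map_span, Submodule.span_le]
        rintro _ ⟨e, ⟨heS, ν, hν, he⟩, rfl⟩
        refine Submodule.subset_span ⟨hproj e heS, ν, hν, ?_⟩
        show M *ᵥ (e - φ e • u₁) = ν • (e - φ e • u₁)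
        by_cases hνμ : ν = μ
        · subst hνμ
          rw [Matrix.mulVec_sub, Matrix.mulVec_smul, he, hu₁, smul_sub, smul_comm]
        · rw [hφ, horth e u₁ ν μ hμ he hu₁ hνμ, zero_smul, sub_zero, he]
      have := hle ⟨x, hspan x hx.1, rfl⟩
      rwa [LinearMap.sub_apply, LinearMap.id_apply, LinearMap.smulRight_apply,
        show φ x = 0 from hx.2, zero_smul, sub_zero] at this)
    refine ⟨Fin.cons u₁ b, Fin.cons μ l, fun i => ?_, fun i => ?_, fun i j => ?_⟩
    · refine Fin.cases ?_ (fun i => ?_) i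
      · simpa using hu₁S
      · simpa using (hbS i).1
    · refine Fin.cases ?_ (fun i => ?_) i
      · simpa using ⟨hμ, hu₁⟩
      · simpa using hbl i
    · have h0 : ∀ i, herm q (b i) u₁ = 0 := fun i => (hbS i).2
      have h0' : ∀ i, herm q u₁ (b i) = 0 := fun i => by
        rw [← hF.herm_symm, h0, zero_pow hF.q_ne_zero]
      refine Fin.cases ?_ (fun i => ?_) i <;> refine Fin.cases ?_ (fun j => ?_) j <;>
        simp [hu₁u, h0, h0', hb, Fin.succ_ne_zero, (Fin.succ_ne_zero _).symm]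

open Classical.U in
/-- A unitary map with spanning eigenvectors is diagonal in an orthonormal basis. -/
theorem exists_unitary_eigenbasis {n q : ℕ} (hF : SqField F q) (h2 : (2 : F) ≠ 0)
    (M : Matrix (Fin n) (Fin n) F) (hiso : ∀ u v, herm q (M *ᵥ u) (M *ᵥ v) = herm q u v)
    (C : F → Prop) (hC : ∀ μ, C μ → μ * μ ^ q = 1)
    (h : ∀ v, v ∈ Submodule.span F {w : Fin n → F | ∃ μ, C μ ∧ M *ᵥ w = μ • w}) :
    ∃ (Q : Matrix.GeneralLinearGroup (Fin n) F) (l : Fin n → F),
      (∀ u v, herm q ((Q : Matrix (Fin n) (Fin n) F) *ᵥ u) ((Q : Matrix (Fin n) (Fin n) F) *ᵥ v) = herm q u v) ∧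
      (∀ i, C (l i)) ∧ M * (Q : Matrix (Fin n) (Fin n) F) = (Q : Matrix (Fin n) (Fin n) F) * Matrix.diagonal l := by
  classical
  have hnd : ∀ x : Fin n → F, (∀ y, herm q x y = 0) → x = 0 := fun x hx => funext fun i => by
    have := hx (Pi.single i 1)
    simpa [herm_def, Pi.single_apply, ite_pow, zero_pow hF.q_ne_zero] using this
  obtain ⟨b, l, -, hbl, hb⟩ := exists_orthonormal_eigen hF h2 M hiso C hC n ⊤
    (by rw [finrank_top, Module.finrank_fin_fun]) (fun x _ hx => hnd x fun y => hx y trivial)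
    (fun x _ => by simpa using h x)
  set Qm : Matrix (Fin n) (Fin n) F := Matrix.of fun i j => b j i
  have hmul : ∀ u, Qm *ᵥ u = ∑ j, u j • b j := fun u => by
    funext i
    simp [Qm, Matrix.mulVec, dotProduct, Finset.sum_apply, mul_comm]
  have hsumL : ∀ (s : Finset (Fin n)) (f : Fin n → Fin n → F) (v : Fin n → F),
      herm q (∑ j ∈ s, f j) v = ∑ j ∈ s, herm q (f j) v := fun s f v => by
    induction s using Finset.induction_on with
    | empty => simp [herm_def]
    | insert a s ha ih => rw [Finset.sum_insert ha, Finset.sum_insert ha, herm_add_left, ih]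
  have hsumR : ∀ (s : Finset (Fin n)) (f : Fin n → Fin n → F) (v : Fin n → F),
      herm q v (∑ j ∈ s, f j) = ∑ j ∈ s, herm q v (f j) := fun s f v => by
    induction s using Finset.induction_on with
    | empty => simpa using hF.herm_zero_right v
    | insert a s ha ih => rw [Finset.sum_insert ha, Finset.sum_insert ha, hF.herm_add_right, ih]
  have hQ : ∀ u v, herm q (Qm *ᵥ u) (Qm *ᵥ v) = herm q u v := fun u v => by
    rw [hmul, hmul, hsumL]
    simp only [herm_smul_left, hsumR, herm_smul_right, hb, mul_ite, mul_one, mul_zero, Finset.sum_ite_eq,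
      Finset.mem_univ, if_true]
    simp [herm_def, mul_comm]
  have hu : IsUnit Qm := Matrix.mulVec_injective_iff_isUnit.1 fun x y hxy => by
    refine sub_eq_zero.1 (hnd _ fun z => ?_)
    have h0 : Qm *ᵥ (x - y) = 0 := by rw [Matrix.mulVec_sub]; exact sub_eq_zero.2 hxy
    rw [← hQ, h0]
    simp [herm_def]
  refine ⟨hu.unit, l, hQ, fun i => (hbl i).1, ?_⟩
  show M * Qm = Qm * Matrix.diagonal l
  ext i j
  rw [Matrix.mul_diagonal]
  refine (congrFun (hbl j).2 i).trans ?_
  rw [Pi.smul_apply, smul_eq_mul, mul_comm]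
  rfl

end Cfsg.Agent.Elusive25
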