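import Cfsg.Agent.MaxSub.SymplecticType

/-!
Elements of odd prime order normalising a symplectic-type group in dimension four: either scalar, or
with a small centraliser in the matrix algebra.
-/

set_option autoImplicit false

namespace Cfsg.Agent.Elusive25

open Matrix Module Cfsg.Geo
open scoped MatrixGroups commutatorElement

variable {ι : Type} [Fintype ι] [DecidableEq ι] {F : Type*} [Field F]

/-- The centraliser of a matrix in the matrix algebra. -/
def cent (M : Matrix ι ι F) : Submodule F (Matrix ι ι F) :=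
  LinearMap.ker (LinearMap.mulLeft F M - LinearMap.mulRight F M)

theorem mem_cent {M A : Matrix ι ι F} : A ∈ cent M ↔ M * A = A * M := by
  simp [cent, sub_eq_zero]

theorem finrank_cent_le (g x : GL ι F) :
    finrank F (cent ((g⁻¹ * x * g : GL ι F) : Matrix ι ι F)) ≤ finrank F (cent (x : Matrix ι ι F)) := by
  let f : cent ((g⁻¹ * x * g : GL ι F) : Matrix ι ι F) →ₗ[F] cent (x : Matrix ι ι F) :=
    { toFun := fun A => ⟨(g : Matrix ι ι F) * A.1 * ((g⁻¹ : GL ι F) : Matrix ι ι F), by
        have h := mem_cent.1 A.2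
        have hx : (x : Matrix ι ι F) * g = g * ((g⁻¹ * x * g : GL ι F) : Matrix ι ι F) := by
          rw [← Units.val_mul, ← Units.val_mul, ← mul_assoc, ← mul_assoc, mul_inv_cancel, one_mul]
        have hx' : ((g⁻¹ : GL ι F) : Matrix ι ι F) * x = ((g⁻¹ * x * g : GL ι F) : Matrix ι ι F) * (g⁻¹ : GL ι F) := by
          rw [← Units.val_mul, ← Units.val_mul, mul_inv_cancel_right]
        rw [mem_cent]
        calc (x : Matrix ι ι F) * ((g : Matrix ι ι F) * A.1 * ((g⁻¹ : GL ι F) : Matrix ι ι F))
            = (x : Matrix ι ι F) * g * A.1 * ((g⁻¹ : GL ι F) : Matrix ι ι F) := by simp only [mul_assoc]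
          _ = g * (((g⁻¹ * x * g : GL ι F) : Matrix ι ι F) * A.1) * ((g⁻¹ : GL ι F) : Matrix ι ι F) := by
            rw [hx]; simp only [mul_assoc]
          _ = g * A.1 * (((g⁻¹ * x * g : GL ι F) : Matrix ι ι F) * (g⁻¹ : GL ι F)) := by
            rw [h]; simp only [mul_assoc]
          _ = _ := by rw [← hx']; simp only [mul_assoc]⟩
      map_add' := fun A B => Subtype.ext (by simp [mul_add, add_mul])
      map_smul' := fun c A => Subtype.ext (by simp) }
  refine LinearMap.finrank_le_finrank_of_injective (f := f) fun A B h => Subtype.ext ?_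
  have h' := congrArg (fun C : cent (x : Matrix ι ι F) => ((g⁻¹ : GL ι F) : Matrix ι ι F) * C.1 * g) h
  simpa [f, mul_assoc] using h'

theorem finrank_cent_conj (g x : GL ι F) :
    finrank F (cent ((g⁻¹ * x * g : GL ι F) : Matrix ι ι F)) = finrank F (cent (x : Matrix ι ι F)) := by
  refine le_antisymm (finrank_cent_le g x) ?_
  have := finrank_cent_le g⁻¹ (g⁻¹ * x * g)
  rwa [show (g⁻¹)⁻¹ * (g⁻¹ * x * g) * g⁻¹ = x by group] at this

/-- A group of symplectic type in dimension four, in the form used here. -/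
structure SymType (R : Subgroup (GL ι F)) : Prop where
  card_idx : Fintype.card ι = 4
  irr : ActsAbsolutelyIrreducibly (matrixSet R)
  class_two : commutator R ≤ Subgroup.center R
  index_center : (Subgroup.center R).index = 16
  center_dvd : Nat.card (Subgroup.center R) ∣ 4

theorem SymType.finite {R : Subgroup (GL ι F)} (h : SymType R) : Finite R := by
  apply Nat.finite_of_card_ne_zero
  rw [← (Subgroup.center R).card_mul_index, h.index_center]
  exact Nat.mul_ne_zero (fun h0 => by have := h.center_dvd; rw [h0] at this; omega) (by norm_num)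

open Classical in
/-- Choosing one point in each non-trivial orbit of a permutation of prime order. -/
theorem exists_reps {α : Type*} [Fintype α] (π : Equiv.Perm α) {r : ℕ} (hr : r.Prime) (hπ : π ^ r = 1) :
    ∃ T : Finset α, (∀ a, ∃ t ∈ T, ∃ i : ℕ, (π ^ i) t = a) ∧
      T.card * r ≤ (r - 1) * (Finset.univ.filter fun a => π a = a).card + Fintype.card α := by
  let e := Fintype.equivFin α
  let P : α → Prop := fun q => π q ≠ q ∧ ∀ i, e q ≤ e ((π ^ i) q)
  refine ⟨(Finset.univ.filter fun a => π a = a) ∪ Finset.univ.filter P, fun a => ?_, ?_⟩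
  · by_cases ha : π a = a
    · exact ⟨a, Finset.mem_union_left _ (by simp [ha]), 0, rfl⟩
    obtain ⟨j, -, hj⟩ := Finset.exists_min_image (Finset.range r) (fun i => e ((π ^ i) a)) ⟨0, Finset.mem_range.2 hr.pos⟩
    refine ⟨(π ^ j) a, Finset.mem_union_right _ (Finset.mem_filter.2 ⟨Finset.mem_univ _, fun h => ha ?_, fun i => ?_⟩),
      (r - j % r), ?_⟩
    · refine (π ^ j).injective ?_
      rw [← Equiv.Perm.mul_apply, ← pow_succ, pow_succ', Equiv.Perm.mul_apply]
      exact h
    · rw [← Equiv.Perm.mul_apply, ← pow_add, pow_eq_pow_mod (i + j) hπ]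
      exact hj _ (Finset.mem_range.2 (Nat.mod_lt _ hr.pos))
    · have he : r - j % r + j = r * (1 + j / r) := by
        have := Nat.div_add_mod j r
        have := Nat.mod_lt j hr.pos
        rw [mul_add, mul_one]
        omega
      rw [← Equiv.Perm.mul_apply, ← pow_add, he, pow_mul, hπ, one_pow, Equiv.Perm.one_apply]
  set fx := Finset.univ.filter fun a => π a = a
  set T' := Finset.univ.filter P
  have hinj : (T' ×ˢ Finset.range r).card ≤ fxᶜ.card := by
    refine Finset.card_le_card_of_injOn (fun p => (π ^ p.2) p.1) ?_ ?_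
    · intro p hp
      simp only [Finset.coe_product, Set.mem_prod, Finset.mem_coe, T', Finset.mem_filter, P] at hp
      simp only [Finset.coe_compl, Set.mem_compl_iff, Finset.mem_coe, fx, Finset.mem_filter, Finset.mem_univ, true_and]
      intro h
      refine hp.1.2.1 ((π ^ p.2).injective ?_)
      rw [← Equiv.Perm.mul_apply, ← pow_succ, pow_succ', Equiv.Perm.mul_apply]
      exact h
    · rintro ⟨a, i⟩ ha ⟨b, j⟩ hb heq
      simp only [Finset.coe_product, Set.mem_prod, Finset.mem_coe, T', Finset.mem_filter, Finset.mem_range, P] at ha hb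
      simp only at heq
      have key : ∀ a b : α, ∀ i j : ℕ, (π ^ i) a = (π ^ j) b → j < r → b = (π ^ (r - j + i)) a := by
        intro a b i j h hj
        have h2 := congrArg (π ^ (r - j)) h
        rw [← Equiv.Perm.mul_apply, ← Equiv.Perm.mul_apply, ← pow_add, ← pow_add, Nat.sub_add_cancel hj.le, hπ,
          Equiv.Perm.one_apply] at h2
        exact h2.symm
      have hab : a = b := by
        refine e.injective (le_antisymm ?_ ?_)
        · have := ha.1.2.2 (r - j + i)
          rwa [← key a b i j heq hb.2] at this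
        · have := hb.1.2.2 (r - i + j)
          rwa [← key b a j i heq.symm ha.2] at this
      subst hab
      by_contra hne
      have hne' : i ≠ j := fun h => hne (by rw [h])
      have hs : π ^ (r - j + i) ∈ MulAction.stabilizer (Equiv.Perm α) a := (key a a i j heq hb.2).symm
      have hcop : (r - j + i).Coprime r := by
        rw [Nat.coprime_comm]
        refine hr.coprime_iff_not_dvd.2 fun ⟨k, hk⟩ => ?_
        rcases Nat.lt_or_ge k 2 with hk2 | hk2
        · interval_cases k <;> omega
        · have : r * 2 ≤ r * k := Nat.mul_le_mul_left r hk2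
          omega
      obtain ⟨k, hk⟩ := exists_pow_eq_self_of_coprime (x := π) (n := r - j + i)
        (hcop.coprime_dvd_right (orderOf_dvd_of_pow_eq_one hπ))
      refine ha.1.2.1 (?_ : π • a = a)
      rw [← hk]
      exact MulAction.mem_stabilizer_iff.1 (pow_mem hs k)
  rw [Finset.card_product, Finset.card_range, Finset.card_compl] at hinj
  have hle := Finset.card_union_le fx T'
  have hfx : fx.card ≤ Fintype.card α := Finset.card_le_univ _
  obtain ⟨r', rfl⟩ : ∃ r', r = r' + 1 := ⟨r - 1, by have := hr.pos; omega⟩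
  rw [Nat.add_sub_cancel]
  have h2 := Nat.mul_le_mul_right (r' + 1) hle
  rw [add_mul, mul_add fx.card, mul_one, mul_comm fx.card r'] at h2
  omega

variable [Finite F]

/-- Normalising elements of odd prime order modulo scalars. -/
theorem SymType.normalizer_cases {R : Subgroup (GL ι F)} (h : SymType R) {x : GL ι F}
    (hx : x ∈ subgroupNormalizer R) {r : ℕ} (hr : r.Prime) (hro : Odd r)
    (hxr : ∃ z : F, ((x ^ r : GL ι F) : Matrix ι ι F) = z • (1 : Matrix ι ι F)) :
    (∃ c : F, (x : Matrix ι ι F) = c • (1 : Matrix ι ι F)) ∨ (r = 3 ∧ finrank F (cent (x : Matrix ι ι F)) ≤ 8) ∨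
      (r = 5 ∧ finrank F (cent (x : Matrix ι ι F)) ≤ 4) := by
  classical
  have := h.finite
  have : Nonempty ι := Fintype.card_pos_iff.mp (by rw [h.card_idx]; norm_num)
  have : Fact r.Prime := ⟨hr⟩
  set Z := Subgroup.center R with hZ
  have := Fintype.ofFinite (R ⧸ Z)
  -- conjugation by `x`
  have hmem : ∀ g : GL ι F, g ∈ R ↔ x * g * x⁻¹ ∈ R := fun g => Subgroup.mem_normalizer_iff.1 hx g
  let φ : R ≃* R :=
    { toFun := fun g => ⟨x * g * x⁻¹, (hmem g).1 g.2⟩
      invFun := fun g => ⟨x⁻¹ * g * x, (hmem _).2 (by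
        rw [show x * (x⁻¹ * (g : GL ι F) * x) * x⁻¹ = g by group]; exact g.2)⟩
      left_inv := fun g => Subtype.ext (by show x⁻¹ * (x * (g : GL ι F) * x⁻¹) * x = g; group)
      right_inv := fun g => Subtype.ext (by show x * (x⁻¹ * (g : GL ι F) * x) * x⁻¹ = g; group)
      map_mul' := fun a b => Subtype.ext (by
        show x * ((a : GL ι F) * b) * x⁻¹ = x * a * x⁻¹ * (x * b * x⁻¹); group) }
  have hφval : ∀ g : R, ((φ g : R) : GL ι F) = x * g * x⁻¹ := fun g => rfl
  have hcomm_scalar : ∀ (g : GL ι F) (c : F) (y : GL ι F), (g : Matrix ι ι F) = c • 1 → y * g * y⁻¹ = g := by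
    intro g c y hg
    rw [show y * g = g * y from Units.ext (by rw [Units.val_mul, Units.val_mul, hg]; simp), mul_inv_cancel_right]
  have hφZ : ∀ z : R, z ∈ Z → φ z = z := fun z hz => by
    obtain ⟨c, hc⟩ := MaxSub.exists_scalar_of_mem_center h.irr hz
    exact Subtype.ext (hcomm_scalar _ c x hc)
  have hmap : Z.map (φ : R →* R) = Z := by
    ext g
    constructor
    · rintro ⟨z, hz, rfl⟩
      show φ z ∈ Z
      rw [hφZ z hz]; exact hz
    · exact fun hg => ⟨g, hg, hφZ g hg⟩
  let π := QuotientGroup.congr Z Z φ hmap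
  have hπmk : ∀ g : R, π (QuotientGroup.mk g) = QuotientGroup.mk (φ g) := fun g => rfl
  let σ : Equiv.Perm (R ⧸ Z) := π.toEquiv
  have hiter : ∀ (k : ℕ) (g : R), ((φ^[k] g : R) : GL ι F) = x ^ k * g * (x ^ k)⁻¹ ∧
      (σ ^ k) (QuotientGroup.mk g) = QuotientGroup.mk (φ^[k] g) := by
    intro k
    induction k with
    | zero => intro g; simp
    | succ k ih =>
      intro g
      rw [Function.iterate_succ', Function.comp_apply, hφval, (ih g).1, pow_succ' σ, Equiv.Perm.mul_apply, (ih g).2]
      refine ⟨?_, hπmk _⟩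
      rw [pow_succ' x]; group
  have hφr : ∀ g : R, φ^[r] g = g := fun g => Subtype.ext (by
    obtain ⟨z, hz⟩ := hxr
    rw [(hiter r g).1, show x ^ r * (g : GL ι F) = g * x ^ r from
      Units.ext (by rw [Units.val_mul, Units.val_mul, hz]; simp), mul_inv_cancel_right])
  have hσr : σ ^ r = 1 := Equiv.ext fun q => by
    obtain ⟨g, rfl⟩ := QuotientGroup.mk_surjective q
    rw [(hiter r g).2, hφr, Equiv.Perm.one_apply]
  have hfix : ∀ g : R, σ (QuotientGroup.mk g) = QuotientGroup.mk g → φ g = g := by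
    intro g hg
    obtain ⟨z, hzZ, hz⟩ : ∃ z ∈ Z, φ g = g * z :=
      ⟨g⁻¹ * φ g, QuotientGroup.eq.1 (hg.symm.trans (hπmk g)), by group⟩
    have hk : ∀ k, φ^[k] g = g * z ^ k := by
      intro k
      induction k with
      | zero => simp
      | succ k ih =>
        rw [Function.iterate_succ', Function.comp_apply, ih, map_mul, map_pow, hφZ z hzZ, hz, mul_assoc, ← pow_succ']
    have hzr : z ^ r = 1 := by simpa [hφr] using (hk r).symm
    have hz4 : z ^ 4 = 1 := by
      have h0 : (⟨z, hzZ⟩ : Z) ^ Nat.card Z = 1 := pow_card_eq_one'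
      obtain ⟨c, hc⟩ := h.center_dvd
      have := congrArg (fun w : Z => (w : R)) (congrArg (· ^ c) h0)
      simpa [← pow_mul, ← hc, hZ] using this
    have hcop : Nat.Coprime r 4 := by
      rw [hr.coprime_iff_not_dvd]
      intro hd
      have h2 := (Nat.prime_dvd_prime_iff_eq hr Nat.prime_two).1 (hr.dvd_of_dvd_pow (show r ∣ 2 ^ 2 by simpa using hd))
      obtain ⟨k, rfl⟩ := hro
      omega
    have hz1 := pow_gcd_eq_one.2 ⟨hzr, hz4⟩
    rw [hcop.gcd_eq_one, pow_one] at hz1
    rw [hz, hz1, mul_one]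
  -- fixed cosets
  set fx := Finset.univ.filter fun q : R ⧸ Z => σ q = q with hfx
  by_cases hall : fx = Finset.univ
  · refine Or.inl ?_
    refine h.irr.2 _ ?_
    rintro _ ⟨g, hg, rfl⟩
    have hq : σ (QuotientGroup.mk ⟨g, hg⟩) = QuotientGroup.mk ⟨g, hg⟩ :=
      (Finset.mem_filter.1 (hall.symm ▸ Finset.mem_univ _ : QuotientGroup.mk (⟨g, hg⟩ : R) ∈ fx)).2
    have := congrArg (fun w : R => (w : GL ι F)) (hfix _ hq)
    simp only [hφval] at this
    show (x : Matrix ι ι F) * g = g * x
    rw [← Units.val_mul, ← Units.val_mul, mul_inv_eq_iff_eq_mul.1 this]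
  refine Or.inr ?_
  have hL : Fintype.card (R ⧸ Z) = 16 := by rw [← Nat.card_eq_fintype_card]; exact h.index_center
  let S : Subgroup (R ⧸ Z) :=
    { carrier := {q | σ q = q}
      one_mem' := map_one π
      mul_mem' := fun {a b} ha hb => by
        show π (a * b) = a * b
        rw [map_mul, show π a = a from ha, show π b = b from hb]
      inv_mem' := fun {a} ha => by
        show π a⁻¹ = a⁻¹
        rw [map_inv, show π a = a from ha] }
  have hS : Nat.card S = fx.card := by
    rw [Nat.card_eq_fintype_card]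
    exact Fintype.card_of_subtype fx fun q => by simp [fx, S]
  have hdvd : fx.card ∣ 16 := by rw [← hS, ← hL, ← Nat.card_eq_fintype_card]; exact S.card_subgroup_dvd_card
  have hmod : fx.card ≡ 16 [MOD r] := by
    have h1 := Equiv.Perm.card_compl_support_modEq (σ := σ) (p := r) (n := 1) (by rwa [pow_one])
    rw [hL] at h1
    convert h1 using 2
    ext q; simp [fx]
  have hlt : fx.card < 16 := hL ▸ Finset.card_lt_iff_ne_univ _ |>.2 hall
  have hd : r ∣ 16 - fx.card := (Nat.modEq_iff_dvd' (Nat.le_of_dvd (by norm_num) hdvd)).1 hmod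
  have hcases : (fx.card = 1 ∧ (r = 3 ∨ r = 5)) ∨ (fx.card = 2 ∧ r = 7) ∨ (fx.card = 4 ∧ r = 3) := by
    have hr2 : r ≠ 2 := fun e => by subst e; exact absurd hro (by decide)
    have hprime : ∀ s : ℕ, s.Prime → r ∣ s → r = s := fun s hs hd => (Nat.prime_dvd_prime_iff_eq hr hs).1 hd
    obtain ⟨i, hi, hfi⟩ := (Nat.dvd_prime_pow Nat.prime_two).1 (show fx.card ∣ 2 ^ 4 by simpa using hdvd)
    rw [hfi] at hd hlt ⊢
    have hi4 : i < 4 := by
      by_contra hi4
      rw [show i = 4 by omega] at hlt
      omega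
    interval_cases i <;> norm_num at hd ⊢
    · rcases hr.dvd_mul.1 (show r ∣ 3 * 5 from hd) with h' | h'
      · exact Or.inl (hprime 3 Nat.prime_three h')
      · exact Or.inr (hprime 5 (by norm_num) h')
    · rcases hr.dvd_mul.1 (show r ∣ 2 * 7 from hd) with h' | h'
      · exact absurd (hprime 2 Nat.prime_two h') hr2
      · exact hprime 7 (by norm_num) h'
    · rcases hr.dvd_mul.1 (show r ∣ 2 ^ 2 * 3 from hd) with h' | h'
      · exact absurd (hprime 2 Nat.prime_two (hr.dvd_of_dvd_pow h')) hr2
      · exact hprime 3 Nat.prime_three h'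
    · exact hr2 (hprime 2 Nat.prime_two (hr.dvd_of_dvd_pow (show r ∣ 2 ^ 3 from hd)))
  -- seven is impossible
  have hno7 : ¬ (fx.card = 2 ∧ r = 7) := by
    rintro ⟨hf, rfl⟩
    obtain ⟨q₀, hq₀, hq₀1⟩ := Finset.exists_mem_ne (s := fx) (by omega) 1
    obtain ⟨g₀, rfl⟩ := QuotientGroup.mk_surjective q₀
    have hq₀' : σ (QuotientGroup.mk g₀) = QuotientGroup.mk g₀ := (Finset.mem_filter.1 hq₀).2
    have hg₀ := hfix _ hq₀'
    have hg₀Z : g₀ ∉ Z := fun hc => hq₀1 ((QuotientGroup.eq_one_iff _).2 hc)
    have hcen : ∀ a b : R, ⁅a, b⁆ ∈ Z := fun a b => h.class_two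
      (Subgroup.commutator_mem_commutator (Subgroup.mem_top a) (Subgroup.mem_top b))
    let χ : R →* Z :=
      MonoidHom.mk' (fun g => ⟨⁅g, g₀⁆, hcen g g₀⟩) fun a b =>
        Subtype.ext (by
          show ⁅a * b, g₀⁆ = ⁅a, g₀⁆ * ⁅b, g₀⁆
          have hc := Subgroup.mem_center_iff.1 (hcen b g₀)
          calc ⁅a * b, g₀⁆ = a * ⁅b, g₀⁆ * a⁻¹ * ⁅a, g₀⁆ := by simp only [commutatorElement_def]; group
            _ = ⁅b, g₀⁆ * ⁅a, g₀⁆ := by rw [hc a, mul_inv_cancel_right]
            _ = _ := (hc _).symm)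
    have hker : ∀ g, g ∈ χ.ker ↔ g * g₀ = g₀ * g := fun g => by
      rw [MonoidHom.mem_ker, ← Subtype.coe_inj]
      show ⁅g, g₀⁆ = 1 ↔ _
      exact commutatorElement_eq_one_iff_commute
    have hZle : Z ≤ χ.ker := fun z hz => (hker z).2 ((Subgroup.mem_center_iff.1 hz g₀).symm)
    have hidx : χ.ker.index ∣ 4 := by
      rw [Subgroup.index_ker]; exact (Subgroup.card_subgroup_dvd_card χ.range).trans h.center_dvd
    have hidx1 : χ.ker.index ≠ 1 := fun h1 => hg₀Z (Subgroup.mem_center_iff.2 fun g =>
      (hker g).1 (Subgroup.index_eq_one.1 h1 ▸ trivial))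
    set Dq := χ.ker.map (QuotientGroup.mk' Z) with hDq
    have hDidx : Dq.index = χ.ker.index := Subgroup.index_map_eq _ (QuotientGroup.mk'_surjective Z)
      (by rw [QuotientGroup.ker_mk']; exact hZle)
    have hDcard : Nat.card Dq * χ.ker.index = 16 := by
      rw [← hDidx, Dq.card_mul_index, Nat.card_eq_fintype_card (α := R ⧸ Z), hL]
    have hDmem : ∀ g : R, QuotientGroup.mk g ∈ Dq ↔ g * g₀ = g₀ * g := by
      intro g
      rw [← hker]
      refine ⟨?_, fun hg => ⟨g, hg, rfl⟩⟩
      rintro ⟨g', hg', e⟩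
      have hz : g'⁻¹ * g ∈ Z := QuotientGroup.eq.1 e
      simpa using mul_mem hg' (hZle hz)
    have hinv : ∀ q, σ q ∈ Dq ↔ q ∈ Dq := by
      intro q
      obtain ⟨g, rfl⟩ := QuotientGroup.mk_surjective q
      rw [show σ (QuotientGroup.mk g) = QuotientGroup.mk (φ g) from hπmk g, hDmem, hDmem]
      constructor
      · intro hc
        refine φ.injective ?_
        rw [map_mul, map_mul, hg₀]; exact hc
      · intro hc
        have := congrArg φ hc
        rwa [map_mul, map_mul, hg₀] at this
    have h1 := Equiv.Perm.card_compl_support_modEq (σ := σ.subtypePerm hinv) (p := 7) (n := 1) (by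
      refine Equiv.ext fun q => Subtype.ext ?_
      rw [pow_one, Equiv.Perm.subtypePerm_pow, Equiv.Perm.subtypePerm_apply]
      show (σ ^ 7) q.1 = q.1
      rw [hσr]
      rfl)
    have h2 : (σ.subtypePerm hinv).supportᶜ.card = 2 := by
      rw [← hf]
      refine Finset.card_bij (fun q _ => q.1) ?_ (fun a _ b _ e => Subtype.ext e) fun q hq => ⟨⟨q, ?_⟩, ?_, rfl⟩
      · intro q hq
        simp only [Finset.mem_compl, Equiv.Perm.mem_support, not_not] at hq
        simpa [fx] using congrArg Subtype.val hq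
      · obtain rfl | rfl : q = 1 ∨ q = QuotientGroup.mk g₀ := by
          by_contra hne
          push Not at hne
          have h3 : ({1, QuotientGroup.mk g₀, q} : Finset (R ⧸ Z)) ⊆ fx := by
            intro w hw
            simp only [Finset.mem_insert, Finset.mem_singleton] at hw
            rcases hw with rfl | rfl | rfl
            · exact Finset.mem_filter.2 ⟨Finset.mem_univ _, map_one π⟩
            · exact hq₀
            · exact hq
          have h4 := Finset.card_le_card h3
          rw [Finset.card_insert_of_notMem (by simp [Ne.symm hq₀1, Ne.symm hne.1]), Finset.card_insert_of_notMem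
            (by simp [Ne.symm hne.2]), Finset.card_singleton, hf] at h4
          omega
        · exact one_mem _
        · exact (hDmem g₀).2 rfl
      · simp only [Finset.mem_compl, Equiv.Perm.mem_support, not_not]
        exact Subtype.ext (Finset.mem_filter.1 hq).2
    rw [h2, ← Nat.card_eq_fintype_card] at h1
    obtain ⟨i, hi, hii⟩ := (Nat.dvd_prime_pow Nat.prime_two).1 (show χ.ker.index ∣ 2 ^ 2 by simpa using hidx)
    rw [hii] at hDcard hidx1
    interval_cases i
    · exact hidx1 rfl
    all_goals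
      norm_num [-Nat.card_eq_fintype_card] at hDcard
      rw [Nat.ModEq] at h1
      change 2 % 7 = Nat.card Dq % 7 at h1
      omega
  -- the centraliser
  obtain ⟨T, hT, hTcard⟩ := exists_reps σ hr hσr
  let v : R ⧸ Z → Matrix ι ι F := fun q => ((q.out : R) : GL ι F)
  have hspan : ⊤ ≤ Submodule.span F (Set.range v) := by
    have := Cfsg.Agent.GeoClasses.spanAlg_toSubmodule (F := F) R
    rw [Cfsg.Agent.GeoClasses.spanAlg_eq_top h.irr, Algebra.top_toSubmodule] at this
    rw [this, Submodule.span_le]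
    rintro _ ⟨g, hg, rfl⟩
    obtain ⟨z, hz⟩ := QuotientGroup.mk_out_eq_mul Z (⟨g, hg⟩ : R)
    obtain ⟨c, hc⟩ := MaxSub.exists_scalar_of_mem_center h.irr (Subgroup.inv_mem _ z.2)
    have hg' : (⟨g, hg⟩ : R) = (QuotientGroup.mk (⟨g, hg⟩ : R) : R ⧸ Z).out * (z : R)⁻¹ := by
      rw [hz, mul_inv_cancel_right]
    have e : (g : Matrix ι ι F) = c • v (QuotientGroup.mk (⟨g, hg⟩ : R)) := by
      have := congrArg (fun w : R => ((w : GL ι F) : Matrix ι ι F)) hg'
      simp only [Subgroup.coe_mul, Units.val_mul, hc, Matrix.mul_smul, Matrix.mul_one] at this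
      exact this
    show (g : Matrix ι ι F) ∈ Submodule.span F (Set.range v)
    rw [e]
    exact Submodule.smul_mem _ _ (Submodule.subset_span ⟨_, rfl⟩)
  have hli : LinearIndependent F v := linearIndependent_of_top_le_span_of_card_eq_finrank hspan (by
    rw [hL, Module.finrank_matrix, Module.finrank_self, h.card_idx])
  have hcq : ∀ q, ∃ c : F, c ≠ 0 ∧ (x : Matrix ι ι F) * v q = c • v (σ q) * x := by
    intro q
    obtain ⟨z, hz⟩ := QuotientGroup.mk_out_eq_mul Z (φ q.out)
    have hσq : σ q = QuotientGroup.mk (φ q.out) := by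
      conv_lhs => rw [← QuotientGroup.out_eq' q]
      exact hπmk _
    obtain ⟨c, hc⟩ := MaxSub.exists_scalar_of_mem_center h.irr (Subgroup.inv_mem _ z.2)
    refine ⟨c, fun h0 => ?_, ?_⟩
    · rw [h0, zero_smul] at hc; exact Units.ne_zero _ hc
    have e : φ q.out = (σ q).out * (z : R)⁻¹ := by rw [hσq, hz, mul_inv_cancel_right]
    have := congrArg (fun w : R => ((w : GL ι F) : Matrix ι ι F) * x) e
    simp only [hφval, Subgroup.coe_mul, Units.val_mul, hc, Matrix.mul_smul, Matrix.mul_one] at this
    rwa [mul_assoc _ ((x⁻¹ : GL ι F) : Matrix ι ι F), Units.inv_mul, mul_one] at this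
  choose c hc0 hc using hcq
  let bv := Basis.mk hli hspan
  have hrel : ∀ A ∈ cent (x : Matrix ι ι F), ∀ q, bv.repr A (σ q) = bv.repr A q * c q := by
    intro A hA q
    set a := bv.repr A
    have hA1 : A = ∑ p, a p • v p := by
      conv_lhs => rw [← bv.sum_repr A]
      simp [bv, a]
    have hA2 : (x : Matrix ι ι F) * A = (∑ p, (a p * c p) • v (σ p)) * x := by
      conv_lhs => rw [hA1]
      rw [Finset.mul_sum, Finset.sum_mul]
      exact Finset.sum_congr rfl fun p _ => by rw [Matrix.mul_smul, hc, ← smul_mul_assoc, smul_smul]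
    rw [mem_cent.1 hA] at hA2
    have hA3 : A = ∑ p, (a (σ.symm p) * c (σ.symm p)) • v p := by
      rw [← Equiv.sum_comp σ]
      simp only [Equiv.symm_apply_apply]
      exact x.isUnit.mul_right_cancel hA2
    have := Fintype.linearIndependent_iff.1 hli (fun p => a p - a (σ.symm p) * c (σ.symm p)) (by
      simp only [sub_smul, Finset.sum_sub_distrib]
      rw [← hA1, ← hA3, sub_self]) (σ q)
    simpa [sub_eq_zero] using this
  let f : cent (x : Matrix ι ι F) →ₗ[F] (T → F) :=
    { toFun := fun A t => bv.repr A.1 t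
      map_add' := fun A B => by ext t; simp
      map_smul' := fun s A => by ext t; simp }
  have hf : Function.Injective f := by
    rw [← LinearMap.ker_eq_bot, eq_bot_iff]
    intro A hA
    rw [LinearMap.mem_ker] at hA
    refine (Submodule.mem_bot F).2 (Subtype.ext (bv.repr.injective (Finsupp.ext fun q => ?_)))
    obtain ⟨t, ht, i, rfl⟩ := hT q
    simp only [ZeroMemClass.coe_zero, map_zero, Finsupp.coe_zero, Pi.zero_apply]
    induction i with
    | zero => exact congrFun hA ⟨t, ht⟩
    | succ i ih => rw [pow_succ', Equiv.Perm.mul_apply, hrel _ A.2, ih, zero_mul]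
  have hdim := LinearMap.finrank_le_finrank_of_injective hf
  rw [Module.finrank_fintype_fun_eq_card, Fintype.card_coe] at hdim
  rw [hL] at hTcard
  replace hTcard : T.card * r ≤ (r - 1) * fx.card + 16 := by
    convert hTcard using 4
    ext q; simp [fx]
  rcases hcases with ⟨h1, rfl | rfl⟩ | h7 | ⟨h1, rfl⟩
  · exact Or.inl ⟨rfl, by omega⟩
  · exact Or.inr ⟨rfl, by omega⟩
  · exact absurd h7 hno7
  · exact Or.inl ⟨rfl, by omega⟩

end Cfsg.Agent.Elusive25
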