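import Cfsg.Agent.Elusive.SubfieldOdd
import Cfsg.Agent.Elusive.QuadStructure
import Cfsg.Agent.Elusive25.NormBound

/-!
Elements of order three in dimension four, block matrices with large centralisers, and conjugation
adjusted to determinant one.
-/

set_option autoImplicit false

namespace Cfsg.Agent.Elusive25

open Matrix Module Cfsg.Geo
open scoped MatrixGroups

variable {F : Type*} [Field F]

/-- Conjugating an element of a normaliser. -/
theorem conj_mem_normalizer {G : Type*} [Group G] {R R' : Subgroup G} {P : G}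
    (hR : R' = R.map (MulAut.conj P).toMonoidHom) {g : G} (hg : g ∈ Subgroup.normalizer (R : Set G)) :
    P * g * P⁻¹ ∈ Subgroup.normalizer (R' : Set G) := by
  refine Subgroup.mem_normalizer_iff.2 fun x => ?_
  have key : ∀ y, y ∈ R' ↔ P⁻¹ * y * P ∈ R := fun y => by
    rw [hR]
    exact ⟨fun ⟨z, hz, e⟩ => by rw [← e]; show P⁻¹ * (P * z * P⁻¹) * P ∈ R; simpa [mul_assoc] using hz,
      fun h => ⟨_, h, by show P * (P⁻¹ * y * P) * P⁻¹ = y; group⟩⟩
  rw [key, key, Subgroup.mem_normalizer_iff.1 hg (P⁻¹ * x * P)]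
  congr! 1
  group

/-- A conjugation of an element of order `r` can be made by a matrix of determinant one. -/
theorem exists_det_one_conj [Fintype F] {ι : Type} [Fintype ι] [DecidableEq ι] [Nonempty ι] {r : ℕ} [Fact r.Prime]
    (hr : ¬ r ∣ Fintype.card F) {y y₀ : GL ι F} (hy : y ^ r = 1) {P : GL ι F} (hP : P * y = y₀ * P) :
    ∃ g : GL ι F, (g : Matrix ι ι F).det = 1 ∧ g⁻¹ * y₀ * g = y := by
  have hdet : (P : Matrix ι ι F).det ≠ 0 := (Matrix.GeneralLinearGroup.det P).ne_zero
  obtain ⟨Z, hZ, hZd⟩ := Elusive.exists_commute_det_of_order hr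
    (f := (Matrix.toLinAlgEquiv' (y : Matrix ι ι F) : Module.End F (ι → F)))
    (by rw [← map_pow, ← Units.val_pow_eq_pow_val, hy, Units.val_one, map_one])
    (by rw [Module.finrank_fintype_fun_eq_card]; exact Fintype.card_pos) ((P : Matrix ι ι F).det)⁻¹
  have hZd' : (LinearMap.toMatrix' Z).det = ((P : Matrix ι ι F).det)⁻¹ := by rw [LinearMap.det_toMatrix', hZd]
  let Y : GL ι F := Matrix.GeneralLinearGroup.mkOfDetNeZero (LinearMap.toMatrix' Z) (hZd'.trans_ne (inv_ne_zero hdet))
  have hYy : Y * y = y * Y := by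
    refine Units.ext ?_
    show LinearMap.toMatrix' Z * (y : Matrix ι ι F) = (y : Matrix ι ι F) * LinearMap.toMatrix' Z
    have h : Z * Matrix.toLin' (y : Matrix ι ι F) = Matrix.toLin' (y : Matrix ι ι F) * Z := hZ
    have := congrArg LinearMap.toMatrix' h
    rwa [LinearMap.toMatrix'_mul, LinearMap.toMatrix'_mul, LinearMap.toMatrix'_toLin'] at this
  refine ⟨P * Y, ?_, ?_⟩
  · rw [Units.val_mul, Matrix.det_mul]
    show _ * (LinearMap.toMatrix' Z).det = 1
    rw [hZd', mul_inv_cancel₀ hdet]
  · rw [_root_.mul_inv_rev]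
    calc Y⁻¹ * P⁻¹ * y₀ * (P * Y) = Y⁻¹ * P⁻¹ * (y₀ * P) * Y := by group
      _ = Y⁻¹ * (y * Y) := by rw [← hP]; group
      _ = y := by rw [← hYy, inv_mul_cancel_left]

/-- An element of order three fixing a non-zero vector: a standard basis. -/
theorem exists_three_basis (hno : ∀ l : F, l * l + l + 1 ≠ 0) {f : Module.End F (Fin 4 → F)} (hf : f ^ 3 = 1)
    (hf1 : f ≠ 1) {v : Fin 4 → F} (hv0 : v ≠ 0) (hv : f v = v) :
    ∃ b : Basis (Fin 4) F (Fin 4 → F), f (b 0) = b 0 ∧ f (b 1) = b 1 ∧ f (b 2) = b 3 ∧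
      f (b 3) = -(b 3 + b 2) := by
  classical
  have h3 : (3 : F) ≠ 0 := fun h => hno 1 (by linear_combination h)
  have hcube : ∀ w, f (f (f w)) = w := fun w => by
    have := LinearMap.congr_fun hf w
    simpa [pow_succ, Module.End.mul_apply] using this
  set K := LinearMap.ker (f - 1) with hK
  have hKv : ∀ w, w ∈ K ↔ f w = w := fun w => by simp [K, sub_eq_zero]
  set N := f - 1 with hN
  have hrange : ∀ u ∈ LinearMap.range N, f (f u) + f u + u = 0 := by
    rintro _ ⟨w, rfl⟩
    simp only [N, LinearMap.sub_apply, Module.End.one_apply, map_sub, hcube]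
    abel
  have hind : ∀ u, f (f u) + f u + u = 0 → u ≠ 0 → ∀ a b : F, a • u + b • f u ∈ K → a = 0 ∧ b = 0 := by
    intro u hu hu0 a b hab
    rw [hKv, map_add, map_smul, map_smul,
      show f (f u) = -f u - u by rw [eq_sub_iff_add_eq, eq_neg_iff_add_eq_zero, ← hu]; abel] at hab
    have h : (-b - a) • u + (a - b - b) • f u = 0 := by
      linear_combination (norm := module) hab
    by_cases hc : a - b - b = 0
    · rw [hc, zero_smul, add_zero] at h
      have hb : -b - a = 0 := (smul_eq_zero.1 h).resolve_right hu0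
      have hb0 : (3 : F) * b = 0 := by linear_combination -hc - hb
      have hb' := (mul_eq_zero.1 hb0).resolve_left h3
      exact ⟨by rw [hb'] at hb; linear_combination -hb, hb'⟩
    · exfalso
      have hfu : f u = ((a - b - b)⁻¹ * (b + a)) • u := by
        rw [mul_smul, eq_inv_smul_iff₀ hc]
        linear_combination (norm := module) h
      set l := (a - b - b)⁻¹ * (b + a)
      refine hno l ((smul_eq_zero.1 (?_ : (l * l + l + 1) • u = 0)).resolve_right hu0)
      rw [hfu, map_smul, hfu, smul_smul] at hu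
      linear_combination (norm := module) hu
  obtain ⟨w, hw⟩ : ∃ w, N w ≠ 0 := by
    by_contra h
    push Not at h
    exact hf1 (LinearMap.ext fun w => by simpa [N, sub_eq_zero] using h w)
  set u := N w
  have hu := hrange u ⟨w, rfl⟩
  have hK2 : finrank F K = 2 := by
    have hr1 := LinearMap.finrank_range_add_finrank_ker N
    rw [Module.finrank_fin_fun] at hr1
    have hle : 2 ≤ finrank F (LinearMap.range N) := by
      have hli : LinearIndependent F ![(⟨u, ⟨w, rfl⟩⟩ : LinearMap.range N), ⟨f u, ⟨f w, by simp [u, N]⟩⟩] := by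
        refine LinearIndependent.pair_iff.2 fun a b h => hind u hu hw a b ?_
        have := congrArg Subtype.val h
        simp only [Submodule.coe_add, Submodule.coe_smul, ZeroMemClass.coe_zero] at this
        rw [this]; exact zero_mem _
      simpa using hli.fintype_card_le_finrank
    have hpos : 0 < finrank F K := Nat.pos_of_ne_zero fun h => hv0 (by
      rw [← Submodule.mem_bot F, ← Submodule.finrank_eq_zero.1 h]; exact (hKv v).2 hv)
    -- the range splits into planes
    have hne3 : finrank F (LinearMap.range N) ≠ 3 := by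
      intro h3'
      have hlt : Submodule.span F ({u, f u} : Set (Fin 4 → F)) < LinearMap.range N := by
        refine lt_of_le_of_ne (Submodule.span_le.2 ?_) fun e => ?_
        · rintro _ (rfl | rfl)
          exacts [⟨w, rfl⟩, ⟨f w, by simp [u, N]⟩]
        · have h1 : finrank F (Submodule.span F ((({u, f u} : Finset (Fin 4 → F))) : Set (Fin 4 → F))) ≤ 2 :=
            (finrank_span_finset_le_card _).trans Finset.card_le_two
          rw [Finset.coe_pair, e] at h1
          omega
      obtain ⟨u', hu'r, hu'⟩ := SetLike.exists_of_lt hlt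
      have hu'2 := hrange u' hu'r
      have hli : LinearIndependent F ![u, f u, u', f u'] := by
        rw [Fintype.linearIndependent_iff]
        intro g hg
        simp only [Fin.sum_univ_four, Matrix.cons_val] at hg
        have hfu2 : f (f u) = -f u - u := by rw [eq_sub_iff_add_eq, eq_neg_iff_add_eq_zero, ← hu]; abel
        have hfu2' : f (f u') = -f u' - u' := by rw [eq_sub_iff_add_eq, eq_neg_iff_add_eq_zero, ← hu'2]; abel
        set S := Submodule.span F ({u, f u} : Set (Fin 4 → F))
        have hm : g 2 • u' + g 3 • f u' ∈ S := by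
          rw [show g 2 • u' + g 3 • f u' = -(g 0 • u + g 1 • f u) by
            rw [eq_neg_iff_add_eq_zero, ← hg]; abel]
          exact S.neg_mem (S.add_mem (S.smul_mem _ (Submodule.subset_span (by simp)))
            (S.smul_mem _ (Submodule.subset_span (by simp))))
        have hSf : ∀ x ∈ S, f x ∈ S := by
          intro x hx
          obtain ⟨a, b, rfl⟩ := Submodule.mem_span_pair.1 hx
          rw [map_add, map_smul, map_smul, hfu2]
          exact Submodule.mem_span_pair.2 ⟨-b, a - b, by module⟩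
        have hzero : g 2 = 0 ∧ g 3 = 0 := by
          by_contra hne
          have h1 := hSf _ hm
          rw [map_add, map_smul, map_smul, hfu2'] at h1
          -- eliminate `f u'`
          have h2 := S.sub_mem (S.smul_mem (g 2 - g 3) hm) (S.smul_mem (g 3) h1)
          have h3 : (g 2 * g 2 - g 2 * g 3 + g 3 * g 3) • u' ∈ S := by
            convert h2 using 1
            module
          refine hu' ?_
          have hn : g 2 * g 2 - g 2 * g 3 + g 3 * g 3 ≠ 0 := by
            intro h0
            rcases eq_or_ne (g 3) 0 with e | e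
            · rw [e] at h0
              exact hne ⟨mul_self_eq_zero.1 (by linear_combination h0), e⟩
            · refine hno (-(g 2 / g 3)) ?_
              field_simp
              linear_combination h0
          simpa [smul_smul, hn] using S.smul_mem (g 2 * g 2 - g 2 * g 3 + g 3 * g 3)⁻¹ h3
        rw [hzero.1, hzero.2, zero_smul, zero_smul, add_zero, add_zero] at hg
        obtain ⟨e0, e1⟩ := hind u hu hw (g 0) (g 1) (by rw [hg]; exact zero_mem _)
        intro j
        fin_cases j
        exacts [e0, e1, hzero.1, hzero.2]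
      have hsub : Submodule.span F (Set.range ![u, f u, u', f u']) ≤ LinearMap.range N := by
        rw [Submodule.span_le]
        rintro _ ⟨j, rfl⟩
        obtain ⟨w', hw'⟩ := hu'r
        fin_cases j
        exacts [⟨w, rfl⟩, ⟨f w, by simp [u, N]⟩, ⟨w', hw'⟩, ⟨f w', by simp [← hw', N]⟩]
      have := Submodule.finrank_mono hsub
      rw [finrank_span_eq_card hli, Fintype.card_fin] at this
      omega
    have hKN : LinearMap.ker N = K := rfl
    rw [hKN] at hr1
    omega
  let bK := Module.finBasisOfFinrankEq F K hK2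
  let vec : Fin 4 → (Fin 4 → F) := ![bK 0, bK 1, u, f u]
  have hli : LinearIndependent F vec := by
    rw [Fintype.linearIndependent_iff]
    intro g hg
    simp only [Fin.sum_univ_four, vec, Matrix.cons_val] at hg
    obtain ⟨e2, e3⟩ := hind u hu hw (g 2) (g 3) (by
      rw [show g 2 • u + g 3 • f u = -(g 0 • (bK 0 : Fin 4 → F) + g 1 • bK 1) by
        rw [eq_neg_iff_add_eq_zero, ← hg]; abel]
      exact K.neg_mem (K.add_mem (K.smul_mem _ (bK 0).2) (K.smul_mem _ (bK 1).2)))
    rw [e2, e3, zero_smul, zero_smul, add_zero, add_zero] at hg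
    have := Fintype.linearIndependent_iff.1 bK.linearIndependent ![g 0, g 1] (Subtype.ext (by simpa using hg))
    intro j
    fin_cases j
    exacts [this 0, this 1, e2, e3]
  refine ⟨basisOfLinearIndependentOfCardEqFinrank hli (by simp), ?_, ?_, ?_, ?_⟩ <;>
    simp only [coe_basisOfLinearIndependentOfCardEqFinrank, vec, Matrix.cons_val]
  · exact (hKv _).1 (bK 0).2
  · exact (hKv _).1 (bK 1).2
  · rw [eq_neg_iff_add_eq_zero, ← hu]; abel

/-- Two elements of order three of the same kind are conjugate. -/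
theorem exists_conj_three (hno : ∀ l : F, l * l + l + 1 ≠ 0) {y y₀ : GL (Fin 4) F} (hy : y ^ 3 = 1) (hy₀ : y₀ ^ 3 = 1)
    (h : ((y : Matrix (Fin 4) (Fin 4) F) * y + y + 1 = 0 ∧ (y₀ : Matrix (Fin 4) (Fin 4) F) * y₀ + y₀ + 1 = 0) ∨
      ((y ≠ 1 ∧ ∃ v : Fin 4 → F, v ≠ 0 ∧ (y : Matrix (Fin 4) (Fin 4) F) *ᵥ v = v) ∧
        (y₀ ≠ 1 ∧ ∃ v : Fin 4 → F, v ≠ 0 ∧ (y₀ : Matrix (Fin 4) (Fin 4) F) *ᵥ v = v))) :
    ∃ P : GL (Fin 4) F, P * y = y₀ * P := by
  suffices ∃ E : (Fin 4 → F) ≃ₗ[F] (Fin 4 → F), ∀ v,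
      E ((y : Matrix (Fin 4) (Fin 4) F) *ᵥ v) = (y₀ : Matrix (Fin 4) (Fin 4) F) *ᵥ E v by
    obtain ⟨E, hE⟩ := this
    refine ⟨⟨LinearMap.toMatrix' E.toLinearMap, LinearMap.toMatrix' E.symm.toLinearMap, ?_, ?_⟩,
      Units.ext (Matrix.toLin'.injective (LinearMap.ext fun v => ?_))⟩
    · rw [← LinearMap.toMatrix'_comp, LinearEquiv.comp_symm, LinearMap.toMatrix'_id]
    · rw [← LinearMap.toMatrix'_comp, LinearEquiv.symm_comp, LinearMap.toMatrix'_id]
    · simp only [Units.val_mul, Matrix.toLin'_mul, Matrix.toLin'_toMatrix', LinearMap.comp_apply, Matrix.toLin'_apply]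
      exact hE v
  have toEnd : ∀ z : GL (Fin 4) F, z ^ 3 = 1 →
      (Matrix.toLinAlgEquiv' (z : Matrix (Fin 4) (Fin 4) F) : Module.End F (Fin 4 → F)) ^ 3 = 1 := fun z hz => by
    rw [← map_pow, ← Units.val_pow_eq_pow_val, hz, Units.val_one, map_one]
  rcases h with ⟨h1, h2⟩ | ⟨⟨h1, v, hv0, hv⟩, h2, v', hv0', hv'⟩
  · have quad : ∀ z : GL (Fin 4) F, (z : Matrix (Fin 4) (Fin 4) F) * z + z + 1 = 0 →
        (Matrix.toLinAlgEquiv' (z : Matrix (Fin 4) (Fin 4) F) : Module.End F (Fin 4 → F)) *
          Matrix.toLinAlgEquiv' (z : Matrix (Fin 4) (Fin 4) F) =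
        (-1 : F) • Matrix.toLinAlgEquiv' (z : Matrix (Fin 4) (Fin 4) F) + (-1 : F) • 1 := fun z hz => by
      rw [← map_mul, ← map_smul, ← map_one Matrix.toLinAlgEquiv', ← map_smul, ← map_add]
      congr 1
      rw [neg_one_smul, neg_one_smul, ← sub_eq_add_neg, eq_sub_iff_add_eq, eq_neg_iff_add_eq_zero, ← hz]
      abel
    obtain ⟨E, hE⟩ := Elusive.exists_conj_quad (quad y₀ h2) (quad y h1)
      (fun l hl => hno l (by linear_combination hl)) (d := 2) (by rw [Module.finrank_fin_fun])
    exact ⟨E, hE⟩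
  · have ne : ∀ z : GL (Fin 4) F, z ≠ 1 →
        (Matrix.toLinAlgEquiv' (z : Matrix (Fin 4) (Fin 4) F) : Module.End F (Fin 4 → F)) ≠ 1 := fun z hz h =>
      hz (Units.ext (Matrix.toLinAlgEquiv'.injective (h.trans (map_one _).symm)))
    obtain ⟨b, hb⟩ := exists_three_basis hno (toEnd y hy) (ne y h1) hv0 hv
    obtain ⟨b', hb'⟩ := exists_three_basis hno (toEnd y₀ hy₀) (ne y₀ h2) hv0' hv'
    refine ⟨b.equiv b' (Equiv.refl _), fun w => ?_⟩
    have h : (b.equiv b' (Equiv.refl _)).toLinearMap ∘ₗ Matrix.toLin' (y : Matrix (Fin 4) (Fin 4) F) =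
        Matrix.toLin' (y₀ : Matrix (Fin 4) (Fin 4) F) ∘ₗ (b.equiv b' (Equiv.refl _)).toLinearMap := by
      refine b.ext fun j => ?_
      obtain ⟨a0, a1, a2, a3⟩ := hb
      obtain ⟨c0, c1, c2, c3⟩ := hb'
      change ((y : Matrix (Fin 4) (Fin 4) F)) *ᵥ _ = _ at a0 a1 a2 a3
      change ((y₀ : Matrix (Fin 4) (Fin 4) F)) *ᵥ _ = _ at c0 c1 c2 c3
      fin_cases j <;> simp [a0, a1, a2, a3, c0, c1, c2, c3]
    exact LinearMap.congr_fun h w

/-- A block matrix commutes with a large algebra. -/
theorem five_le_cent {ι : Type} [Fintype ι] [DecidableEq ι] {a b : ℕ} (e : Fin a ⊕ Fin b ≃ ι) (ha : 0 < a)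
    {M : Matrix ι ι F} {A : Matrix (Fin a) (Fin a) F} (hM : M = Matrix.reindexAlgEquiv F F e (Matrix.fromBlocks A 0 0 1)) :
    1 + b * b ≤ finrank F (cent M) := by
  let f : F × Matrix (Fin b) (Fin b) F →ₗ[F] cent M :=
    { toFun := fun p => ⟨Matrix.reindexAlgEquiv F F e (Matrix.fromBlocks (p.1 • 1) 0 0 p.2), by
        rw [mem_cent, hM, ← map_mul, ← map_mul]
        simp [Matrix.fromBlocks_multiply]⟩
      map_add' := fun p p' => Subtype.ext (by
        show Matrix.reindexAlgEquiv F F e _ = Matrix.reindexAlgEquiv F F e _ + Matrix.reindexAlgEquiv F F e _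
        rw [← map_add, Matrix.fromBlocks_add]; simp [add_smul])
      map_smul' := fun c p => Subtype.ext (by
        show Matrix.reindexAlgEquiv F F e _ = c • Matrix.reindexAlgEquiv F F e _
        rw [← map_smul, Matrix.fromBlocks_smul]; simp [smul_smul]) }
  have hf : Function.Injective f := fun p p' h => by
    have h' := (Matrix.reindexAlgEquiv F F e).injective (congrArg Subtype.val h)
    obtain ⟨h1, -, -, h4⟩ := Matrix.fromBlocks_inj.1 h'
    exact Prod.ext (by simpa using congrFun (congrFun h1 ⟨0, ha⟩) ⟨0, ha⟩) h4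
  refine le_trans (le_of_eq ?_) (LinearMap.finrank_le_finrank_of_injective hf)
  rw [Module.finrank_prod, Module.finrank_self, Module.finrank_matrix, Module.finrank_self, Fintype.card_fin]
  ring

end Cfsg.Agent.Elusive25
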