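import Cfsg.Agent.Elusive25.Eigen
import Cfsg.Prelude.Def_GeometricClasses

/-!
Extraspecial subgroups of order 27 and exponent 3 of `GL_3`: a monomial model, elements of the
normalizer, and prime order elements outside it.
-/

set_option autoImplicit false

namespace Cfsg.Agent.Elusive25.Heis

open Module
open scoped Matrix MatrixGroups commutatorElement

variable {F : Type*} [Field F]

/-- The diagonal generator. -/
def Am (ω : F) : Matrix (Fin 3) (Fin 3) F := Matrix.diagonal fun i => ω ^ (i : ℕ)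

/-- The cyclic generator `e_i ↦ e_{i+1}`. -/
def Bm : Matrix (Fin 3) (Fin 3) F := Matrix.of fun i j => if i = j + 1 then 1 else 0

/-- The element inverting both generators. -/
def Tm : Matrix (Fin 3) (Fin 3) F := Matrix.of fun i j => if i = -j then -1 else 0

/-- Generators of `R` in normal position along `P`. -/
structure Data (R : Subgroup (GL (Fin 3) F)) (ω : F) where
  a : GL (Fin 3) F
  b : GL (Fin 3) F
  P : GL (Fin 3) F
  ha : a ∈ R
  hb : b ∈ R
  gen : Subgroup.closure {a, b} = R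
  aP : (a : Matrix (Fin 3) (Fin 3) F) * (P : Matrix (Fin 3) (Fin 3) F) = (P : Matrix (Fin 3) (Fin 3) F) * Am ω
  bP : (b : Matrix (Fin 3) (Fin 3) F) * (P : Matrix (Fin 3) (Fin 3) F) = (P : Matrix (Fin 3) (Fin 3) F) * Bm

theorem exists_gens {R : Subgroup (GL (Fin 3) F)} {ω : F} (hω : IsPrimitiveRoot ω 3)
    (hR : Nat.card R = 27) (hRe : Monoid.exponent R = 3) (hRna : ¬ IsMulCommutative R) :
    ∃ a b : GL (Fin 3) F, a ∈ R ∧ b ∈ R ∧ Subgroup.closure {a, b} = R ∧
      a ^ 3 = 1 ∧ b ^ 3 = 1 ∧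
      (a : Matrix (Fin 3) (Fin 3) F) * b = ω • ((b : Matrix (Fin 3) (Fin 3) F) * a) ∧
      ∃ v : Fin 3 → F, v ≠ 0 ∧ (a : Matrix (Fin 3) (Fin 3) F) *ᵥ v = v := by
  classical
  haveI : Fact (Nat.Prime 3) := ⟨Nat.prime_three⟩
  haveI : Finite R := Nat.finite_of_card_ne_zero (by omega)
  have hω3 : ω ^ 3 = 1 := hω.pow_eq_one
  have hcube : ∀ g ∈ R, g ^ 3 = 1 := fun g hg => by
    have := Monoid.pow_exponent_eq_one (⟨g, hg⟩ : R)
    rw [hRe] at this
    exact congrArg Subtype.val this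
  have hp : IsPGroup 3 R := IsPGroup.of_card (n := 3) (by rw [hR]; norm_num)
  haveI : Nontrivial R := Finite.one_lt_card_iff_nontrivial.1 (by omega)
  have hcomm : ∀ x y : R, ⁅x, y⁆ ∈ Subgroup.center R := by
    intro x y
    haveI := hp.center_nontrivial
    have h1 := Subgroup.card_eq_card_quotient_mul_card_subgroup (Subgroup.center R)
    obtain ⟨k, hk⟩ := (hp.to_subgroup (Subgroup.center R)).exists_card_eq
    have hk0 : k ≠ 0 := fun h => by
      have : 1 < Nat.card (Subgroup.center R) := Finite.one_lt_card_iff_nontrivial.2 inferInstance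
      rw [hk, h, pow_zero] at this; omega
    obtain ⟨j, hj⟩ := (hp.to_quotient (Subgroup.center R)).exists_card_eq
    rw [hR, hk, hj, ← pow_add, show 27 = 3 ^ 3 by norm_num] at h1
    have hjk := Nat.pow_right_injective (le_refl 2 |>.trans (by norm_num)) h1
    have hq : ∀ u v : R ⧸ Subgroup.center R, u * v = v * u := by
      rcases (show j = 0 ∨ j = 1 ∨ j = 2 by omega) with rfl | rfl | rfl
      · haveI : Subsingleton (R ⧸ Subgroup.center R) := (Nat.card_eq_one_iff_unique.1 (by simpa using hj)).1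
        exact fun u v => Subsingleton.elim _ _
      · haveI : IsCyclic (R ⧸ Subgroup.center R) := isCyclic_of_prime_card (p := 3) (by simpa using hj)
        exact fun u v => IsMulCommutative.is_comm.comm u v
      · exact fun u v => IsPGroup.commutative_of_card_eq_prime_sq (p := 3) hj u v
    rw [← QuotientGroup.eq_one_iff, ← QuotientGroup.mk'_apply, map_commutatorElement,
      commutatorElement_eq_one_iff_mul_comm]
    exact hq _ _
  obtain ⟨x, y, hxy⟩ : ∃ x y : R, x * y ≠ y * x := by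
    by_contra h
    push Not at h
    exact hRna ⟨⟨h⟩⟩
  have hgen : ∀ u v : GL (Fin 3) F, u ∈ R → v ∈ R → u * v ≠ v * u → Subgroup.closure {u, v} = R := by
    intro u v hu hv huv
    have hle : Subgroup.closure {u, v} ≤ R := (Subgroup.closure_le _).2 (by
      simp [Set.insert_subset_iff, hu, hv])
    haveI : Finite (Subgroup.closure {u, v}) := Finite.of_injective _ (Subgroup.inclusion_injective hle)
    have hd : Nat.card (Subgroup.closure {u, v}) ∣ 3 ^ 3 := by
      rw [show (3 : ℕ) ^ 3 = 27 by norm_num, ← hR]; exact Subgroup.card_dvd_of_le hle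
    obtain ⟨k, hk, hk'⟩ := (Nat.dvd_prime_pow Nat.prime_three).1 hd
    refine Subgroup.eq_of_le_of_card_ge hle ?_
    rw [hR, hk']
    by_contra hlt
    have hk2 : k ≤ 2 := by
      by_contra hk2
      exact hlt (by rw [show k = 3 by omega]; norm_num)
    let u' : Subgroup.closure {u, v} := ⟨u, Subgroup.subset_closure (by simp)⟩
    let v' : Subgroup.closure {u, v} := ⟨v, Subgroup.subset_closure (by simp)⟩
    refine huv (congrArg Subtype.val (?_ : u' * v' = v' * u'))
    rcases (show k = 0 ∨ k = 1 ∨ k = 2 by omega) with rfl | rfl | rfl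
    · haveI : Subsingleton (Subgroup.closure {u, v}) := (Nat.card_eq_one_iff_unique.1 (by simpa using hk')).1
      exact Subsingleton.elim _ _
    · haveI : IsCyclic (Subgroup.closure {u, v}) := isCyclic_of_prime_card (p := 3) (by simpa using hk')
      exact IsMulCommutative.is_comm.comm u' v'
    · exact IsPGroup.commutative_of_card_eq_prime_sq (p := 3) hk' u' v'
  set u : GL (Fin 3) F := (x : GL (Fin 3) F)
  set w : GL (Fin 3) F := (y : GL (Fin 3) F)
  set c : GL (Fin 3) F := ((⁅x, y⁆ : R) : GL (Fin 3) F)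
  have hc1 : c ≠ 1 := fun h => hxy (by
    rw [← commutatorElement_eq_one_iff_mul_comm]; exact Subtype.ext h)
  have hcz : ∀ z : R, (z : GL (Fin 3) F) * c = c * z := fun z =>
    congrArg Subtype.val (Subgroup.mem_center_iff.1 (hcomm x y) z)
  have huw : u * w = c * (w * u) := by
    show u * w = (u * w * u⁻¹ * w⁻¹) * (w * u)
    group
  have hc3 : c ^ 3 = 1 := hcube _ (⁅x, y⁆ : R).2
  have hcv : ∀ v, (c : Matrix (Fin 3) (Fin 3) F) *ᵥ ((c : Matrix (Fin 3) (Fin 3) F) *ᵥ
      ((c : Matrix (Fin 3) (Fin 3) F) *ᵥ v)) = (1 : F) ^ 3 • v := fun v => by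
    rw [Matrix.mulVec_mulVec, Matrix.mulVec_mulVec, ← pow_three' , ← Units.val_pow_eq_pow_val, hc3,
      Units.val_one, Matrix.one_mulVec, one_pow, one_smul]
  obtain ⟨k, hk, hck⟩ : ∃ k, (k = 1 ∨ k = 2) ∧ ∀ v, (c : Matrix (Fin 3) (Fin 3) F) *ᵥ v = ω ^ k • v := by
    let W : ℕ → Submodule F (Fin 3 → F) := fun k =>
      LinearMap.ker (Matrix.toLin' (c : Matrix (Fin 3) (Fin 3) F) - ω ^ k • LinearMap.id)
    have hW : ∀ k v, v ∈ W k ↔ (c : Matrix (Fin 3) (Fin 3) F) *ᵥ v = ω ^ k • v := fun k v => by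
      simp [W, sub_eq_zero]
    by_cases hall : W 1 = ⊥ ∧ W 2 = ⊥
    · exfalso
      refine hc1 (Units.ext (Matrix.ext_of_mulVec_single fun i => ?_))
      rw [Units.val_one, Matrix.one_mulVec]
      have h := span_eigen_cube hω one_ne_zero _ hcv (Pi.single i 1)
      generalize (Pi.single i 1 : Fin 3 → F) = e₀ at h ⊢
      induction h using Submodule.span_induction with
      | mem e he =>
        obtain ⟨μ, ⟨k, hk, rfl⟩, he⟩ := he
        rw [one_mul] at he
        have hek := (hW k e).2 he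
        rcases (show k = 0 ∨ k = 1 ∨ k = 2 by omega) with rfl | rfl | rfl
        · rw [he, pow_zero, one_smul]
        · rw [hall.1, Submodule.mem_bot] at hek; rw [hek, Matrix.mulVec_zero]
        · rw [hall.2, Submodule.mem_bot] at hek; rw [hek, Matrix.mulVec_zero]
      | zero => rw [Matrix.mulVec_zero]
      | add a b _ _ ha hb => rw [Matrix.mulVec_add, ha, hb]
      | smul s a _ ha => rw [Matrix.mulVec_smul, ha]
    · obtain ⟨k, hk, hne⟩ : ∃ k, (k = 1 ∨ k = 2) ∧ W k ≠ ⊥ := by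
        rcases not_and_or.1 hall with h | h
        · exact ⟨1, Or.inl rfl, h⟩
        · exact ⟨2, Or.inr rfl, h⟩
      have hstab : ∀ z : R, ∀ v ∈ W k, Matrix.toLin' ((z : GL (Fin 3) F) : Matrix (Fin 3) (Fin 3) F) v ∈ W k :=
        fun z v hv => by
          rw [hW] at hv ⊢
          rw [Matrix.toLin'_apply, Matrix.mulVec_mulVec, ← Units.val_mul, ← hcz z, Units.val_mul,
            ← Matrix.mulVec_mulVec, hv, Matrix.mulVec_smul]
      let U := (Matrix.toLin' (u : Matrix (Fin 3) (Fin 3) F)).restrict (hstab x)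
      let V := (Matrix.toLin' (w : Matrix (Fin 3) (Fin 3) F)).restrict (hstab y)
      have hinj : ∀ g : GL (Fin 3) F, Function.Injective ((g : Matrix (Fin 3) (Fin 3) F) *ᵥ ·) := fun g =>
        Matrix.mulVec_injective_iff_isUnit.2 g.isUnit
      have hdU : LinearMap.det U ≠ 0 := fun h => by
        obtain ⟨v, hv, hv0⟩ := Submodule.exists_mem_ne_zero_of_ne_bot (LinearMap.bot_lt_ker_of_det_eq_zero h).ne'
        exact hv0 (Subtype.ext (hinj u ((congrArg Subtype.val (LinearMap.mem_ker.1 hv)).trans (Matrix.mulVec_zero _).symm)))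
      have hdV : LinearMap.det V ≠ 0 := fun h => by
        obtain ⟨v, hv, hv0⟩ := Submodule.exists_mem_ne_zero_of_ne_bot (LinearMap.bot_lt_ker_of_det_eq_zero h).ne'
        exact hv0 (Subtype.ext (hinj w ((congrArg Subtype.val (LinearMap.mem_ker.1 hv)).trans (Matrix.mulVec_zero _).symm)))
      have hUV : U * V = ω ^ k • (V * U) := by
        refine LinearMap.ext fun v => Subtype.ext ?_
        show (u : Matrix (Fin 3) (Fin 3) F) *ᵥ ((w : Matrix (Fin 3) (Fin 3) F) *ᵥ v) =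
          ω ^ k • ((w : Matrix (Fin 3) (Fin 3) F) *ᵥ ((u : Matrix (Fin 3) (Fin 3) F) *ᵥ v))
        rw [Matrix.mulVec_mulVec, ← Units.val_mul, huw, Units.val_mul, ← Matrix.mulVec_mulVec,
          Units.val_mul, ← Matrix.mulVec_mulVec]
        refine (hW k _).1 ?_
        exact hstab y _ (hstab x _ v.2)
      have hd := congrArg LinearMap.det hUV
      rw [map_mul, LinearMap.det_smul, map_mul, mul_comm (LinearMap.det V), eq_comm,
        mul_eq_right₀ (mul_ne_zero hdU hdV), ← pow_mul, hω.pow_eq_one_iff_dvd] at hd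
      have h3 : finrank F (W k) = 3 := by
        have h1 : finrank F (W k) ≤ 3 := (Submodule.finrank_le _).trans_eq (Module.finrank_fin_fun F)
        have h2 : finrank F (W k) ≠ 0 := fun h => hne (Submodule.finrank_eq_zero.1 h)
        have h3 : 3 ∣ finrank F (W k) := (Nat.prime_three.dvd_mul.1 hd).resolve_left (by omega)
        omega
      refine ⟨k, hk, fun v => (hW k v).1 ?_⟩
      rw [Submodule.eq_top_of_finrank_eq (h3.trans (Module.finrank_fin_fun F).symm)]
      trivial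
  have hcm : (c : Matrix (Fin 3) (Fin 3) F) = ω ^ k • (1 : Matrix (Fin 3) (Fin 3) F) :=
    Matrix.ext_of_mulVec_single fun i => by rw [hck, Matrix.smul_mulVec, Matrix.one_mulVec]
  have huw' : (u : Matrix (Fin 3) (Fin 3) F) * w = ω ^ k • ((w : Matrix (Fin 3) (Fin 3) F) * u) := by
    rw [← Units.val_mul, huw, Units.val_mul, hcm, Matrix.smul_mul, Matrix.one_mul, Units.val_mul]
  obtain ⟨a, b, ha, hb, hne, hab⟩ : ∃ a b : GL (Fin 3) F, a ∈ R ∧ b ∈ R ∧ a * b ≠ b * a ∧
      (a : Matrix (Fin 3) (Fin 3) F) * b = ω • ((b : Matrix (Fin 3) (Fin 3) F) * a) := by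
    have hne : u * w ≠ w * u := fun h => hxy (Subtype.ext h)
    rcases hk with rfl | rfl
    · exact ⟨u, w, x.2, y.2, hne, by rw [huw', pow_one]⟩
    · refine ⟨w, u, y.2, x.2, hne.symm, ?_⟩
      rw [huw', smul_smul, show ω * ω ^ 2 = 1 by rw [← pow_succ']; exact hω3, one_smul]
  refine ⟨a, b, ha, hb, hgen a b ha hb hne, hcube a ha, hcube b hb, hab, ?_⟩
  have hav : ∀ v, (a : Matrix (Fin 3) (Fin 3) F) *ᵥ ((a : Matrix (Fin 3) (Fin 3) F) *ᵥ
      ((a : Matrix (Fin 3) (Fin 3) F) *ᵥ v)) = (1 : F) ^ 3 • v := fun v => by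
    rw [Matrix.mulVec_mulVec, Matrix.mulVec_mulVec, ← pow_three', ← Units.val_pow_eq_pow_val, hcube a ha,
      Units.val_one, Matrix.one_mulVec, one_pow, one_smul]
  obtain ⟨Q, l, hl, hQ⟩ := exists_eigenbasis _ _ (span_eigen_cube hω one_ne_zero _ hav)
  obtain ⟨j, hj, hlj⟩ := hl 0
  set v := (Q : Matrix (Fin 3) (Fin 3) F) *ᵥ Pi.single 0 1
  have hv : (a : Matrix (Fin 3) (Fin 3) F) *ᵥ v = ω ^ j • v := by
    rw [Matrix.mulVec_mulVec, hQ, ← Matrix.mulVec_mulVec, Matrix.diagonal_mulVec_single, mul_one,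
      ← one_mul (ω ^ j), ← hlj, ← Matrix.mulVec_smul, ← Pi.single_smul, smul_eq_mul, mul_one]
  have hiter : ∀ i : ℕ, (a : Matrix (Fin 3) (Fin 3) F) *ᵥ (((b ^ i : GL (Fin 3) F) : Matrix (Fin 3) (Fin 3) F) *ᵥ v) =
      ω ^ (i + j) • (((b ^ i : GL (Fin 3) F) : Matrix (Fin 3) (Fin 3) F) *ᵥ v) := by
    intro i
    induction i with
    | zero => simpa using hv
    | succ i ih =>
      rw [pow_succ', Units.val_mul, ← Matrix.mulVec_mulVec, Matrix.mulVec_mulVec _ (a : Matrix (Fin 3) (Fin 3) F),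
        hab, Matrix.smul_mulVec, ← Matrix.mulVec_mulVec, ih, Matrix.mulVec_smul, smul_smul, ← pow_succ']
      congr 2
      omega
  refine ⟨_, fun h => ?_, (hiter (3 - j)).trans ?_⟩
  · have h0 := (Matrix.mulVec_injective_iff_isUnit.2 (b ^ (3 - j)).isUnit) (h.trans (Matrix.mulVec_zero _).symm)
    have h1 := (Matrix.mulVec_injective_iff_isUnit.2 Q.isUnit) (h0.trans (Matrix.mulVec_zero _).symm)
    simpa using congrFun h1 0
  · rw [Nat.sub_add_cancel hj.le, hω3, one_smul]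

/-- The normal position attached to a fixed vector of the first generator. -/
theorem exists_data {R : Subgroup (GL (Fin 3) F)} {ω : F} (hω : IsPrimitiveRoot ω 3)
    {a b : GL (Fin 3) F} (ha : a ∈ R) (hb : b ∈ R) (hgen : Subgroup.closure {a, b} = R) (hb3 : b ^ 3 = 1)
    (hab : (a : Matrix (Fin 3) (Fin 3) F) * b = ω • ((b : Matrix (Fin 3) (Fin 3) F) * a))
    {v : Fin 3 → F} (hv0 : v ≠ 0) (hv : (a : Matrix (Fin 3) (Fin 3) F) *ᵥ v = v) :
    ∃ D : Data R ω, ∀ i, (D.P : Matrix (Fin 3) (Fin 3) F) *ᵥ Pi.single i 1 =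
      ((b ^ (i : ℕ) : GL (Fin 3) F) : Matrix (Fin 3) (Fin 3) F) *ᵥ v := by
  classical
  set e : Fin 3 → Fin 3 → F := fun i => ((b ^ (i : ℕ) : GL (Fin 3) F) : Matrix (Fin 3) (Fin 3) F) *ᵥ v
  have hiter : ∀ i : ℕ, (a : Matrix (Fin 3) (Fin 3) F) *ᵥ (((b ^ i : GL (Fin 3) F) : Matrix (Fin 3) (Fin 3) F) *ᵥ v) =
      ω ^ i • (((b ^ i : GL (Fin 3) F) : Matrix (Fin 3) (Fin 3) F) *ᵥ v) := by
    intro i
    induction i with
    | zero => simpa using hv
    | succ i ih =>
      rw [pow_succ', Units.val_mul, ← Matrix.mulVec_mulVec, Matrix.mulVec_mulVec _ (a : Matrix (Fin 3) (Fin 3) F),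
        hab, Matrix.smul_mulVec, ← Matrix.mulVec_mulVec, ih, Matrix.mulVec_smul, smul_smul, ← pow_succ']
  have hli : LinearIndependent F e := by
    refine Module.End.eigenvectors_linearIndependent' (Matrix.toLin' (a : Matrix (Fin 3) (Fin 3) F))
      (fun i : Fin 3 => ω ^ (i : ℕ)) (fun i j hij => Fin.ext (hω.pow_inj i.2 j.2 hij)) e fun i => ?_
    refine Module.End.hasEigenvector_iff.2 ⟨Module.End.mem_eigenspace_iff.2 (hiter i), fun h => hv0 ?_⟩
    exact (Matrix.mulVec_injective_iff_isUnit.2 (b ^ (i : ℕ)).isUnit) (h.trans (Matrix.mulVec_zero _).symm)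
  have hu : IsUnit (Matrix.of fun i j => e j i) := Matrix.linearIndependent_cols_iff_isUnit.1 hli
  have hcol : ∀ i, (hu.unit : Matrix (Fin 3) (Fin 3) F) *ᵥ Pi.single i 1 = e i := fun i => by
    rw [Matrix.mulVec_single_one]; rfl
  refine ⟨⟨a, b, hu.unit, ha, hb, hgen, Matrix.ext_of_mulVec_single fun i => ?_,
    Matrix.ext_of_mulVec_single fun i => ?_⟩, hcol⟩
  · rw [← Matrix.mulVec_mulVec, hcol, ← Matrix.mulVec_mulVec, Am, Matrix.diagonal_mulVec_single, mul_one]
    refine (hiter i).trans ?_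
    show ω ^ (i : ℕ) • e i = _
    rw [← hcol, ← Matrix.mulVec_smul, ← Pi.single_smul, smul_eq_mul, mul_one]
  · rw [← Matrix.mulVec_mulVec, hcol, ← Matrix.mulVec_mulVec,
      show (Bm : Matrix (Fin 3) (Fin 3) F) *ᵥ Pi.single i 1 = Pi.single (i + 1) 1 by
        funext k; simp [Bm, Pi.single_apply], hcol]
    show (b : Matrix (Fin 3) (Fin 3) F) *ᵥ (((b ^ (i : ℕ) : GL (Fin 3) F) : Matrix (Fin 3) (Fin 3) F) *ᵥ v) = e (i + 1)
    rw [Matrix.mulVec_mulVec, ← Units.val_mul, ← pow_succ']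
    fin_cases i <;> simp [e, hb3]

variable {R : Subgroup (GL (Fin 3) F)} {ω : F}

/-- Membership in the normalizer through the monomial model. -/
theorem Data.mem_normalizer [Finite R] (D : Data R ω) {g : GL (Fin 3) F} {M : Matrix (Fin 3) (Fin 3) F}
    (hg : (g : Matrix (Fin 3) (Fin 3) F) * (D.P : Matrix (Fin 3) (Fin 3) F) = (D.P : Matrix (Fin 3) (Fin 3) F) * M) {r s : GL (Fin 3) F} (hr : r ∈ R) (hs : s ∈ R)
    {r' s' : Matrix (Fin 3) (Fin 3) F} (hrP : (r : Matrix (Fin 3) (Fin 3) F) * (D.P : Matrix (Fin 3) (Fin 3) F) = (D.P : Matrix (Fin 3) (Fin 3) F) * r')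
    (hsP : (s : Matrix (Fin 3) (Fin 3) F) * (D.P : Matrix (Fin 3) (Fin 3) F) = (D.P : Matrix (Fin 3) (Fin 3) F) * s') (hA : M * Am ω = r' * M) (hB : M * Bm = s' * M) :
    g ∈ Cfsg.Geo.subgroupNormalizer R := by
  have key : ∀ (z : GL (Fin 3) F) (Z : Matrix (Fin 3) (Fin 3) F) (t : GL (Fin 3) F) (T : Matrix (Fin 3) (Fin 3) F),
      (z : Matrix (Fin 3) (Fin 3) F) * (D.P : Matrix (Fin 3) (Fin 3) F) = (D.P : Matrix (Fin 3) (Fin 3) F) * Z → (t : Matrix (Fin 3) (Fin 3) F) * (D.P : Matrix (Fin 3) (Fin 3) F) = (D.P : Matrix (Fin 3) (Fin 3) F) * T →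
      M * Z = T * M → g * z * g⁻¹ = t := by
    intro z Z t T hz ht h
    rw [mul_inv_eq_iff_eq_mul]
    refine Units.ext (D.P.isUnit.mul_right_cancel ?_)
    rw [Units.val_mul, Units.val_mul, Matrix.mul_assoc, hz, ← Matrix.mul_assoc, hg, Matrix.mul_assoc, h,
      ← Matrix.mul_assoc, ← ht, Matrix.mul_assoc, ← hg, ← Matrix.mul_assoc]
  have hle : R.map (MulAut.conj g).toMonoidHom ≤ R := by
    conv_lhs => rw [← D.gen]
    rw [MonoidHom.map_closure, Subgroup.closure_le, Set.image_pair]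
    rintro z (rfl | rfl)
    · show g * D.a * g⁻¹ ∈ R
      rw [key D.a (Am ω) r r' D.aP hrP hA]; exact hr
    · show g * D.b * g⁻¹ ∈ R
      rw [key D.b Bm s s' D.bP hsP hB]; exact hs
  have heq := Subgroup.eq_of_le_of_card_ge hle (Subgroup.card_map_of_injective (MulAut.conj g).injective).ge
  refine Subgroup.mem_normalizer_iff.2 fun h => ⟨fun hh => hle ⟨h, hh, rfl⟩, fun hh => ?_⟩
  rw [← heq] at hh
  obtain ⟨k, hk, hk'⟩ := hh
  have : k = h := (MulAut.conj g).injective hk'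
  exact this ▸ hk

/-- The monomial images of elements of `R`. -/
theorem Data.exists_image (D : Data R ω) (hω : IsPrimitiveRoot ω 3) (k j i : ℕ) :
    ∃ r ∈ R, (r : Matrix (Fin 3) (Fin 3) F) * (D.P : Matrix (Fin 3) (Fin 3) F) = (D.P : Matrix (Fin 3) (Fin 3) F) * (ω ^ k • (Bm ^ i * Am ω ^ j)) := by
  have hA3 : Am ω ^ 3 = (1 : Matrix (Fin 3) (Fin 3) F) := by
    rw [Am, Matrix.diagonal_pow, ← Matrix.diagonal_one]
    congr 1
    funext l
    rw [Pi.pow_apply, ← pow_mul, mul_comm, pow_mul, hω.pow_eq_one, one_pow]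
  have hB3 : (Bm : Matrix (Fin 3) (Fin 3) F) ^ 3 = 1 := by
    ext i j; fin_cases i <;> fin_cases j <;> simp [Bm, pow_three, Matrix.mul_apply, Fin.sum_univ_three]
  have hAB : Am ω * Bm = ω • (Bm * Am ω) := by
    ext i j
    rw [Matrix.smul_apply, Am, Matrix.diagonal_mul, Matrix.mul_diagonal, smul_eq_mul]
    fin_cases i <;> fin_cases j <;> simp [Bm]
    · rw [← pow_succ', hω.pow_eq_one]
    · ring
  have hpow : ∀ (z : GL (Fin 3) F) (Z : Matrix (Fin 3) (Fin 3) F) (n : ℕ),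
      (z : Matrix (Fin 3) (Fin 3) F) * (D.P : Matrix (Fin 3) (Fin 3) F) = (D.P : Matrix (Fin 3) (Fin 3) F) * Z →
      ((z ^ n : GL (Fin 3) F) : Matrix (Fin 3) (Fin 3) F) * (D.P : Matrix (Fin 3) (Fin 3) F) = (D.P : Matrix (Fin 3) (Fin 3) F) * Z ^ n := by
    intro z Z n h
    induction n with
    | zero => simp
    | succ n ih => rw [pow_succ, Units.val_mul, Matrix.mul_assoc, h, ← Matrix.mul_assoc, ih, Matrix.mul_assoc, ← pow_succ]
  have hmul : ∀ (z t : GL (Fin 3) F) (Z T : Matrix (Fin 3) (Fin 3) F),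
      (z : Matrix (Fin 3) (Fin 3) F) * (D.P : Matrix (Fin 3) (Fin 3) F) = (D.P : Matrix (Fin 3) (Fin 3) F) * Z → (t : Matrix (Fin 3) (Fin 3) F) * (D.P : Matrix (Fin 3) (Fin 3) F) = (D.P : Matrix (Fin 3) (Fin 3) F) * T →
      ((z * t : GL (Fin 3) F) : Matrix (Fin 3) (Fin 3) F) * (D.P : Matrix (Fin 3) (Fin 3) F) = (D.P : Matrix (Fin 3) (Fin 3) F) * (Z * T) := by
    intro z t Z T hz ht
    rw [Units.val_mul, Matrix.mul_assoc, ht, ← Matrix.mul_assoc, hz, Matrix.mul_assoc]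
  refine ⟨(D.a * D.b * (D.a ^ 2 * D.b ^ 2)) ^ k * (D.b ^ i * D.a ^ j), mul_mem (pow_mem (mul_mem (mul_mem D.ha D.hb)
    (mul_mem (pow_mem D.ha 2) (pow_mem D.hb 2))) k) (mul_mem (pow_mem D.hb i) (pow_mem D.ha j)), ?_⟩
  rw [hmul _ _ _ _ (hpow _ _ k (hmul _ _ _ _ (hmul _ _ _ _ D.aP D.bP) (hmul _ _ _ _ (hpow _ _ 2 D.aP) (hpow _ _ 2 D.bP))))
    (hmul _ _ _ _ (hpow _ _ i D.bP) (hpow _ _ j D.aP))]
  congr 1
  rw [hAB, Matrix.smul_mul, Matrix.mul_assoc Bm, ← Matrix.mul_assoc (Am ω) (Am ω ^ 2), ← pow_succ', hA3,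
    Matrix.one_mul, ← pow_succ', hB3, smul_pow, one_pow, Matrix.smul_mul, Matrix.one_mul]

/-- Diagonal elements with cube a scalar normalise `R`. -/
theorem Data.diag_mem [Finite R] (D : Data R ω) (hω : IsPrimitiveRoot ω 3) {g : GL (Fin 3) F} {η : F}
    {k : Fin 3 → ℕ} (hg : (g : Matrix (Fin 3) (Fin 3) F) * (D.P : Matrix (Fin 3) (Fin 3) F) = (D.P : Matrix (Fin 3) (Fin 3) F) * Matrix.diagonal fun i => η * ω ^ k i) :
    g ∈ Cfsg.Geo.subgroupNormalizer R := by
  have hdec : ∀ k : Fin 3 → Fin 3, ∃ s j : Fin 3, ∀ i : Fin 3,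
      k (i + 1) = s + i * j + k i := by decide
  obtain ⟨s, j, hsj⟩ := hdec fun i => ⟨k i % 3, Nat.mod_lt _ (by norm_num)⟩
  obtain ⟨r, hr, hrP⟩ := D.exists_image hω 0 1 0
  obtain ⟨t, ht, htP⟩ := D.exists_image hω s j 1
  refine D.mem_normalizer hg hr ht hrP htP ?_ ?_
  · rw [pow_zero, one_smul, pow_zero, Matrix.one_mul, pow_one, Am, Matrix.diagonal_mul_diagonal,
      Matrix.diagonal_mul_diagonal]
    simp [mul_comm]
  · rw [pow_one, Am, Matrix.diagonal_pow, Matrix.smul_mul, Matrix.mul_assoc, Matrix.diagonal_mul_diagonal]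
    ext a b
    rw [Matrix.smul_apply, Matrix.diagonal_mul, Matrix.mul_diagonal, smul_eq_mul]
    by_cases hab : a = b + 1
    · subst hab
      simp only [Bm, Matrix.of_apply, if_true, mul_one, one_mul, Pi.pow_apply]
      have h := congrArg Fin.val (hsj b)
      simp only [Fin.val_add, Fin.val_mul] at h
      have hm : ∀ n, ω ^ n = ω ^ (n % 3) := fun n => pow_eq_pow_mod n hω.pow_eq_one
      rw [← pow_mul, show ω ^ (s : ℕ) * (ω ^ ((b : ℕ) * j) * (η * ω ^ k b)) = η * (ω ^ ((s : ℕ) + (b : ℕ) * j + k b)) by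
        rw [pow_add, pow_add]; ring, hm (k (b + 1)), hm ((s : ℕ) + _ + _)]
      congr 2
      omega
    · simp [Bm, hab]

/-- The inverting involution normalises `R`. -/
theorem Data.rev_mem [Finite R] (D : Data R ω) (hω : IsPrimitiveRoot ω 3) {g : GL (Fin 3) F}
    (hg : (g : Matrix (Fin 3) (Fin 3) F) * (D.P : Matrix (Fin 3) (Fin 3) F) = (D.P : Matrix (Fin 3) (Fin 3) F) * Tm) : g ∈ Cfsg.Geo.subgroupNormalizer R := by
  obtain ⟨r, hr, hrP⟩ := D.exists_image hω 0 2 0
  obtain ⟨t, ht, htP⟩ := D.exists_image hω 0 0 2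
  refine D.mem_normalizer hg hr ht hrP htP ?_ ?_
  · rw [pow_zero, one_smul, pow_zero, Matrix.one_mul, Am, Matrix.diagonal_pow]
    ext i j
    rw [Matrix.mul_diagonal, Matrix.diagonal_mul]
    fin_cases i <;> fin_cases j <;> simp +decide [Tm]
    all_goals (have := hω.pow_eq_one; grind)
  · rw [pow_zero, one_smul, pow_zero, Matrix.mul_one]
    ext i j
    fin_cases i <;> fin_cases j <;> simp +decide [Tm, Bm, pow_two, Matrix.mul_apply, Fin.sum_univ_three]

/-- Elements of prime order at least five do not normalise `R`. -/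
theorem Data.eq_scalar_of_pow [Finite R] (D : Data R ω) (hω : IsPrimitiveRoot ω 3) (hR : Nat.card R = 27)
    {y : GL (Fin 3) F} (hy : y ∈ Cfsg.Geo.subgroupNormalizer R) {r : ℕ} [Fact r.Prime] (hr : 5 ≤ r)
    (hyr : y ^ r = 1) : ∃ z : F, (y : Matrix (Fin 3) (Fin 3) F) = z • 1 := by
  classical
  have hN : ∀ z, z ∈ R ↔ y * z * y⁻¹ ∈ R := Subgroup.mem_normalizer_iff.1 hy
  let φ : Equiv.Perm R :=
    { toFun := fun z => ⟨y * z * y⁻¹, (hN z).1 z.2⟩
      invFun := fun z => ⟨y⁻¹ * z * y, (hN _).2 (by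
        rw [show y * (y⁻¹ * (z : GL (Fin 3) F) * y) * y⁻¹ = z by group]; exact z.2)⟩
      left_inv := fun z => Subtype.ext (by group)
      right_inv := fun z => Subtype.ext (by group) }
  have hφ : ∀ z, (φ z : GL (Fin 3) F) = y * z * y⁻¹ := fun z => rfl
  have hpow : ∀ n : ℕ, ∀ z : R, (((φ ^ n) z : R) : GL (Fin 3) F) = y ^ n * z * (y ^ n)⁻¹ := by
    intro n
    induction n with
    | zero => intro z; simp
    | succ n ih => intro z; rw [pow_succ', Equiv.Perm.mul_apply, hφ, ih, pow_succ']; group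
  have hφr : φ ^ r = 1 := by
    ext z
    rw [hpow, hyr]
    simp
  have hp : IsPGroup r (Subgroup.zpowers φ) := fun g => ⟨1, by
    obtain ⟨g, n, rfl⟩ := g
    refine Subtype.ext ?_
    show (φ ^ n) ^ r ^ 1 = 1
    rw [pow_one, ← zpow_natCast, ← zpow_mul, mul_comm, zpow_mul, zpow_natCast, hφr, one_zpow]⟩
  have hmod := hp.card_modEq_card_fixedPoints R
  set C : Subgroup R := (Subgroup.centralizer {y}).comap R.subtype
  have hfix : Nat.card (MulAction.fixedPoints (Subgroup.zpowers φ) R) = Nat.card C := by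
    refine Nat.card_congr (Equiv.subtypeEquivRight fun z => ⟨fun h => ?_, fun h => ?_⟩)
    · have h1 := congrArg Subtype.val (h ⟨φ, Subgroup.mem_zpowers φ⟩)
      change y * (z : GL (Fin 3) F) * y⁻¹ = z at h1
      exact Subgroup.mem_centralizer_singleton_iff.2 (mul_inv_eq_iff_eq_mul.1 h1).symm
    · rintro ⟨g, n, rfl⟩
      show (φ ^ n) z = z
      refine Function.IsFixedPt.perm_zpow ?_ n
      refine Subtype.ext ?_
      rw [hφ, mul_inv_eq_iff_eq_mul]
      exact (Subgroup.mem_centralizer_singleton_iff.1 h).symm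
  rw [hfix, hR] at hmod
  obtain ⟨c, hc, hcP⟩ := D.exists_image hω 1 0 0
  rw [pow_one, pow_zero, pow_zero, Matrix.mul_one, Matrix.mul_smul, Matrix.mul_one] at hcP
  have hcm : (c : Matrix (Fin 3) (Fin 3) F) = ω • 1 := D.P.isUnit.mul_right_cancel (by
    rw [hcP, Matrix.smul_mul, Matrix.one_mul])
  have h3 : 3 ∣ Nat.card C := by
    have hcC : (⟨c, hc⟩ : R) ∈ C := Subgroup.mem_centralizer_singleton_iff.2 (Units.ext (by
      show (c : Matrix (Fin 3) (Fin 3) F) * y = (y : Matrix (Fin 3) (Fin 3) F) * c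
      rw [hcm, Matrix.smul_mul, Matrix.mul_smul, Matrix.one_mul, Matrix.mul_one]))
    have ho : orderOf (⟨⟨c, hc⟩, hcC⟩ : C) = 3 := by
      have : Fact (Nat.Prime 3) := ⟨Nat.prime_three⟩
      refine orderOf_eq_prime (Subtype.ext (Subtype.ext (Units.ext ?_))) fun h => ?_
      · show ((c ^ 3 : GL (Fin 3) F) : Matrix (Fin 3) (Fin 3) F) = 1
        rw [Units.val_pow_eq_pow_val, hcm, smul_pow, one_pow, hω.pow_eq_one, one_smul]
      · have h1 : (c : Matrix (Fin 3) (Fin 3) F) = 1 := congrArg (fun z : C => (((z : R) : GL (Fin 3) F) : Matrix (Fin 3) (Fin 3) F)) h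
        rw [hcm] at h1
        exact hω.ne_one (by norm_num) (by simpa using congrFun (congrFun h1 0) 0)
    exact ho.symm.dvd.trans (orderOf_dvd_natCard _)
  have hd : Nat.card C ∣ 3 ^ 3 := by
    rw [show (3 : ℕ) ^ 3 = 27 by norm_num, ← hR]; exact Subgroup.card_subgroup_dvd_card C
  obtain ⟨k, hk, hk'⟩ := (Nat.dvd_prime_pow Nat.prime_three).1 hd
  have hk3 : Nat.card C = 27 := by
    have hk1 : k ≠ 0 := fun h => by rw [hk', h] at h3; omega
    rcases (show k = 1 ∨ k = 2 ∨ k = 3 by omega) with rfl | rfl | rfl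
    · exfalso
      rw [hk'] at hmod
      have h24 : r ∣ 2 ^ 3 * 3 := by simpa using (Nat.modEq_iff_dvd' (by norm_num)).1 hmod.symm
      rcases (Fact.out : r.Prime).dvd_mul.1 h24 with h | h
      · have := Nat.le_of_dvd (by norm_num) ((Fact.out : r.Prime).dvd_of_dvd_pow h); omega
      · have := Nat.le_of_dvd (by norm_num) h; omega
    · exfalso
      rw [hk'] at hmod
      have h18 : r ∣ 2 * 3 ^ 2 := by simpa using (Nat.modEq_iff_dvd' (by norm_num)).1 hmod.symm
      rcases (Fact.out : r.Prime).dvd_mul.1 h18 with h | h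
      · have := Nat.le_of_dvd (by norm_num) h; omega
      · have := Nat.le_of_dvd (by norm_num) ((Fact.out : r.Prime).dvd_of_dvd_pow h); omega
    · simpa using hk'
  have htop : C = ⊤ := Subgroup.eq_top_of_card_eq C (hk3.trans hR.symm)
  have hcom : ∀ z ∈ R, z * y = y * z := fun z hz => Subgroup.mem_centralizer_singleton_iff.1
    (show (⟨z, hz⟩ : R) ∈ C from htop ▸ Subgroup.mem_top _)
  set M : Matrix (Fin 3) (Fin 3) F := ((D.P⁻¹ : GL (Fin 3) F) : Matrix (Fin 3) (Fin 3) F) * y * (D.P : Matrix (Fin 3) (Fin 3) F)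
  have hM : ∀ (z : GL (Fin 3) F) (Z : Matrix (Fin 3) (Fin 3) F), z ∈ R →
      (z : Matrix (Fin 3) (Fin 3) F) * (D.P : Matrix (Fin 3) (Fin 3) F) = (D.P : Matrix (Fin 3) (Fin 3) F) * Z → Z * M = M * Z := by
    intro z Z hz hZ
    have hZ' : Z = ((D.P⁻¹ : GL (Fin 3) F) : Matrix (Fin 3) (Fin 3) F) * z * (D.P : Matrix (Fin 3) (Fin 3) F) := by
      rw [Matrix.mul_assoc, hZ, ← Matrix.mul_assoc, ← Units.val_mul, inv_mul_cancel, Units.val_one, Matrix.one_mul]
    rw [hZ']
    simp only [M, ← Units.val_mul]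
    congr 1
    have := hcom z hz
    calc D.P⁻¹ * z * D.P * (D.P⁻¹ * y * D.P) = D.P⁻¹ * (z * y) * D.P := by group
      _ = D.P⁻¹ * (y * z) * D.P := by rw [this]
      _ = _ := by group
  have h1 := hM D.a _ D.ha D.aP
  have h2 := hM D.b _ D.hb D.bP
  have hdiag : ∀ i j, i ≠ j → M i j = 0 := fun i j hij => by
    have := congrFun (congrFun h1 i) j
    rw [Am, Matrix.diagonal_mul, Matrix.mul_diagonal, mul_comm (M i j)] at this
    by_contra h0
    exact hij (Fin.ext (hω.pow_inj i.2 j.2 (mul_right_cancel₀ h0 this)))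
  have e1 : M 0 0 = M 1 1 := by
    have := congrFun (congrFun h2 1) 0
    simpa [Bm, Matrix.mul_apply, Fin.sum_univ_three] using this
  have e2 : M 1 1 = M 2 2 := by
    have := congrFun (congrFun h2 2) 1
    simpa [Bm, Matrix.mul_apply, Fin.sum_univ_three] using this
  have hMz : M = M 0 0 • 1 := by
    ext i j
    by_cases hij : i = j
    · subst hij; fin_cases i <;> simp [e1, e2]
    · simp [hdiag i j hij, Matrix.one_apply_ne hij]
  refine ⟨M 0 0, D.P.isUnit.mul_right_cancel ?_⟩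
  calc (y : Matrix (Fin 3) (Fin 3) F) * (D.P : Matrix (Fin 3) (Fin 3) F) = (D.P : Matrix (Fin 3) (Fin 3) F) * M := by
        simp only [M, ← Units.val_mul]; congr 1; group
    _ = _ := by rw [hMz]; simp [Matrix.mul_smul, Matrix.smul_mul]

/-- Scalar multiples of elements of the normalizer. -/
theorem scalar_mul_mem {y : GL (Fin 3) F} (hy : y ∈ Cfsg.Geo.subgroupNormalizer R) (c : Fˣ) :
    Matrix.GeneralLinearGroup.scalar (Fin 3) c * y ∈ Cfsg.Geo.subgroupNormalizer R := by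
  refine mul_mem ?_ hy
  refine Subgroup.mem_normalizer_iff.2 fun h => ?_
  have : Matrix.GeneralLinearGroup.scalar (Fin 3) c * h * (Matrix.GeneralLinearGroup.scalar (Fin 3) c)⁻¹ = h := by
    rw [mul_inv_eq_iff_eq_mul]
    refine Units.ext (Matrix.ext fun i j => ?_)
    simp [Matrix.GeneralLinearGroup.coe_scalar, mul_comm]
  rw [this]

/-- The sign pattern of a nonscalar involution of determinant one. -/
theorem exists_perm_signs {l : Fin 3 → F} (hl : ∀ i, l i = 1 ∨ l i = -1) (hd : ∏ i, l i = 1)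
    (h2 : (2 : F) ≠ 0) (hns : ¬ ∀ i, l i = 1) : ∃ σ : Equiv.Perm (Fin 3), ∀ i, l (σ i) = ![1, -1, -1] i := by
  have hne : (-1 : F) ≠ 1 := fun h => h2 (by linear_combination -h)
  rw [Fin.prod_univ_three] at hd
  rcases hl 0 with a | a <;> rcases hl 1 with b | b <;> rcases hl 2 with c | c <;> simp [a, b, c, hne] at hd ⊢
  · exact absurd (fun i => by fin_cases i <;> assumption) hns
  · exact ⟨1, fun i => by fin_cases i <;> simp [a, b, c]⟩
  · exact ⟨Equiv.swap 0 1, fun i => by fin_cases i <;> simp [a, b, c, Equiv.swap_apply_def]⟩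
  · exact ⟨Equiv.swap 0 2, fun i => by fin_cases i <;> simp [a, b, c, Equiv.swap_apply_def]⟩

end Cfsg.Agent.Elusive25.Heis
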