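import Cfsg.Agent.Elusive25.Heis3

/-!
Elements of order two and three conjugate into the normalizer of an extraspecial group of order 27.
-/

set_option autoImplicit false

namespace Cfsg.Agent.Elusive25.Heis

open Cfsg
open scoped Matrix MatrixGroups

variable {F : Type*} [Field F] {R : Subgroup (GL (Fin 3) F)} {ω : F}

/-- A diagonal matrix changing only the determinant. -/
noncomputable def detGL : Fˣ →* GL (Fin 3) F where
  toFun d := Units.map (Matrix.diagonalRingHom (Fin 3) F).toMonoidHom (MulEquiv.piUnits.symm (Pi.mulSingle 0 d))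
  map_one' := by simp
  map_mul' a b := by simp only [Pi.mulSingle_mul, map_mul]

theorem detGL_coe (d : Fˣ) : (detGL d : Matrix (Fin 3) (Fin 3) F) = Matrix.diagonal ![(d : F), 1, 1] := by
  show Matrix.diagonal _ = _
  congr 1
  funext i
  fin_cases i <;> simp [MulEquiv.piUnits]

theorem det_detGL (d : Fˣ) : Matrix.GeneralLinearGroup.det (detGL d : GL (Fin 3) F) = d := by
  refine Units.ext ?_
  rw [Matrix.GeneralLinearGroup.val_det_apply, detGL_coe, Matrix.det_diagonal, Fin.prod_univ_three]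
  simp

/-- The permutation matrix sending `e_i` to `e_{σ i}`. -/
noncomputable def permGL (σ : Equiv.Perm (Fin 3)) : GL (Fin 3) F :=
  Matrix.GeneralLinearGroup.mk'' (Matrix.of fun i j => if i = σ j then 1 else 0) (by
    rw [← Matrix.isUnit_iff_isUnit_det]
    refine Matrix.mulVec_injective_iff_isUnit.1 fun x y h => funext fun j => ?_
    have := congrFun h (σ j)
    simpa [Matrix.mulVec, dotProduct, σ.injective.eq_iff] using this)

theorem permGL_mulVec (σ : Equiv.Perm (Fin 3)) (u : Fin 3 → F) :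
    (permGL (F := F) σ : Matrix (Fin 3) (Fin 3) F) *ᵥ u = u ∘ σ.symm := by
  funext i
  show ((Matrix.of fun i j => if i = σ j then (1 : F) else 0) *ᵥ u) i = _
  rw [Matrix.mulVec, dotProduct, Finset.sum_eq_single (σ.symm i)]
  · simp
  · intro j _ hj
    simp [show i ≠ σ j from fun h => hj (by rw [h, Equiv.symm_apply_apply])]
  · simp

/-- The inverting involution as a group element. -/
noncomputable def tGL : GL (Fin 3) F :=
  Matrix.GeneralLinearGroup.mk'' Tm (by
    rw [Matrix.det_fin_three]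
    simp +decide [Tm])

theorem tGL_coe : ((tGL : GL (Fin 3) F) : Matrix (Fin 3) (Fin 3) F) = Tm := rfl

theorem tGL_mulVec (u : Fin 3 → F) : ((tGL : GL (Fin 3) F) : Matrix (Fin 3) (Fin 3) F) *ᵥ u = fun i => -u (-i) := by
  funext i
  fin_cases i <;> simp +decide [tGL_coe, Tm, Matrix.mulVec, dotProduct, Fin.sum_univ_three] <;> rfl

/-- The data of an ambient group needed for the conjugacy arguments. -/
structure Ambient (G : Subgroup (GL (Fin 3) F)) : Prop where
  det_mem : ∀ g ∈ G, detGL (Matrix.GeneralLinearGroup.det g) ∈ G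
  perm_mem : ∀ σ : Equiv.Perm (Fin 3), permGL σ ∈ G
  t_mem : tGL ∈ G
  scalar_mem : ∀ c : Fˣ, c ^ 3 = 1 → Matrix.GeneralLinearGroup.scalar (Fin 3) c ∈ G
  sq : ∀ x ∈ G, x * x = 1 → ∃ Q ∈ G, ∃ l : Fin 3 → F, (∀ i, l i = 1 ∨ l i = -1) ∧
    (x : Matrix (Fin 3) (Fin 3) F) * (Q : Matrix (Fin 3) (Fin 3) F) = (Q : Matrix (Fin 3) (Fin 3) F) * Matrix.diagonal l

variable {G : Subgroup (GL (Fin 3) F)}

/-- Elements with the same diagonal form are conjugate by an element of determinant one. -/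
theorem exists_conj (hG : Ambient G) {x w Q S : GL (Fin 3) F} (hQ : Q ∈ G) (hS : S ∈ G) {l : Fin 3 → F}
    (hx : (x : Matrix (Fin 3) (Fin 3) F) * (Q : Matrix (Fin 3) (Fin 3) F) = (Q : Matrix (Fin 3) (Fin 3) F) * Matrix.diagonal l)
    (hw : (w : Matrix (Fin 3) (Fin 3) F) * (S : Matrix (Fin 3) (Fin 3) F) = (S : Matrix (Fin 3) (Fin 3) F) * Matrix.diagonal l) :
    ∃ g ∈ G ⊓ Cfsg.Geo.specialLinear (Fin 3) F, g⁻¹ * x * g = w := by
  set δ := detGL (F := F) (Matrix.GeneralLinearGroup.det (S * Q⁻¹))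
  refine ⟨Q * δ * S⁻¹, ⟨G.mul_mem (G.mul_mem hQ (hG.det_mem _ (G.mul_mem hS (G.inv_mem hQ)))) (G.inv_mem hS), ?_⟩, ?_⟩
  · show Matrix.GeneralLinearGroup.det _ = 1
    rw [map_mul, map_mul, det_detGL, map_mul, map_inv, map_inv, mul_comm (Matrix.GeneralLinearGroup.det S),
      mul_inv_cancel_left, mul_inv_cancel]
  · have h1 : (((Q⁻¹ * x * Q : GL (Fin 3) F)) : Matrix (Fin 3) (Fin 3) F) = Matrix.diagonal l := by
      rw [Units.val_mul, Units.val_mul, Matrix.mul_assoc, hx, ← Matrix.mul_assoc, ← Units.val_mul, inv_mul_cancel,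
        Units.val_one, Matrix.one_mul]
    have hc : δ⁻¹ * (Q⁻¹ * x * Q) * δ = Q⁻¹ * x * Q := by
      rw [mul_assoc, inv_mul_eq_iff_eq_mul]
      refine Units.ext ?_
      rw [Units.val_mul _ δ, Units.val_mul δ, h1, detGL_coe, Matrix.diagonal_mul_diagonal, Matrix.diagonal_mul_diagonal]
      simp [mul_comm]
    calc (Q * δ * S⁻¹)⁻¹ * x * (Q * δ * S⁻¹) = S * (δ⁻¹ * (Q⁻¹ * x * Q) * δ) * S⁻¹ := by group
      _ = S * (Q⁻¹ * x * Q) * S⁻¹ := by rw [hc]
      _ = w := by
        rw [mul_inv_eq_iff_eq_mul]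
        refine Units.ext ?_
        rw [Units.val_mul S, h1, Units.val_mul w, hw]

/-- A nonscalar involution of determinant one in normal form. -/
theorem exists_sign_form (hG : Ambient G) (h2 : (2 : F) ≠ 0) {x : GL (Fin 3) F} (hx : x ∈ G)
    (hd : Matrix.GeneralLinearGroup.det x = 1) (hxx : x * x = 1) (hx1 : x ≠ 1) :
    ∃ Q ∈ G, (x : Matrix (Fin 3) (Fin 3) F) * (Q : Matrix (Fin 3) (Fin 3) F) =
      (Q : Matrix (Fin 3) (Fin 3) F) * Matrix.diagonal ![1, -1, -1] := by
  obtain ⟨Q, hQ, l, hl, hxQ⟩ := hG.sq x hx hxx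
  have hprod : ∏ i, l i = 1 := by
    have h := congrArg Matrix.det hxQ
    rw [Matrix.det_mul, Matrix.det_mul, Matrix.det_diagonal, ← Matrix.GeneralLinearGroup.val_det_apply, hd,
      Units.val_one, one_mul] at h
    exact (mul_eq_left₀ ((Matrix.isUnit_iff_isUnit_det _).1 Q.isUnit).ne_zero).1 h.symm
  obtain ⟨σ, hσ⟩ := exists_perm_signs hl hprod h2 fun hall => hx1 (Units.ext (by
    refine Q.isUnit.mul_right_cancel ?_
    rw [hxQ, show l = fun _ => (1 : F) from funext hall, Matrix.diagonal_one, Matrix.mul_one, Units.val_one,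
      Matrix.one_mul]))
  refine ⟨Q * permGL σ, mul_mem hQ (hG.perm_mem σ), ?_⟩
  rw [Units.val_mul, ← Matrix.mul_assoc, hxQ, Matrix.mul_assoc, Matrix.mul_assoc]
  congr 1
  refine Matrix.ext_of_mulVec_single fun j => ?_
  rw [← Matrix.mulVec_mulVec, ← Matrix.mulVec_mulVec, permGL_mulVec, Matrix.diagonal_mulVec_single, permGL_mulVec]
  funext i
  rw [Matrix.mulVec_diagonal, Function.comp_apply, Function.comp_apply, Pi.single_apply, Pi.single_apply]
  split_ifs with h
  · rw [← hσ j, ← h, Equiv.apply_symm_apply]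
  · rw [mul_zero]

/-- Every element of order two fixes a point. -/
theorem exists_conj_two [Finite R] (hG : Ambient G) (D : Data R ω) (hω : IsPrimitiveRoot ω 3) (hP : D.P ∈ G)
    (h2 : (2 : F) ≠ 0) {x : GL (Fin 3) F} (hx : x ∈ G ⊓ Cfsg.Geo.specialLinear (Fin 3) F) {z : F}
    (hz : ((x ^ 2 : GL (Fin 3) F) : Matrix (Fin 3) (Fin 3) F) = z • 1)
    (hns : ∀ z : F, (x : Matrix (Fin 3) (Fin 3) F) ≠ z • 1) :
    ∃ g ∈ G ⊓ Cfsg.Geo.specialLinear (Fin 3) F, g⁻¹ * x * g ∈ Cfsg.Geo.subgroupNormalizer R := by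
  obtain ⟨hxG, hxd⟩ := hx
  have hxd : Matrix.GeneralLinearGroup.det x = 1 := hxd
  have hz3 : z ^ 3 = 1 := by
    have h := congrArg Matrix.det hz
    rw [Units.val_pow_eq_pow_val, Matrix.det_pow, ← Matrix.GeneralLinearGroup.val_det_apply, hxd, Units.val_one,
      one_pow, Matrix.det_smul, Matrix.det_one, mul_one, Fintype.card_fin] at h
    exact h.symm
  have hz0 : z ≠ 0 := fun h => by rw [h, zero_pow (by norm_num)] at hz3; exact zero_ne_one hz3
  set c : Fˣ := Units.mk0 z hz0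
  have hc3 : c ^ 3 = 1 := Units.ext (by simpa [c] using hz3)
  set t := Matrix.GeneralLinearGroup.scalar (Fin 3) c * x with ht
  have htv : (t : Matrix (Fin 3) (Fin 3) F) = z • (x : Matrix (Fin 3) (Fin 3) F) := by
    rw [ht, Units.val_mul, Matrix.GeneralLinearGroup.coe_scalar, Matrix.scalar_apply, ← Matrix.smul_eq_diagonal_mul]
    rfl
  have htG : t ∈ G := mul_mem (hG.scalar_mem c hc3) hxG
  have htt : t * t = 1 := Units.ext (by
    rw [Units.val_mul, htv, Matrix.smul_mul, Matrix.mul_smul, smul_smul, ← Units.val_mul, ← pow_two x, hz,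
      smul_smul, Units.val_one, ← pow_three', hz3, one_smul])
  have htd : Matrix.GeneralLinearGroup.det t = 1 := Units.ext (by
    rw [Matrix.GeneralLinearGroup.val_det_apply, htv, Matrix.det_smul, Fintype.card_fin,
      ← Matrix.GeneralLinearGroup.val_det_apply, hxd, hz3, Units.val_one, mul_one])
  have ht1 : t ≠ 1 := fun h => hns z⁻¹ (by
    have h1 := congrArg (fun g : GL (Fin 3) F => (g : Matrix (Fin 3) (Fin 3) F)) h
    simp only [htv, Units.val_one] at h1
    rw [← h1, smul_smul, inv_mul_cancel₀ hz0, one_smul])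
  obtain ⟨Q, hQ, hQe⟩ := exists_sign_form hG h2 htG htd htt ht1
  set w := D.P * tGL * D.P⁻¹ with hw
  have hwP : (w : Matrix (Fin 3) (Fin 3) F) * (D.P : Matrix (Fin 3) (Fin 3) F) = (D.P : Matrix (Fin 3) (Fin 3) F) * Tm := by
    rw [hw, ← Units.val_mul, inv_mul_cancel_right, Units.val_mul, tGL_coe]
  obtain ⟨S, hS, hSe⟩ := exists_sign_form hG h2 (x := w) (mul_mem (mul_mem hP hG.t_mem) (inv_mem hP))
    (by
      rw [map_mul, map_mul, map_inv, mul_comm (Matrix.GeneralLinearGroup.det D.P), mul_inv_cancel_right]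
      exact Units.ext (by rw [Matrix.GeneralLinearGroup.val_det_apply, tGL_coe, Matrix.det_fin_three]; simp +decide [Tm]))
    (by
      rw [hw, show D.P * tGL * D.P⁻¹ * (D.P * tGL * D.P⁻¹) = D.P * (tGL * tGL) * D.P⁻¹ by group,
        show (tGL * tGL : GL (Fin 3) F) = 1 from Units.ext (Matrix.ext_of_mulVec_single fun j => by
          rw [Units.val_mul, Units.val_one, ← Matrix.mulVec_mulVec, tGL_mulVec, tGL_mulVec, Matrix.one_mulVec]
          simp), mul_one, mul_inv_cancel])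
    (fun h => by
      have h1 := congrArg (fun g : GL (Fin 3) F => (g : Matrix (Fin 3) (Fin 3) F) 1 1)
        (show tGL = (1 : GL (Fin 3) F) from by
          have := congrArg (fun g => D.P⁻¹ * g * D.P) h
          simpa [hw, mul_assoc] using this)
      simp +decide [tGL_coe, Tm] at h1)
  obtain ⟨g, hg, hgw⟩ := exists_conj hG hQ hS hQe hSe
  refine ⟨g, hg, ?_⟩
  have hmem := scalar_mul_mem (D.rev_mem hω hwP) c⁻¹
  convert hmem using 1
  rw [← hgw, ht, map_inv]
  have hcomm : g⁻¹ * Matrix.GeneralLinearGroup.scalar (Fin 3) c = Matrix.GeneralLinearGroup.scalar (Fin 3) c * g⁻¹ :=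
    Units.ext (Matrix.ext fun i j => by simp [Matrix.GeneralLinearGroup.coe_scalar, mul_comm])
  rw [← mul_assoc g⁻¹, hcomm]
  group

/-- Every element of order three with eigenvalues in the field fixes a point. -/
theorem exists_conj_three [Finite R] (hG : Ambient G) (D : Data R ω) (hω : IsPrimitiveRoot ω 3) (hP : D.P ∈ G)
    {η : F} {x Q : GL (Fin 3) F} (hQ : Q ∈ G) {l : Fin 3 → F}
    (hl : ∀ i, ∃ k, k < 3 ∧ l i = η * ω ^ k)
    (hx : (x : Matrix (Fin 3) (Fin 3) F) * (Q : Matrix (Fin 3) (Fin 3) F) = (Q : Matrix (Fin 3) (Fin 3) F) * Matrix.diagonal l) :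
    ∃ g ∈ G ⊓ Cfsg.Geo.specialLinear (Fin 3) F, g⁻¹ * x * g ∈ Cfsg.Geo.subgroupNormalizer R := by
  set L := Q⁻¹ * x * Q with hL
  have hLv : (L : Matrix (Fin 3) (Fin 3) F) = Matrix.diagonal l := by
    rw [hL, Units.val_mul, Units.val_mul, Matrix.mul_assoc, hx, ← Matrix.mul_assoc, ← Units.val_mul, inv_mul_cancel,
      Units.val_one, Matrix.one_mul]
  have hwP : ((D.P * L * D.P⁻¹ : GL (Fin 3) F) : Matrix (Fin 3) (Fin 3) F) * (D.P : Matrix (Fin 3) (Fin 3) F) =
      (D.P : Matrix (Fin 3) (Fin 3) F) * Matrix.diagonal l := by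
    rw [← Units.val_mul, inv_mul_cancel_right, Units.val_mul, hLv]
  choose k hk hlk using hl
  obtain ⟨g, hg, hgw⟩ := exists_conj hG hQ hP hx hwP
  refine ⟨g, hg, hgw ▸ D.diag_mem hω (η := η) (k := k) (hwP.trans ?_)⟩
  rw [show l = fun i => η * ω ^ k i from funext hlk]

/-- An element of prime order at least five fixes no point. -/
theorem not_exists_conj [Finite R] (D : Data R ω) (hω : IsPrimitiveRoot ω 3) (hR : Nat.card R = 27) {r : ℕ}
    [Fact r.Prime] (hr : 5 ≤ r) {x : GL (Fin 3) F} (hxr : x ^ r = 1)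
    (hns : ∀ z : F, (x : Matrix (Fin 3) (Fin 3) F) ≠ z • 1) (g : GL (Fin 3) F) :
    g⁻¹ * x * g ∉ Cfsg.Geo.subgroupNormalizer R := by
  intro h
  obtain ⟨z, hz⟩ := D.eq_scalar_of_pow hω hR h hr (by
    rw [show g⁻¹ * x * g = g⁻¹ * x * g⁻¹⁻¹ by rw [inv_inv], conj_pow, hxr, mul_one, mul_inv_cancel])
  refine hns z ?_
  have h1 : x = g * (g⁻¹ * x * g) * g⁻¹ := by group
  rw [h1, Units.val_mul, Units.val_mul, hz, Matrix.mul_smul, Matrix.mul_one, Matrix.smul_mul,
    ← Units.val_mul, mul_inv_cancel, Units.val_one]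

/-- An element of prime order `r ≥ 5` of a subgroup of `SL_3` is not scalar. -/
theorem not_scalar {r : ℕ} [Fact r.Prime] (hr : 5 ≤ r) {x : GL (Fin 3) F}
    (hd : Matrix.GeneralLinearGroup.det x = 1) (hx : orderOf x = r) (z : F) :
    (x : Matrix (Fin 3) (Fin 3) F) ≠ z • 1 := by
  intro h
  have h3 : z ^ 3 = 1 := by
    have h' := congrArg Matrix.det h
    rw [← Matrix.GeneralLinearGroup.val_det_apply, hd, Units.val_one, Matrix.det_smul, Matrix.det_one, mul_one,
      Fintype.card_fin] at h'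
    exact h'.symm
  have hx3 : x ^ 3 = 1 := Units.ext (by
    rw [Units.val_pow_eq_pow_val, h, smul_pow, one_pow, h3, one_smul, Units.val_one])
  have := Nat.le_of_dvd (by norm_num) (hx ▸ orderOf_dvd_of_pow_eq_one hx3)
  omega

/-- A primitive ninth root gives cube roots of cube roots of unity. -/
theorem exists_cube_root [Fintype F] (h9 : 9 ∣ Fintype.card F - 1) (hω : IsPrimitiveRoot ω 3) {z : F}
    (hz : z ^ 3 = 1) : ∃ η : F, η ^ 9 = 1 ∧ η ^ 3 = z := by
  obtain ⟨γ, hγ⟩ := IsCyclic.exists_generator (α := Fˣ)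
  have hcard : orderOf γ = Fintype.card F - 1 := by
    rw [orderOf_eq_card_of_forall_mem_zpowers hγ, Nat.card_units, Nat.card_eq_fintype_card]
  obtain ⟨e, he⟩ := h9
  have he0 : 0 < e := by
    by_contra h
    rw [show e = 0 by omega, mul_zero] at he
    have := Fintype.one_lt_card (α := F); omega
  have hζ : IsPrimitiveRoot ((γ ^ e : Fˣ) : F) 9 := by
    refine IsPrimitiveRoot.coe_units_iff.2 ?_
    exact (hcard ▸ IsPrimitiveRoot.orderOf γ).pow (by
      have := Fintype.one_lt_card (α := F); omega) (by rw [he, mul_comm])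
  have h3 := hζ.pow (by norm_num) (show 9 = 3 * 3 by norm_num)
  obtain ⟨k, -, hk⟩ := h3.eq_pow_of_pow_eq_one hz
  exact ⟨((γ ^ e : Fˣ) : F) ^ k, by rw [← pow_mul, mul_comm, pow_mul, hζ.pow_eq_one, one_pow],
    by rw [← hk, ← pow_mul, ← pow_mul, mul_comm]⟩

end Cfsg.Agent.Elusive25.Heis
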