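import Cfsg.Agent.Elusive25.QuatModel
import Cfsg.Agent.Elusive25.NormBound
import Cfsg.Agent.ClassicalMax.ClassTwo
import Cfsg.Agent.Forms.Symplectic
import Cfsg.Prelude.Def_GeometricClasses

/-!
An absolutely irreducible group of order 32 of symplectic type and minus type inside `Sp_4`: a model by
quaternion matrices, its involutions, and an element of order five in its normaliser.
-/

set_option autoImplicit false

namespace Cfsg.Agent.Elusive25

open Matrix Cfsg.Geo
open scoped MatrixGroups commutatorElement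

variable {F : Type*} [Field F]

/-- The matrices of degree four used here. -/
local notation "M4" => Matrix (Fin 2 ⊕ Fin 2) (Fin 2 ⊕ Fin 2) F

/-- The adjoint of a matrix for the standard alternating form. -/
def sympAdj : M4 →+ M4 where
  toFun X := -(Matrix.J (Fin 2) F * Xᵀ * Matrix.J (Fin 2) F)
  map_zero' := by simp
  map_add' X Y := by rw [Matrix.transpose_add, Matrix.mul_add, Matrix.add_mul, neg_add]

theorem sympAdj_apply (X : M4) : sympAdj X = -(Matrix.J (Fin 2) F * Xᵀ * Matrix.J (Fin 2) F) := rfl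

theorem sympAdj_mul (X Y : M4) : sympAdj (X * Y) = sympAdj Y * sympAdj X := by
  simp only [sympAdj_apply, Matrix.transpose_mul, neg_mul_neg]
  rw [show Matrix.J (Fin 2) F * Yᵀ * Matrix.J (Fin 2) F * (Matrix.J (Fin 2) F * Xᵀ * Matrix.J (Fin 2) F) =
    Matrix.J (Fin 2) F * Yᵀ * (Matrix.J (Fin 2) F * Matrix.J (Fin 2) F) * (Xᵀ * Matrix.J (Fin 2) F) by
      simp only [Matrix.mul_assoc], Matrix.J_squared]
  simp [Matrix.mul_assoc]

theorem sympAdj_one : sympAdj (1 : M4) = 1 := by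
  simp [sympAdj_apply, Matrix.J_squared]

theorem sympAdj_smul (c : F) (X : M4) : sympAdj (c • X) = c • sympAdj X := by
  simp [sympAdj_apply]

theorem mem_spGL_iff_adj (g : GL (Fin 2 ⊕ Fin 2) F) :
    g ∈ Cfsg.spGL 2 F ↔ sympAdj (g : M4) * (g : M4) = 1 := by
  rw [Forms.mem_spGL_iff, SymplecticGroup.mem_iff']
  constructor
  · intro h
    rw [sympAdj_apply, neg_mul, mul_assoc, mul_assoc, ← mul_assoc (g : M4)ᵀ, h, Matrix.J_squared, neg_neg]
  · intro h
    have h' := congrArg (Matrix.J (Fin 2) F * ·) h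
    simp only [sympAdj_apply, mul_one, mul_neg, neg_mul, ← mul_assoc, Matrix.J_squared, neg_neg, one_mul] at h'
    exact h'

/-- The facts about such a group that are used. -/
structure MinusFacts (R : Subgroup (GL (Fin 2 ⊕ Fin 2) F)) : Prop where
  comm : ∀ x ∈ R, ∀ y ∈ R, (x : M4) * y = (y : M4) * x ∨ (x : M4) * y = -((y : M4) * x)
  class_two : commutator R ≤ Subgroup.center R
  invol : ∃ a ∈ R, (a : M4) * a = 1 ∧ ∀ c : F, (a : M4) ≠ c • 1
  order_four : ∃ a ∈ R, (a : M4) * a = -1 ∧ ∀ c : F, (a : M4) ≠ c • 1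
  invol_card : Nat.card {g : R // ((g : GL (Fin 2 ⊕ Fin 2) F) : M4) * (g : GL (Fin 2 ⊕ Fin 2) F) = 1 ∧
    ((g : GL (Fin 2 ⊕ Fin 2) F) : M4) ≠ 1 ∧ ((g : GL (Fin 2 ⊕ Fin 2) F) : M4) ≠ -1} = 10
  anti : ∀ x ∈ R, ((x : M4) ≠ 1 ∧ (x : M4) ≠ -1) → ∃ y ∈ R, (x : M4) * y = -((y : M4) * x)
  five : ∃ y ∈ subgroupNormalizer R, y ∈ Cfsg.spGL 2 F ∧ y ^ 5 = 1 ∧ y ≠ 1
  rel : ∃ a ∈ R, ∃ b ∈ R, ∃ c ∈ R, ∃ d ∈ R, Quat.Rel (c : M4) (d : M4) (a : M4) (b : M4) ∧
    R ≤ Subgroup.closure {a, b, c, d}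

set_option maxHeartbeats 1000000 in
/-- The facts for a group of symplectic type and minus type. -/
theorem minusFacts_of {R : Subgroup (GL (Fin 2 ⊕ Fin 2) F)} (hst : IsSymplecticTypeGroup 2 R)
    (hirr : ActsAbsolutelyIrreducibly (matrixSet R)) (hRf : R ≤ Cfsg.spGL 2 F) (hcard : Nat.card R = 32)
    (hZ : Nat.card (Subgroup.center R) = 2) (hm : IsOfMinusType 2 R) (h2 : (2 : F) ≠ 0) : MinusFacts R := by
  classical
  have : Fact (Nat.Prime 2) := ⟨Nat.prime_two⟩
  have : Finite R := Nat.finite_of_card_ne_zero (by rw [hcard]; norm_num)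
  have : Group.IsNilpotent R := hst.pGroup.isNilpotent
  have hexp : ∀ x : R, x ^ 4 = 1 := fun x => by
    have := Monoid.pow_exponent_eq_one x
    rwa [hst.exponent_eq] at this
  have hcl : commutator R ≤ Subgroup.center R :=
    ClassicalMax.commutator_le_center_of_exponent_four hexp hst.cyclic_of_characteristic hZ
  have hone : ∀ u v : F, (u • (1 : M4)) = v • 1 → u = v := fun u v e => by
    simpa using congrFun (congrFun e (Sum.inl 0)) (Sum.inl 0)
  have hne : ∀ g : GL (Fin 2 ⊕ Fin 2) F, (g : M4) ≠ -(g : M4) := fun g e => by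
    have e' : (2 : F) • (g : M4) = 0 := by rw [two_smul]; nth_rewrite 2 [e]; exact add_neg_cancel _
    exact g.ne_zero ((smul_eq_zero.1 e').resolve_left h2)
  -- central elements are signs
  have hcen : ∀ z : R, z ∈ Subgroup.center R → ((z : GL (Fin 2 ⊕ Fin 2) F) : M4) = 1 ∨ ((z : GL (Fin 2 ⊕ Fin 2) F) : M4) = -1 := by
    intro z hz
    obtain ⟨c, hc⟩ := MaxSub.exists_scalar_of_mem_center hirr hz
    have h1 := pow_card_eq_one' (x := (⟨z, hz⟩ : Subgroup.center R))
    rw [hZ] at h1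
    have h' := congrArg (fun g : Subgroup.center R => (((g : R) : GL (Fin 2 ⊕ Fin 2) F) : M4)) h1
    simp only [SubgroupClass.coe_pow, Units.val_pow_eq_pow_val, OneMemClass.coe_one, Units.val_one, hc, smul_pow,
      one_pow] at h'
    rcases sq_eq_one_iff.1 (hone _ 1 (h'.trans (one_smul _ _).symm)) with rfl | rfl
    · exact Or.inl (by rw [hc, one_smul])
    · exact Or.inr (by rw [hc, neg_one_smul])
  have hcentral : ∀ x ∈ R, (∀ y ∈ R, (x : M4) * y = (y : M4) * x) → (x : M4) = 1 ∨ (x : M4) = -1 :=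
    fun x hx hy => hcen ⟨x, hx⟩ (Subgroup.mem_center_iff.2 fun y => Subtype.ext (Units.ext (hy y y.2).symm))
  have hcomm : ∀ x ∈ R, ∀ y ∈ R, (x : M4) * y = (y : M4) * x ∨ (x : M4) * y = -((y : M4) * x) := by
    intro x hx y hy
    have hz : ⁅(⟨x, hx⟩ : R), (⟨y, hy⟩ : R)⁆ ∈ Subgroup.center R :=
      hcl (Subgroup.commutator_mem_commutator (Subgroup.mem_top _) (Subgroup.mem_top _))
    have e : (x : M4) * y = (((⁅(⟨x, hx⟩ : R), (⟨y, hy⟩ : R)⁆ : R) : GL (Fin 2 ⊕ Fin 2) F) : M4) * ((y : M4) * x) := by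
      rw [← Units.val_mul, ← Units.val_mul, ← Units.val_mul]
      congr 1
      show x * y = ⁅x, y⁆ * (y * x)
      rw [commutatorElement_def]; group
    rcases hcen _ hz with h | h <;> rw [h] at e
    · exact Or.inl (by rw [e, one_mul])
    · exact Or.inr (by rw [e, neg_one_mul])
  have hanti : ∀ x ∈ R, ((x : M4) ≠ 1 ∧ (x : M4) ≠ -1) → ∃ y ∈ R, (x : M4) * y = -((y : M4) * x) := by
    intro x hx hx'
    by_contra hno
    push Not at hno
    rcases hcentral x hx fun y hy => (hcomm x hx y hy).resolve_right (hno y hy) with h | h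
    exacts [hx'.1 h, hx'.2 h]
  have hnc : ∀ x y : GL (Fin 2 ⊕ Fin 2) F, (x : M4) * y = -((y : M4) * x) → (x : M4) ≠ 1 ∧ (x : M4) ≠ -1 := by
    intro x y h
    refine ⟨fun e => hne y ?_, fun e => hne y ?_⟩
    · rwa [e, one_mul, mul_one] at h
    · rw [e, neg_one_mul, mul_neg_one, neg_neg] at h; exact h.symm
  have hsq : ∀ x ∈ R, (x : M4) * x = 1 ∨ (x : M4) * x = -1 := by
    intro x hx
    rw [← Units.val_mul]
    refine hcentral (x * x) (R.mul_mem hx hx) fun y hy => ?_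
    rw [Units.val_mul]
    rcases hcomm x hx y hy with e | e
    · rw [mul_assoc, e, ← mul_assoc, e, mul_assoc]
    · rw [mul_assoc, e, mul_neg, ← mul_assoc, e, neg_mul, neg_neg, mul_assoc]
  obtain ⟨m, hmR, hm1⟩ : ∃ m ∈ R, (m : M4) = -1 := by
    have : Nontrivial (Subgroup.center R) := Finite.one_lt_card_iff_nontrivial.1 (by rw [hZ]; norm_num)
    obtain ⟨z, hz⟩ := exists_ne (1 : Subgroup.center R)
    exact ⟨_, (z : R).2, (hcen _ z.2).resolve_left fun e => hz (Subtype.ext (Subtype.ext (Units.ext e)))⟩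
  -- a pair commuting with a given anticommuting pair
  have second : ∀ g ∈ R, ∀ h ∈ R, (g : M4) * h = -((h : M4) * g) → ∃ c ∈ R, ∃ d ∈ R, (c : M4) * d = -((d : M4) * c) ∧
      (c : M4) * g = (g : M4) * c ∧ (c : M4) * h = (h : M4) * c ∧
      (d : M4) * g = (g : M4) * d ∧ (d : M4) * h = (h : M4) * d := by
    intro g hg h hh hgh
    have hhg : (h : M4) * g = -((g : M4) * h) := by rw [hgh, neg_neg]
    have hadj : ∀ y ∈ R, ∃ y' ∈ R, ∃ e : GL (Fin 2 ⊕ Fin 2) F, (e = 1 ∨ e = g ∨ e = h ∨ e = g * h) ∧ y' = y * e ∧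
        (y' : M4) * g = (g : M4) * y' ∧ (y' : M4) * h = (h : M4) * y' := by
      intro y hy
      rcases hcomm y hy g hg with e1 | e1 <;> rcases hcomm y hy h hh with e2 | e2
      · exact ⟨y, hy, 1, Or.inl rfl, (mul_one y).symm, e1, e2⟩
      · refine ⟨y * g, R.mul_mem hy hg, g, Or.inr (Or.inl rfl), rfl, ?_, ?_⟩ <;> rw [Units.val_mul]
        · rw [← mul_assoc (g : M4), ← e1]
        · rw [mul_assoc, hgh, mul_neg, ← mul_assoc, e2, neg_mul, neg_neg, mul_assoc]
      · refine ⟨y * h, R.mul_mem hy hh, h, Or.inr (Or.inr (Or.inl rfl)), rfl, ?_, ?_⟩ <;> rw [Units.val_mul]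
        · rw [mul_assoc, hhg, mul_neg, ← mul_assoc, e1, neg_mul, neg_neg, mul_assoc]
        · rw [← mul_assoc (h : M4), ← e2]
      · refine ⟨y * (g * h), R.mul_mem hy (R.mul_mem hg hh), g * h, Or.inr (Or.inr (Or.inr rfl)), rfl, ?_, ?_⟩ <;>
          rw [Units.val_mul, Units.val_mul]
        · rw [← mul_assoc (g : M4) (y : M4), show (g : M4) * y = -((y : M4) * g) by rw [e1, neg_neg]]
          simp only [mul_assoc, hhg, mul_neg, neg_mul]
        · rw [← mul_assoc (h : M4) (y : M4), show (h : M4) * y = -((y : M4) * h) by rw [e2, neg_neg]]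
          simp only [neg_mul, mul_assoc]
          rw [← mul_assoc (h : M4) (g : M4), hhg, neg_mul, mul_neg, neg_neg, mul_assoc]
    obtain ⟨y, hy, hyg, hyh, hyZ⟩ : ∃ y ∈ R, (y : M4) * g = (g : M4) * y ∧ (y : M4) * h = (h : M4) * y ∧
        ¬ ∀ z ∈ R, (y : M4) * z = (z : M4) * y := by
      by_contra hno
      push Not at hno
      let e : Fin 4 → R := ![1, ⟨g, hg⟩, ⟨h, hh⟩, ⟨g, hg⟩ * ⟨h, hh⟩]
      have hsurj : Function.Surjective fun p : Subgroup.center R × Fin 4 => (p.1 : R) * (e p.2)⁻¹ := by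
        intro w
        obtain ⟨w', hw', f, hf, hwf, h1, h2'⟩ := hadj w.1 w.2
        have hc : (⟨w', hw'⟩ : R) ∈ Subgroup.center R := Subgroup.mem_center_iff.2 fun z =>
          Subtype.ext (Units.ext (hno w' hw' h1 h2' z z.2).symm)
        obtain ⟨j, hj⟩ : ∃ j, ((e j : R) : GL (Fin 2 ⊕ Fin 2) F) = f := by
          rcases hf with rfl | rfl | rfl | rfl
          exacts [⟨0, rfl⟩, ⟨1, rfl⟩, ⟨2, rfl⟩, ⟨3, rfl⟩]
        refine ⟨(⟨_, hc⟩, j), Subtype.ext ?_⟩
        show w' * ((e j : R) : GL (Fin 2 ⊕ Fin 2) F)⁻¹ = w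
        rw [hj, hwf, mul_inv_cancel_right]
      have := Nat.card_le_card_of_surjective _ hsurj
      rw [Nat.card_prod, Nat.card_fin, hcard, hZ] at this
      omega
    push Not at hyZ
    obtain ⟨z, hz, hyz⟩ := hyZ
    obtain ⟨z', hz', f, hf, hzf, hzg, hzh⟩ := hadj z hz
    refine ⟨y, hy, z', hz', ?_, hyg, hyh, hzg, hzh⟩
    have hyf : (y : M4) * f = (f : M4) * y := by
      rcases hf with rfl | rfl | rfl | rfl
      · simp
      · exact hyg
      · exact hyh
      · rw [Units.val_mul, ← mul_assoc, hyg, mul_assoc, hyh, ← mul_assoc]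
    rw [hzf, Units.val_mul, ← mul_assoc, (hcomm y hy z hz).resolve_left hyz, neg_mul, mul_assoc, hyf, mul_assoc]
  -- a non-central involution
  obtain ⟨a, ha, aa, haZ⟩ : ∃ a ∈ R, (a : M4) * a = 1 ∧ ((a : M4) ≠ 1 ∧ (a : M4) ≠ -1) := by
    by_contra hno
    simp only [not_exists, not_and] at hno
    obtain ⟨g, hg, hgn⟩ : ∃ g ∈ R, (g : M4) ≠ 1 ∧ (g : M4) ≠ -1 := by
      by_contra hno'
      simp only [not_exists, not_and] at hno'
      have : Subgroup.center R = ⊤ := eq_top_iff.2 fun g _ => Subgroup.mem_center_iff.2 fun y => Subtype.ext (Units.ext (by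
        show ((y : GL (Fin 2 ⊕ Fin 2) F) : M4) * ((g : GL (Fin 2 ⊕ Fin 2) F) : M4) =
          ((g : GL (Fin 2 ⊕ Fin 2) F) : M4) * ((y : GL (Fin 2 ⊕ Fin 2) F) : M4)
        by_cases e : ((g : GL (Fin 2 ⊕ Fin 2) F) : M4) = 1
        · rw [e, one_mul, mul_one]
        · rw [not_not.1 (hno' g g.2 e), neg_one_mul, mul_neg_one]))
      rw [this, Subgroup.card_top, hcard] at hZ
      norm_num at hZ
    obtain ⟨h, hh, hgh⟩ := hanti g hg hgn
    obtain ⟨c, hc, d, hd, hcd, hcg, hch, -, -⟩ := second g hg h hh hgh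
    have hgc : ((g * c : GL (Fin 2 ⊕ Fin 2) F) : M4) ≠ 1 ∧ ((g * c : GL (Fin 2 ⊕ Fin 2) F) : M4) ≠ -1 :=
      hnc _ h (by rw [Units.val_mul, mul_assoc, hch, ← mul_assoc, hgh, neg_mul, mul_assoc])
    refine hno (g * c) (R.mul_mem hg hc) ?_ hgc.1 hgc.2
    have eg := (hsq g hg).resolve_left fun e => hno g hg e hgn.1 hgn.2
    have ec := (hsq c hc).resolve_left fun e => hno c hc e (hnc c d hcd).1 (hnc c d hcd).2
    rw [Units.val_mul, mul_assoc, ← mul_assoc (c : M4), hcg, mul_assoc (g : M4) (c : M4), ec, ← mul_assoc, eg]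
    simp
  obtain ⟨h₀, hh₀, hah⟩ := hanti a ha haZ
  obtain ⟨b, hb, bb, hab⟩ : ∃ b ∈ R, (b : M4) * b = 1 ∧ (a : M4) * b = -((b : M4) * a) := by
    rcases hsq h₀ hh₀ with e | e
    · exact ⟨h₀, hh₀, e, hah⟩
    · refine ⟨a * h₀, R.mul_mem ha hh₀, ?_, ?_⟩ <;> rw [Units.val_mul]
      · rw [mul_assoc, ← mul_assoc (h₀ : M4), show (h₀ : M4) * a = -((a : M4) * h₀) by rw [hah, neg_neg], neg_mul,
          mul_assoc, e, mul_neg_one, neg_neg, aa]
      · conv_lhs => rw [hah, mul_neg, ← mul_assoc]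
  obtain ⟨c, hc, d, hd, hcd, hca, hcb, hda, hdb⟩ := second a ha b hb hab
  -- minus type forces squares equal to minus one
  have square : ∀ u ∈ R, ∀ v ∈ R, (u : M4) * v = -((v : M4) * u) → (u : M4) * a = (a : M4) * u →
      (v : M4) * a = (a : M4) * v → (u : M4) * b = (b : M4) * u → (u : M4) * u = -1 := by
    intro u hu v hv huv hua hva hub
    refine (hsq u hu).resolve_left fun huu => ?_
    let m' : R := ⟨m, hmR⟩
    let a' : R := ⟨a, ha⟩
    let u' : R := ⟨u, hu⟩
    have hmc : ∀ w : R, m' * w = w * m' := fun w => Subtype.ext (Units.ext (by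
      show (m : M4) * ((w : GL (Fin 2 ⊕ Fin 2) F) : M4) = ((w : GL (Fin 2 ⊕ Fin 2) F) : M4) * m
      rw [hm1, neg_one_mul, mul_neg_one]))
    have hcomm3 : ∀ x ∈ ({m', a', u'} : Set R), ∀ y ∈ ({m', a', u'} : Set R), x * y = y * x := by
      intro x hx y hy
      simp only [Set.mem_insert_iff, Set.mem_singleton_iff] at hx hy
      rcases hx with rfl | rfl | rfl <;> rcases hy with rfl | rfl | rfl
      all_goals first
        | rfl
        | exact hmc _
        | exact (hmc _).symm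
        | exact Subtype.ext (Units.ext hua)
        | exact Subtype.ext (Units.ext hua.symm)
    set A := Subgroup.closure ({m', a', u'} : Set R)
    have hA : IsMulCommutative A := Subgroup.isMulCommutative_closure hcomm3
    have hA2 : ∀ x ∈ A, x * x = 1 := by
      intro x hx
      induction hx using Subgroup.closure_induction with
      | mem w hw =>
        simp only [Set.mem_insert_iff, Set.mem_singleton_iff] at hw
        rcases hw with rfl | rfl | rfl
        · exact Subtype.ext (Units.ext (by show (m : M4) * m = 1; rw [hm1, neg_mul_neg, one_mul]))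
        · exact Subtype.ext (Units.ext aa)
        · exact Subtype.ext (Units.ext huu)
      | one => rw [one_mul]
      | mul x y hx hy ex ey =>
        have hc' : y * x = x * y := congrArg Subtype.val (mul_comm' (⟨y, hy⟩ : A) ⟨x, hx⟩)
        rw [mul_assoc, ← mul_assoc y, hc', mul_assoc, ey, mul_one, ex]
      | inv x _ ex => rw [← _root_.mul_inv_rev, ex, inv_one]
    set A₁ := Subgroup.closure ({m'} : Set R)
    set A₂ := Subgroup.closure ({m', a'} : Set R)
    have dbl : ∀ H K : Subgroup R, H ≤ K → ∀ x ∈ K, x ∉ H → 2 * Nat.card H ≤ Nat.card K := by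
      intro H K hle x hx hx'
      obtain ⟨t, ht⟩ := Subgroup.card_dvd_of_le hle
      rcases Nat.lt_or_ge t 2 with h | h
      · have : Nat.card K ≤ Nat.card H := by
          rw [ht]; exact (Nat.mul_le_mul_left _ (by omega : t ≤ 1)).trans (mul_one _).le
        exact absurd ((Subgroup.eq_of_le_of_card_ge hle this) ▸ hx) hx'
      · rw [ht, mul_comm]; exact Nat.mul_le_mul_left _ h
    have hA₁ : 2 ≤ Nat.card A₁ := by
      have := dbl ⊥ A₁ bot_le m' (Subgroup.subset_closure (by simp)) (fun h => by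
        have h' := congrArg (fun g : R => ((g : GL (Fin 2 ⊕ Fin 2) F) : M4)) (Subgroup.mem_bot.1 h)
        exact hne 1 (by rw [Units.val_one]; exact (hm1.symm.trans h').symm))
      simpa using this
    have hsep : ∀ (S : Set R) (w : GL (Fin 2 ⊕ Fin 2) F), (∀ s ∈ S, (w : M4) * (s : GL (Fin 2 ⊕ Fin 2) F) = ((s : GL (Fin 2 ⊕ Fin 2) F) : M4) * w) →
        ∀ x ∈ Subgroup.closure S, Commute w (x : GL (Fin 2 ⊕ Fin 2) F) := by
      intro S w hS x hx
      induction hx using Subgroup.closure_induction with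
      | mem s hs => exact Units.ext (hS s hs)
      | one => exact Commute.one_right _
      | mul x y _ _ ex ey => exact ex.mul_right ey
      | inv x _ ex => exact ex.inv_right
    have hmw : ∀ w : GL (Fin 2 ⊕ Fin 2) F, (w : M4) * m = (m : M4) * w := fun w => by
      rw [hm1, neg_one_mul, mul_neg_one]
    have hA₂ : 4 ≤ Nat.card A₂ := by
      have := dbl A₁ A₂ (Subgroup.closure_mono (by simp)) a' (Subgroup.subset_closure (by simp)) (fun h => by
        have h' := congrArg Units.val (hsep {m'} b (fun s hs => by rw [Set.mem_singleton_iff] at hs; subst hs; exact hmw b) _ h).eq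
        simp only [Units.val_mul, a'] at h'
        rw [← h'] at hab
        exact hne (b * a) (by rw [Units.val_mul]; exact hab))
      omega
    have hA8 : 8 ≤ Nat.card A := by
      have := dbl A₂ A (Subgroup.closure_mono (by
        intro s hs; simp only [Set.mem_insert_iff, Set.mem_singleton_iff] at hs ⊢; tauto)) u'
        (Subgroup.subset_closure (by simp)) (fun h => by
        have h' := congrArg Units.val (hsep {m', a'} v (fun s hs => by
          simp only [Set.mem_insert_iff, Set.mem_singleton_iff] at hs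
          rcases hs with rfl | rfl
          exacts [hmw v, hva]) _ h).eq
        simp only [Units.val_mul, u'] at h'
        rw [← h'] at huv
        exact hne (v * u) (by rw [Units.val_mul]; exact huv))
      omega
    have := hm A hA hA2
    norm_num at this
    omega
  have cc := square c hc d hd hcd hca hda hcb
  have dd := square d hd c hc (by rw [hcd, neg_neg]) hda hca hdb
  -- the model
  have hrel : Quat.Rel (c : M4) (d : M4) (a : M4) (b : M4) := ⟨cc, dd, hcd, aa, bb, hab, hca, hcb, hda, hdb⟩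
  set φ := Quat.phi hrel h2
  obtain ⟨eI, eJ, eA, eB⟩ := Quat.phi_gen hrel h2
  have hgenR : ∀ g, ∃ x ∈ R, (x : M4) = φ (Quat.gen g) := fun g => by
    fin_cases g
    exacts [⟨c, hc, eI.symm⟩, ⟨d, hd, eJ.symm⟩, ⟨a, ha, eA.symm⟩, ⟨b, hb, eB.symm⟩]
  set Cl := Subgroup.closure ({a, b, c, d} : Set (GL (Fin 2 ⊕ Fin 2) F))
  have hCa : a ∈ Cl := Subgroup.subset_closure (by simp)
  have hCb : b ∈ Cl := Subgroup.subset_closure (by simp)
  have hCc : c ∈ Cl := Subgroup.subset_closure (by simp)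
  have hCd : d ∈ Cl := Subgroup.subset_closure (by simp)
  have hmono : ∀ k, ∃ x ∈ R ⊓ Cl, (x : M4) = φ (Quat.mono k) := by
    rintro ⟨s, q, w⟩
    obtain ⟨x₁, h₁, e₁⟩ : ∃ x ∈ R ⊓ Cl, (x : M4) = φ ((![1, -1] : Fin 2 → Quat.MQ) s) := by
      fin_cases s
      · exact ⟨1, (R ⊓ Cl).one_mem, by simp⟩
      · exact ⟨c * c, ⟨R.mul_mem hc hc, Cl.mul_mem hCc hCc⟩, by simp [cc]⟩
    obtain ⟨x₂, h₂, e₂⟩ : ∃ x ∈ R ⊓ Cl, (x : M4) = φ ((![1, Quat.gI, Quat.gJ, Quat.gI * Quat.gJ] : Fin 4 → Quat.MQ) q) := by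
      fin_cases q
      · exact ⟨1, (R ⊓ Cl).one_mem, by simp⟩
      · exact ⟨c, ⟨hc, hCc⟩, eI.symm⟩
      · exact ⟨d, ⟨hd, hCd⟩, eJ.symm⟩
      · exact ⟨c * d, (R ⊓ Cl).mul_mem ⟨hc, hCc⟩ ⟨hd, hCd⟩, by simp [φ, eI, eJ]⟩
    obtain ⟨x₃, h₃, e₃⟩ : ∃ x ∈ R ⊓ Cl, (x : M4) = φ ((![1, Quat.gA, Quat.gB, Quat.gA * Quat.gB] : Fin 4 → Quat.MQ) w) := by
      fin_cases w
      · exact ⟨1, (R ⊓ Cl).one_mem, by simp⟩
      · exact ⟨a, ⟨ha, hCa⟩, eA.symm⟩
      · exact ⟨b, ⟨hb, hCb⟩, eB.symm⟩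
      · exact ⟨a * b, (R ⊓ Cl).mul_mem ⟨ha, hCa⟩ ⟨hb, hCb⟩, by simp [φ, eA, eB]⟩
    exact ⟨x₁ * (x₂ * x₃), (R ⊓ Cl).mul_mem h₁ ((R ⊓ Cl).mul_mem h₂ h₃), by simp [Quat.mono, e₁, e₂, e₃]⟩
  choose x hxRC hx using hmono
  have hxR : ∀ k, x k ∈ R := fun k => (hxRC k).1
  have hxinj : Function.Injective x := by
    intro k k' hk
    by_contra hne'
    have e : φ (Quat.mono k) = φ (Quat.mono k') := by rw [← hx, ← hx, hk]
    rcases Quat.mono_sep k k' hne' with h | ⟨g, h⟩
    · rw [h, map_neg, ← hx] at e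
      exact hne (x k') e.symm
    · obtain ⟨w, -, hw⟩ := hgenR g
      rcases h with ⟨h1, h2'⟩ | ⟨h1, h2'⟩ <;>
      · have e1 := congrArg φ h1
        have e2' := congrArg φ h2'
        rw [map_mul, map_mul, ← hw] at e1
        rw [map_mul, map_neg, map_mul, ← hw] at e2'
        first | rw [e] at e1 | rw [← e] at e1
        rw [e1, ← hx, ← Units.val_mul] at e2'
        exact hne _ e2'
  let X : Quat.Idx → R := fun k => ⟨x k, hxR k⟩
  have hX : Function.Bijective X :=
    (Nat.bijective_iff_injective_and_card X).2 ⟨fun k k' h => hxinj (congrArg Subtype.val h), by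
      rw [hcard, Nat.card_eq_fintype_card]; rfl⟩
  have hphi1 : ∀ k, (φ (Quat.mono k) = 1 ↔ Quat.mono k = 1) ∧ (φ (Quat.mono k) = -1 ↔ Quat.mono k = -1) := by
    intro k
    obtain ⟨k₁, hk₁, k₂, hk₂⟩ : ∃ k₁, Quat.mono k₁ = 1 ∧ ∃ k₂, Quat.mono k₂ = -1 :=
      ⟨(0, 0, 0), by simp [Quat.mono], (1, 0, 0), by simp [Quat.mono]⟩
    refine ⟨⟨fun h => ?_, fun h => by rw [h, map_one]⟩, ⟨fun h => ?_, fun h => by rw [h, map_neg, map_one]⟩⟩
    · rw [← hk₁]; congr 1
      exact hxinj (Units.ext (by rw [hx, hx, h, hk₁, map_one]))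
    · rw [← hk₂]; congr 1
      exact hxinj (Units.ext (by rw [hx, hx, h, hk₂, map_neg, map_one]))
  refine ⟨hcomm, hcl, ⟨a, ha, aa, fun u hu => ?_⟩, ⟨c, hc, cc, fun u hu => ?_⟩, ?_, hanti, ?_,
    a, ha, b, hb, c, hc, d, hd, hrel, fun g hg => by
      obtain ⟨k, hk⟩ := hX.2 ⟨g, hg⟩
      obtain rfl : x k = g := congrArg Subtype.val hk
      exact (hxRC k).2⟩
  · refine hne (b * a) ?_
    rw [Units.val_mul]
    rw [hu, smul_mul_assoc, one_mul, mul_smul_comm, mul_one] at hab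
    rw [hu, mul_smul_comm, mul_one]
    exact hab
  · refine hne (d * c) ?_
    rw [Units.val_mul]
    rw [hu, smul_mul_assoc, one_mul, mul_smul_comm, mul_one] at hcd
    rw [hu, mul_smul_comm, mul_one]
    exact hcd
  · rw [← Quat.mono_count, ← Fintype.card_coe, ← Nat.card_eq_fintype_card]
    refine Nat.card_congr ((Equiv.ofBijective X hX).symm.subtypeEquiv fun g => ?_)
    obtain ⟨k, rfl⟩ := hX.2 g
    rw [show (Equiv.ofBijective X hX).symm (X k) = k from (Equiv.ofBijective X hX).symm_apply_apply k,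
      Finset.mem_filter]
    simp only [Finset.mem_univ, true_and, X, hx, ne_eq, (hphi1 k).1, (hphi1 k).2, ← map_mul]
    refine and_congr_left fun _ => ?_
    rcases Quat.mono_sq k with h | h <;> rw [h]
    · simp
    · simp only [map_neg, map_one]
      refine iff_of_false (fun e => hne 1 (by rw [Units.val_one]; exact e.symm)) ?_
      decide +kernel
  · -- the element of order five
    have h4 : (4 : F) ≠ 0 := by rw [show (4 : F) = 2 * 2 by norm_num]; exact mul_ne_zero h2 h2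
    set Y := φ Quat.fiveQ with hY
    have hY5 : ((2 : F)⁻¹ • Y) ^ 5 = 1 := by
      rw [smul_pow, hY, ← map_pow, Quat.fiveQ_pow, map_nsmul, map_one, ← Nat.cast_smul_eq_nsmul F, smul_smul, inv_pow,
        show ((32 : ℕ) : F) = (2 : F) ^ 5 by norm_num, inv_mul_cancel₀ (pow_ne_zero _ h2), one_smul]
    let y : GL (Fin 2 ⊕ Fin 2) F := ⟨_, _, (pow_succ' _ 4).symm.trans hY5, (pow_succ _ 4).symm.trans hY5⟩
    have hyv : (y : M4) = (2 : F)⁻¹ • Y := rfl
    have hyconj : ∀ k k', Quat.fiveQ * Quat.mono k = Quat.mono k' * Quat.fiveQ → y * x k = x k' * y := fun k k' h =>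
      Units.ext (by rw [Units.val_mul, Units.val_mul, hx, hx, hyv, smul_mul_assoc, mul_smul_comm, hY, ← map_mul, h, map_mul])
    refine ⟨y, Subgroup.mem_normalizer_iff_map_conj_eq.2 (Subgroup.eq_of_le_of_card_ge ?_ ?_), ?_,
      Units.ext (by rw [Units.val_pow_eq_pow_val, hyv, hY5, Units.val_one]), fun e => ?_⟩
    · rintro _ ⟨g, hg, rfl⟩
      obtain ⟨k, hk⟩ := hX.2 ⟨g, hg⟩
      obtain rfl : x k = g := congrArg Subtype.val hk
      obtain ⟨k', hk'⟩ := Quat.fiveQ_mono k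
      show y * x k * y⁻¹ ∈ R
      rw [hyconj k k' hk', mul_inv_cancel_right]
      exact hxR k'
    · exact le_of_eq (Subgroup.card_map_of_injective (MulEquiv.injective _)).symm
    · rw [mem_spGL_iff_adj, hyv, sympAdj_smul, smul_mul_smul_comm]
      have hfix : ∀ g ∈ R, ∀ s : M4, (g : M4) * g = s → sympAdj (g : M4) * s = g := fun g hg s hs => by
        rw [← hs, ← mul_assoc, (mem_spGL_iff_adj g).1 (hRf hg), one_mul]
      have hσa : sympAdj (a : M4) = a := by simpa using hfix a ha 1 aa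
      have hσb : sympAdj (b : M4) = b := by simpa using hfix b hb 1 bb
      have hσc : sympAdj (c : M4) = -(c : M4) := by rw [eq_neg_iff_add_eq_zero, ← neg_eq_iff_add_eq_zero]; simpa using hfix c hc (-1) cc
      have hσd : sympAdj (d : M4) = -(d : M4) := by rw [eq_neg_iff_add_eq_zero, ← neg_eq_iff_add_eq_zero]; simpa using hfix d hd (-1) dd
      rw [hY, Quat.phi_conjTranspose hrel h2 sympAdj sympAdj_mul sympAdj_one sympAdj_smul hσc hσd hσa hσb, ← map_mul,
        Quat.fiveQ_unitary, map_nsmul, map_one, ← Nat.cast_smul_eq_nsmul F, smul_smul, ← mul_inv,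
        show (2 : F) * 2 = ((4 : ℕ) : F) by norm_num, inv_mul_cancel₀ (by exact_mod_cast h4), one_smul]
    · obtain ⟨k, k', hkk, hk⟩ := Quat.fiveQ_moves
      have := hyconj k k' hk
      rw [e, one_mul, mul_one] at this
      exact hkk (hxinj this)

end Cfsg.Agent.Elusive25
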