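import Mathlib

/-!
Diagonal elements of `SL_n` of prime order modulo scalars whose eigenvalues admit no pairing `μ ↦ c / μ`.
-/

set_option autoImplicit false

namespace Cfsg.Agent.Elusive25

open Finset

/-- Diagonal elements of odd prime order modulo scalars with unpaired eigenvalues, all fixed by `x ↦ x ^ Q`. -/
theorem exists_unpaired {F : Type*} [Field F] [DecidableEq F] {n r Q : ℕ} (hr : r.Prime) (hr3 : 3 ≤ r) (hn : 3 ≤ n)
    (hgap : ¬ (n = 6 ∧ r = 3)) {ζ : F} (hζ : ∀ k, ζ ^ k = 1 ↔ r ∣ k) (hζQ : ζ ^ Q = ζ)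
    (hw : n = r ∧ (r = 3 ∨ r = 5) → ∃ w : F, w ^ r ≠ 1 ∧ (w ^ r) ^ r = 1 ∧ w ^ Q = w) :
    ∃ l : Fin n → F, (∀ a, l a ^ Q = l a) ∧ (∏ a, l a) = 1 ∧ (∃ z, ∀ a, l a ^ r = z) ∧ (∃ a b, l a ≠ l b) ∧
      ∀ c : F, c ≠ 0 → ¬ ∀ μ ν : F, (∀ x, μ * x = c → x = ν) →
        (univ.filter fun a => l a = μ).card ≤ (univ.filter fun a => l a = ν).card := by
  by_contra hno
  have use' : ∀ (l : Fin n → F), (∀ a, l a ^ Q = l a) → (∏ a, l a) = 1 → (∃ z, ∀ a, l a ^ r = z) →
      (∃ a b, l a ≠ l b) → ∃ c : F, c ≠ 0 ∧ ∀ μ ν : F, (∀ x, μ * x = c → x = ν) →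
        (univ.filter fun a => l a = μ).card ≤ (univ.filter fun a => l a = ν).card := by
    intro l h1 h2 h3 h4
    by_contra h5
    exact hno ⟨l, h1, h2, h3, h4, fun c hc hle => h5 ⟨c, hc, hle⟩⟩
  have hζ0 : ζ ≠ 0 := fun h => by
    have := (hζ r).2 dvd_rfl
    rw [h, zero_pow hr.ne_zero] at this
    exact zero_ne_one this
  have nz : ∀ k, 0 < k → k < r → ζ ^ k ≠ 1 := fun k h0 hk h => by
    have := Nat.le_of_dvd h0 ((hζ k).1 h); omega
  have cnt2 : ∀ (m : ℕ) (hm : m < n) (α β μ : F), (univ.filter fun a : Fin n => (if (a : ℕ) < m then α else β) = μ).card =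
      (if α = μ then m else 0) + if β = μ then n - m else 0 := by
    intro m hm α β μ
    rw [card_filter, Fin.sum_univ_eq_sum_range (fun a => if (if a < m then α else β) = μ then 1 else 0),
      Finset.range_eq_Ico, ← Finset.sum_Ico_consecutive _ (Nat.zero_le m) hm.le,
      Finset.sum_congr rfl (s₂ := Ico 0 m) (g := fun _ => if α = μ then 1 else 0) fun a ha => by
        rw [if_pos (Finset.mem_Ico.1 ha).2],
      Finset.sum_congr rfl (s₂ := Ico m n) (g := fun _ => if β = μ then 1 else 0) fun a ha => by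
        rw [if_neg (Nat.not_lt.2 (Finset.mem_Ico.1 ha).1)]]
    simp
  -- two distinct eigenvalues of unequal multiplicity
  have two : ∀ (m : ℕ) (α β : F), 0 < m → m < n → 2 * m ≠ n → α ≠ 0 → β ≠ 0 → α ^ 2 ≠ β ^ 2 → α ^ Q = α → β ^ Q = β →
      α ^ m * β ^ (n - m) = 1 → α ^ r = β ^ r → False := by
    intro m α β hm0 hmn hne hα hβ hab hαQ hβQ hdet hr'
    have hαβ : α ≠ β := fun e => hab (by rw [e])
    obtain ⟨c, hc, hle⟩ := use' (fun a => if (a : ℕ) < m then α else β)
      (fun a => by split_ifs <;> assumption) (by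
        rw [Fin.prod_univ_eq_prod_range (fun a => if a < m then α else β), Finset.range_eq_Ico,
          ← Finset.prod_Ico_consecutive _ (Nat.zero_le m) hmn.le,
          Finset.prod_congr rfl (s₂ := Ico 0 m) (g := fun _ => α) fun a ha => if_pos (Finset.mem_Ico.1 ha).2,
          Finset.prod_congr rfl (s₂ := Ico m n) (g := fun _ => β) fun a ha => if_neg (Nat.not_lt.2 (Finset.mem_Ico.1 ha).1)]
        simpa using hdet)
      ⟨α ^ r, fun a => by split_ifs <;> [rfl; exact hr'.symm]⟩
      ⟨⟨0, by omega⟩, ⟨n - 1, by omega⟩, by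
        rw [if_pos hm0, if_neg (show ¬ n - 1 < m by omega)]; exact hαβ⟩
    have fix : ∀ μ, μ ≠ 0 → ∀ K, (univ.filter fun a : Fin n => (if (a : ℕ) < m then α else β) = μ).card = K →
        K ≤ (univ.filter fun a : Fin n => (if (a : ℕ) < m then α else β) = c / μ).card := fun μ hμ K hK =>
      hK ▸ hle μ (c / μ) fun x hx => by rw [eq_div_iff hμ, mul_comm, hx]
    have ha := fix α hα m (by rw [cnt2 m hmn, if_pos rfl, if_neg hαβ.symm]; rfl)
    have hb := fix β hβ (n - m) (by rw [cnt2 m hmn, if_pos rfl, if_neg hαβ]; omega)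
    rw [cnt2 m hmn] at ha hb
    have div_iff : ∀ μ ν, μ ≠ 0 → (ν = c / μ ↔ ν * μ = c) := fun μ ν hμ => eq_div_iff hμ
    by_cases h1 : α = c / α
    · have h1' : β ≠ c / β := fun h' => hab (by
        rw [pow_two, pow_two, (div_iff α α hα).1 h1, (div_iff β β hβ).1 h'])
      rw [if_neg h1'] at hb
      by_cases h3 : α = c / β
      · exact hαβ (mul_left_cancel₀ hα (((div_iff α α hα).1 h1).trans ((div_iff β α hβ).1 h3).symm))
      · rw [if_neg h3] at hb; omega
    · rw [if_neg h1] at ha
      by_cases h3 : β = c / α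
      · by_cases h4 : β = c / β
        · exact hαβ (mul_left_cancel₀ hβ (((div_iff α β hα).1 h3).trans ((div_iff β β hβ).1 h4).symm))
        · have h5 : α = c / β := by rw [div_iff β α hβ, mul_comm]; exact (div_iff α β hα).1 h3
          rw [if_pos h5, if_neg h4] at hb
          rw [if_pos h3] at ha
          omega
      · rw [if_neg h3] at ha; omega
  by_cases hcase : n = r ∧ (r = 3 ∨ r = 5)
  · -- a scalar of order `r²` absorbs the determinant
    obtain ⟨w, hwr, hwrr, hwQ⟩ := hw hcase
    obtain ⟨rfl, -⟩ := hcase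
    have hw0 : w ≠ 0 := fun h' => by rw [h', zero_pow (by omega), zero_pow (by omega)] at hwrr; exact zero_ne_one hwrr
    have hwQ' : (w * (w ^ n)⁻¹) ^ Q = w * (w ^ n)⁻¹ := by
      rw [mul_pow, inv_pow, ← pow_mul, mul_comm n Q, pow_mul, hwQ]
    refine two (n - 1) w (w * (w ^ n)⁻¹) (by omega) (by omega) (by omega) hw0
      (mul_ne_zero hw0 (inv_ne_zero (pow_ne_zero _ hw0))) (fun h' => hwr ?_) hwQ hwQ' ?_ ?_
    · rw [mul_pow, inv_pow, eq_comm, mul_eq_left₀ (pow_ne_zero _ hw0), inv_eq_one] at h'
      have := pow_gcd_eq_one.2 ⟨h', hwrr⟩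
      rwa [((Nat.coprime_primes Nat.prime_two hr).2 (by omega)).gcd_eq_one, pow_one] at this
    · rw [show n - (n - 1) = 1 by omega, pow_one, ← mul_assoc, ← pow_succ, show n - 1 + 1 = n by omega,
        mul_inv_cancel₀ (pow_ne_zero _ hw0)]
    · rw [mul_pow, inv_pow, hwrr, inv_one, mul_one]
  · rcases eq_or_ne r 3 with rfl | h3
    · have hn3 : n ≠ 3 := fun h' => hcase ⟨h', Or.inl rfl⟩
      refine two 3 ζ 1 (by omega) (by omega) (fun h' => hgap ⟨by omega, rfl⟩) hζ0 one_ne_zero
        (by rw [one_pow]; exact nz 2 (by omega) (by omega)) hζQ (one_pow Q) ?_ ?_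
      · rw [(hζ 3).2 dvd_rfl, one_pow, mul_one]
      · rw [(hζ 3).2 dvd_rfl, one_pow]
    · have h5 : 5 ≤ r := by
        rcases Nat.lt_or_ge r 5 with h' | h'
        · interval_cases r <;> first | omega | exact absurd hr (by decide)
        · exact h'
      set η := (ζ ^ 2)⁻¹ with hη
      have hη0 : η ≠ 0 := inv_ne_zero (pow_ne_zero _ hζ0)
      have hζη : ζ ≠ η := fun h' => nz 3 (by omega) (by omega) (by
        rw [pow_succ]; nth_rewrite 2 [h']; rw [hη]; exact mul_inv_cancel₀ (pow_ne_zero _ hζ0))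
      have hζ1 : ζ ≠ 1 := by simpa using nz 1 one_pos (by omega)
      have hη1 : η ≠ 1 := by simpa [η] using nz 2 (by omega) (by omega)
      set l : Fin n → F := fun a => if (a : ℕ) < 2 then ζ else if (a : ℕ) = 2 then η else 1 with hl
      have hsplit : ∀ a, a < n → (a = 0 ∨ a = 1 ∨ a = 2 ∨ 3 ≤ a) := fun a _ => by omega
      have cnt : ∀ μ, (univ.filter fun a => l a = μ).card =
          (if ζ = μ then 2 else 0) + (if η = μ then 1 else 0) + (if 1 = μ then n - 3 else 0) := by
        intro μ
        rw [card_filter, Fin.sum_univ_eq_sum_range (fun a => if (if a < 2 then ζ else if a = 2 then η else 1) = μ then 1 else 0),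
          Finset.range_eq_Ico, ← Finset.sum_Ico_consecutive _ (Nat.zero_le 3) hn,
          ← Finset.range_eq_Ico, Finset.sum_congr rfl (s₂ := Ico 3 n) (g := fun _ => if 1 = μ then 1 else 0) fun a ha => by
            have := (Finset.mem_Ico.1 ha).1
            rw [if_neg (show ¬ a < 2 by omega), if_neg (show ¬ a = 2 by omega)]]
        simp only [Finset.sum_range_succ, Finset.sum_range_zero, Finset.sum_const, Nat.card_Ico, smul_eq_mul]
        norm_num
        split_ifs <;> omega
      obtain ⟨c, hc, hle⟩ := use' l (fun a => by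
          simp only [hl]
          split_ifs
          · exact hζQ
          · rw [inv_pow, ← pow_mul, mul_comm, pow_mul, hζQ]
          · exact one_pow Q) (by
          rw [hl, Fin.prod_univ_eq_prod_range (fun a => if a < 2 then ζ else if a = 2 then η else 1),
            Finset.range_eq_Ico, ← Finset.prod_Ico_consecutive _ (Nat.zero_le 3) hn,
            ← Finset.range_eq_Ico, Finset.prod_congr rfl (s₂ := Ico 3 n) (g := fun _ => (1 : F)) fun a ha => by
              have := (Finset.mem_Ico.1 ha).1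
              rw [if_neg (show ¬ a < 2 by omega), if_neg (show ¬ a = 2 by omega)]]
          simp [Finset.prod_range_succ, hη]
          field_simp)
        ⟨1, fun a => by
          simp only [hl]
          split_ifs
          · exact (hζ r).2 dvd_rfl
          · rw [inv_pow, ← pow_mul, mul_comm, pow_mul, (hζ r).2 dvd_rfl, one_pow, inv_one]
          · exact one_pow r⟩
        ⟨⟨0, by omega⟩, ⟨2, by omega⟩, by simpa [hl] using hζη⟩
      have le' : ∀ μ, μ ≠ 0 → (univ.filter fun a => l a = μ).card ≤ (univ.filter fun a => l a = c / μ).card :=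
        fun μ hμ => hle μ (c / μ) fun x hx => by rw [eq_div_iff hμ, mul_comm, hx]
      have inv : ∀ μ, μ ≠ 0 → c / (c / μ) = μ := fun μ hμ => by rw [div_div_eq_mul_div, mul_div_cancel_left₀ _ hc]
      have eqc : ∀ μ, μ ≠ 0 → (univ.filter fun a => l a = c / μ).card = (univ.filter fun a => l a = μ).card :=
        fun μ hμ => le_antisymm (by
          have := le' (c / μ) (div_ne_zero hc hμ)
          rwa [inv μ hμ] at this) (le' μ hμ)
      have hcη := eqc η hη0
      have hcζ := eqc ζ hζ0
      simp only [cnt, hζη, hζη.symm, hζ1, hζ1.symm, hη1, hη1.symm, if_true, if_false] at hcη hcζ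
      by_cases e1 : ζ = c / η
      · have u1 : ¬ η = c / η := fun e2 => hζη (e1.trans e2.symm)
        have u2 : ¬ (1 : F) = c / η := fun e2 => hζ1 (e1.trans e2.symm)
        rw [if_pos e1] at hcη
        omega
      by_cases e2 : η = c / η
      · -- the centre is `η`
        have hc' : c = η * η := ((eq_div_iff hη0).1 e2).symm
        have q1 : ¬ ζ = c / ζ := fun e3 => by
          rw [eq_div_iff hζ0, hc', hη] at e3
          field_simp at e3
          have h6 : ζ ^ 6 = 1 := by linear_combination e3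
          have h6d := (hζ 6).1 h6
          have := Nat.le_of_dvd (by norm_num) h6d
          interval_cases r <;> first | omega | exact absurd hr (by decide)
        have q2 : ¬ η = c / ζ := fun e3 => e1 (by
          rw [eq_div_iff hη0]; rw [eq_div_iff hζ0] at e3; linear_combination e3)
        rw [if_neg q1, if_neg q2] at hcζ
        by_cases q3 : (1 : F) = c / ζ
        · rw [if_pos q3] at hcζ
          rw [eq_div_iff hζ0, one_mul, hc', hη] at q3
          have h5' : ζ ^ 5 = 1 := by field_simp at q3; linear_combination q3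
          have : r = 5 := (Nat.prime_dvd_prime_iff_eq hr (by norm_num)).1 ((hζ 5).1 h5')
          exact hcase ⟨by omega, Or.inr this⟩
        · rw [if_neg q3] at hcζ; omega
      rw [if_neg e1, if_neg e2] at hcη
      by_cases e3 : (1 : F) = c / η
      · rw [if_pos e3] at hcη
        rw [eq_div_iff hη0, one_mul] at e3
        have q1 : ¬ ζ = c / ζ := fun e4 => nz 4 (by omega) (by omega) (by
          rw [eq_div_iff hζ0, ← e3, hη] at e4
          field_simp at e4
          linear_combination e4)
        have q2 : ¬ η = c / ζ := fun e4 => hζ1 (by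
          rw [eq_div_iff hζ0, ← e3] at e4
          exact mul_left_cancel₀ hη0 (e4.trans (mul_one η).symm))
        rw [if_neg q1, if_neg q2] at hcζ
        split_ifs at hcζ <;> omega
      · rw [if_neg e3] at hcη; omega

end Cfsg.Agent.Elusive25
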