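import Cfsg.Agent.ClassicalMax.SymplecticFour
import Cfsg.Agent.Elusive25.NormBound

/-!
A group of symplectic type of order 64 in dimension four is conjugate to the standard one.
-/

set_option autoImplicit false

namespace Cfsg.Agent.Elusive25

open Matrix Cfsg.Geo
open Cfsg.Agent.ClassicalMax.MonomialFive Cfsg.Agent.ClassicalMax.MonomialFour
open scoped MatrixGroups commutatorElement

variable {F : Type*} [Field F]

/-- Four involutions with the commutation pattern of two commuting dihedral pairs and a common fixed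
vector of the first and third. -/
structure PauliFrame (R : Subgroup (GL (Fin 4) F)) where
  a : GL (Fin 4) F
  b : GL (Fin 4) F
  c : GL (Fin 4) F
  d : GL (Fin 4) F
  v : Fin 4 → F
  ha : a ∈ R
  hb : b ∈ R
  hc : c ∈ R
  hd : d ∈ R
  aa : (a : Matrix (Fin 4) (Fin 4) F) * a = 1
  bb : (b : Matrix (Fin 4) (Fin 4) F) * b = 1
  cc : (c : Matrix (Fin 4) (Fin 4) F) * c = 1
  dd : (d : Matrix (Fin 4) (Fin 4) F) * d = 1
  ab : (a : Matrix (Fin 4) (Fin 4) F) * b = -((b : Matrix (Fin 4) (Fin 4) F) * a)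
  ac : (a : Matrix (Fin 4) (Fin 4) F) * c = (c : Matrix (Fin 4) (Fin 4) F) * a
  ad : (a : Matrix (Fin 4) (Fin 4) F) * d = (d : Matrix (Fin 4) (Fin 4) F) * a
  bc : (b : Matrix (Fin 4) (Fin 4) F) * c = (c : Matrix (Fin 4) (Fin 4) F) * b
  bd : (b : Matrix (Fin 4) (Fin 4) F) * d = (d : Matrix (Fin 4) (Fin 4) F) * b
  cd : (c : Matrix (Fin 4) (Fin 4) F) * d = -((d : Matrix (Fin 4) (Fin 4) F) * c)
  v0 : v ≠ 0
  av : (a : Matrix (Fin 4) (Fin 4) F) *ᵥ v = v
  cv : (c : Matrix (Fin 4) (Fin 4) F) *ᵥ v = v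

/-- The facts about elements used to build a frame. -/
structure PauliData (R : Subgroup (GL (Fin 4) F)) : Prop where
  sym : SymType R
  exp_four : ∀ g ∈ R, g ^ 4 = 1
  card : Nat.card R = 64
  two : (2 : F) ≠ 0
  roots : ∀ u : F, u ^ 4 = 1 → ∃ g ∈ R, (g : Matrix (Fin 4) (Fin 4) F) = u • 1
  exists_i : ∃ i : F, i ^ 2 = -1

/-- The data from the hypotheses on a symplectic-type group with centre of order four. -/
theorem pauliData_of [Finite F] {R : Subgroup (GL (Fin 4) F)} (hst : IsSymplecticTypeGroup 2 R)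
    (hirr : ActsAbsolutelyIrreducibly (matrixSet R)) (hcard : Nat.card R = 64)
    (hZ : Nat.card (Subgroup.center R) = 4) (h2 : (2 : F) ≠ 0) : PauliData R := by
  have : Fact (Nat.Prime 2) := ⟨Nat.prime_two⟩
  have : Finite R := Nat.finite_of_card_ne_zero (by rw [hcard]; norm_num)
  have : Group.IsNilpotent R := hst.pGroup.isNilpotent
  have hexp : Monoid.exponent R = 4 := by rw [hst.exponent_eq]; rfl
  have hidx : (Subgroup.center R).index = 16 := by
    have := (Subgroup.center R).card_mul_index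
    rw [hcard, hZ] at this
    omega
  have hpow : ∀ g ∈ R, g ^ 4 = 1 := fun g hg => by
    have := Monoid.pow_exponent_eq_one (⟨g, hg⟩ : R)
    rw [hexp] at this
    exact congrArg Subtype.val this
  have hcl : commutator R ≤ Subgroup.center R :=
    MaxSub.commutator_le_center_of_cyclic_char hst.cyclic_of_characteristic (by rw [hexp, hZ])
  -- the scalars of the centre
  choose χ hχ using fun z : Subgroup.center R => MaxSub.exists_scalar_of_mem_center hirr z.2
  have hχi : Function.Injective χ := fun z w h => Subtype.ext (Subtype.ext (Units.ext (by rw [hχ, hχ, h])))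
  have hχ4 : ∀ z, χ z ^ 4 = 1 := fun z => by
    have := congrArg (fun g : GL (Fin 4) F => (g : Matrix (Fin 4) (Fin 4) F) 0 0) (hpow _ (z : R).2)
    simp only [Units.val_pow_eq_pow_val, hχ, Units.val_one, smul_pow, one_pow, Matrix.smul_apply,
      Matrix.one_apply_eq, smul_eq_mul, mul_one] at this
    exact this
  obtain ⟨i, hi⟩ : ∃ i : F, i ^ 2 = -1 := by
    by_contra hno
    push Not at hno
    have h1 : ∀ z, χ z = 1 ∨ χ z = -1 := fun z => by
      have h := hχ4 z
      have h' : (χ z ^ 2 - 1) * (χ z ^ 2 + 1) = 0 := by linear_combination h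
      rcases mul_eq_zero.1 h' with h'' | h''
      · exact sq_eq_one_iff.1 (by linear_combination h'')
      · exact absurd (by linear_combination h'' : χ z ^ 2 = -1) (hno _)
    classical
    have := Fintype.ofFinite (Subgroup.center R)
    have := Finset.card_le_card_of_injOn χ (s := Finset.univ) (t := ({1, -1} : Finset F))
      (fun z _ => by simpa using h1 z) hχi.injOn
    rw [Finset.card_univ, ← Nat.card_eq_fintype_card, hZ] at this
    have := this.trans Finset.card_le_two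
    omega
  refine ⟨⟨by simp, hirr, hcl, hidx, by rw [hZ]⟩, hpow, hcard, h2, fun u hu => ?_, i, hi⟩
  classical
  have := Fintype.ofFinite (Subgroup.center R)
  by_contra hno
  push Not at hno
  have hsub : ∀ z, χ z ∈ ({1, -1, i, -i} : Finset F).erase u := fun z => by
    refine Finset.mem_erase.2 ⟨fun h => hno _ (z : R).2 (h ▸ hχ z), ?_⟩
    have h' : (χ z - 1) * (χ z + 1) * (χ z - i) * (χ z + i) = 0 := by
      linear_combination hχ4 z - (χ z ^ 2 - 1) * hi
    simp only [mul_eq_zero, sub_eq_zero, add_eq_zero_iff_eq_neg] at h'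
    simp only [Finset.mem_insert, Finset.mem_singleton]
    tauto
  have hu' : u ∈ ({1, -1, i, -i} : Finset F) := by
    have h' : (u - 1) * (u + 1) * (u - i) * (u + i) = 0 := by
      linear_combination hu - (u ^ 2 - 1) * hi
    simp only [mul_eq_zero, sub_eq_zero, add_eq_zero_iff_eq_neg] at h'
    simp only [Finset.mem_insert, Finset.mem_singleton]
    tauto
  have := Finset.card_le_card_of_injOn χ (s := Finset.univ) (fun z _ => hsub z) hχi.injOn
  rw [Finset.card_univ, ← Nat.card_eq_fintype_card, hZ, Finset.card_erase_of_mem hu'] at this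
  have h4 : ({1, -1, i, -i} : Finset F).card ≤ 4 := Finset.card_le_four
  omega

variable [Finite F]

/-- Existence of a frame. -/
theorem PauliData.exists_frame {R : Subgroup (GL (Fin 4) F)} (h : PauliData R) :
    Nonempty (PauliFrame R) := by
  classical
  have h2 := h.two
  have := h.sym.finite
  have hone : ∀ u v : F, (u • (1 : Matrix (Fin 4) (Fin 4) F)) = v • 1 → u = v := fun u v e => by
    simpa using congrFun (congrFun e 0) 0
  have hpow : ∀ g ∈ R, ((g : Matrix (Fin 4) (Fin 4) F)) ^ 4 = 1 := fun g hg => by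
    rw [← Units.val_pow_eq_pow_val, h.exp_four g hg, Units.val_one]
  have hcomm : ∀ x ∈ R, ∀ y ∈ R, (x : Matrix (Fin 4) (Fin 4) F) * y = (y : Matrix (Fin 4) (Fin 4) F) * x ∨
      (x : Matrix (Fin 4) (Fin 4) F) * y = -((y : Matrix (Fin 4) (Fin 4) F) * x) := by
    intro x hx y hy
    have hz : ⁅(⟨x, hx⟩ : R), (⟨y, hy⟩ : R)⁆ ∈ Subgroup.center R :=
      h.sym.class_two (Subgroup.commutator_mem_commutator (Subgroup.mem_top _) (Subgroup.mem_top _))
    obtain ⟨c, hc⟩ := MaxSub.exists_scalar_of_mem_center h.sym.irr hz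
    have e : x * y = ⁅x, y⁆ * (y * x) := by rw [commutatorElement_def]; group
    have eM : (x : Matrix (Fin 4) (Fin 4) F) * y = c • ((y : Matrix (Fin 4) (Fin 4) F) * x) := by
      have := congrArg (fun g : GL (Fin 4) F => (g : Matrix (Fin 4) (Fin 4) F)) e
      simp only [Units.val_mul] at this
      rw [this]
      change ((⁅(⟨x, hx⟩ : R), (⟨y, hy⟩ : R)⁆ : R) : GL (Fin 4) F).1 * _ = _
      rw [hc, smul_mul_assoc, one_mul]
    set X := (x : Matrix (Fin 4) (Fin 4) F)
    set Y := (y : Matrix (Fin 4) (Fin 4) F)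
    have h4 : c ^ 4 = 1 := by
      have := hpow _ (⁅(⟨x, hx⟩ : R), (⟨y, hy⟩ : R)⁆ : R).2
      rw [hc, smul_pow, one_pow] at this
      exact hone _ 1 (this.trans (one_smul _ _).symm)
    have e2 : X * X * (Y * Y) = c ^ 4 • (Y * Y * (X * X)) := by
      calc X * X * (Y * Y) = X * (X * Y) * Y := by simp only [mul_assoc]
        _ = X * (c • (Y * X)) * Y := by rw [eM]
        _ = c • ((X * Y) * (X * Y)) := by simp only [Matrix.mul_smul, Matrix.smul_mul, mul_assoc]
        _ = c • ((c • (Y * X)) * (c • (Y * X))) := by rw [eM]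
        _ = c ^ 3 • (Y * (X * Y) * X) := by
          simp only [Matrix.mul_smul, Matrix.smul_mul, smul_smul, mul_assoc]
          congr 1; ring
        _ = c ^ 3 • (Y * (c • (Y * X)) * X) := by rw [eM]
        _ = c ^ 4 • (Y * Y * (X * X)) := by
          simp only [Matrix.mul_smul, Matrix.smul_mul, smul_smul, mul_assoc]
          congr 1; ring
    have e3 : Y * X * (Y * X) = c • (Y * Y * (X * X)) := by
      calc Y * X * (Y * X) = Y * (X * Y) * X := by simp only [mul_assoc]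
        _ = _ := by rw [eM]; simp only [Matrix.mul_smul, Matrix.smul_mul, mul_assoc]
    have e4 : (Y * X) ^ 4 = c ^ 6 • (1 : Matrix (Fin 4) (Fin 4) F) := by
      have hY4 : Y * Y * (Y * Y) = 1 := by rw [← hpow y hy]; simp only [pow_succ, pow_zero, one_mul, mul_assoc]; rfl
      have hX4 : X * X * (X * X) = 1 := by rw [← hpow x hx]; simp only [pow_succ, pow_zero, one_mul, mul_assoc]; rfl
      calc (Y * X) ^ 4 = (Y * X * (Y * X)) * (Y * X * (Y * X)) := by
            simp only [pow_succ, pow_zero, one_mul, mul_assoc]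
        _ = (c * c) • (Y * Y * (X * X * (Y * Y)) * (X * X)) := by
          rw [e3]; simp only [Matrix.mul_smul, Matrix.smul_mul, smul_smul, mul_assoc]
        _ = c ^ 6 • ((Y * Y * (Y * Y)) * (X * X * (X * X))) := by
          rw [e2]; simp only [Matrix.mul_smul, Matrix.smul_mul, smul_smul, mul_assoc]
          congr 1; ring
        _ = _ := by rw [hY4, hX4, one_mul]
    have h6 : c ^ 6 = 1 := by
      have := hpow (y * x) (R.mul_mem hy hx)
      rw [Units.val_mul, e4] at this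
      exact hone _ 1 (this.trans (one_smul _ _).symm)
    have h2' : c ^ 2 = 1 := by linear_combination h6 - c ^ 2 * h4
    rcases sq_eq_one_iff.1 h2' with rfl | rfl
    · exact Or.inl (by rw [eM, one_smul])
    · exact Or.inr (by rw [eM, neg_one_smul])
  have hinvol : ∀ x ∈ R, ∃ x' ∈ R, (x' : Matrix (Fin 4) (Fin 4) F) * x' = 1 ∧
      ∃ u : F, u ≠ 0 ∧ (x' : Matrix (Fin 4) (Fin 4) F) = u • (x : Matrix (Fin 4) (Fin 4) F) := by
    intro x hx
    set X := (x : Matrix (Fin 4) (Fin 4) F)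
    obtain ⟨w, hw⟩ : ∃ w : F, X * X = w • 1 := by
      refine h.sym.irr.2 _ ?_
      rintro _ ⟨y, hy, rfl⟩
      rcases hcomm x hx y hy with e | e
      · calc X * X * y = X * (X * y) := mul_assoc _ _ _
          _ = y * (X * X) := by rw [e, ← mul_assoc, e, mul_assoc]
      · calc X * X * y = X * (X * y) := mul_assoc _ _ _
          _ = y * (X * X) := by rw [e, mul_neg, ← mul_assoc, e, neg_mul, neg_neg, mul_assoc]
    have hw2 : w ^ 2 = 1 := by
      have := hpow x hx
      rw [show X ^ 4 = (X * X) * (X * X) by simp only [pow_succ, pow_zero, one_mul, mul_assoc], hw,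
        smul_mul_smul_comm, one_mul] at this
      exact (pow_two w).trans (hone _ 1 (this.trans (one_smul _ _).symm))
    rcases sq_eq_one_iff.1 hw2 with rfl | rfl
    · exact ⟨x, hx, by show X * X = 1; rw [hw, one_smul], 1, one_ne_zero, (one_smul _ _).symm⟩
    obtain ⟨i, hi⟩ := h.exists_i
    obtain ⟨g, hg, hgi⟩ := h.roots i (by linear_combination (i ^ 2 - 1) * hi)
    have hi0 : i ≠ 0 := fun e => by rw [e] at hi; simp at hi
    refine ⟨g * x, R.mul_mem hg hx, ?_, i, hi0, by rw [Units.val_mul, hgi, smul_mul_assoc, one_mul]⟩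
    rw [Units.val_mul, hgi, smul_mul_assoc, one_mul, smul_mul_smul_comm, hw, smul_smul, ← pow_two, hi]
    simp
  have hcentral : ∀ x ∈ R, (∀ y ∈ R, (x : Matrix (Fin 4) (Fin 4) F) * y = (y : Matrix (Fin 4) (Fin 4) F) * x) →
      ∃ u : F, (x : Matrix (Fin 4) (Fin 4) F) = u • 1 := fun x hx hy =>
    h.sym.irr.2 _ (by rintro _ ⟨y, hy', rfl⟩; exact hy y hy')
  -- the first pair
  obtain ⟨g, hg, hgZ⟩ : ∃ g, ∃ hg : g ∈ R, (⟨g, hg⟩ : R) ∉ Subgroup.center R := by
    by_contra hno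
    push Not at hno
    have : Subgroup.center R = ⊤ := eq_top_iff.2 fun g _ => hno g g.2
    have h16 := h.sym.index_center
    rw [this, Subgroup.index_top] at h16
    norm_num at h16
  obtain ⟨a, ha, aa, u, hu, hau⟩ := hinvol g hg
  obtain ⟨g', hg', hgg'⟩ : ∃ y ∈ R, (g : Matrix (Fin 4) (Fin 4) F) * y = -((y : Matrix (Fin 4) (Fin 4) F) * g) := by
    by_contra hno
    push Not at hno
    refine hgZ (Subgroup.mem_center_iff.2 fun y => Subtype.ext (Units.ext ?_))
    exact ((hcomm g hg y y.2).resolve_right (hno y y.2)).symm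
  obtain ⟨b, hb, bb, u', hu', hbu⟩ := hinvol g' hg'
  set A := (a : Matrix (Fin 4) (Fin 4) F) with hA
  set B := (b : Matrix (Fin 4) (Fin 4) F) with hB
  have hab : A * B = -(B * A) := by
    rw [hau, hbu, smul_mul_smul_comm, smul_mul_smul_comm, hgg', smul_neg, mul_comm u']
  have hneg : ∀ M : GL (Fin 4) F, (M : Matrix (Fin 4) (Fin 4) F) ≠ -(M : Matrix (Fin 4) (Fin 4) F) := fun M e => by
    have e' : (2 : F) • (M : Matrix (Fin 4) (Fin 4) F) = 0 := by
      rw [two_smul]; nth_rewrite 2 [e]; exact add_neg_cancel _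
    exact M.ne_zero ((smul_eq_zero.1 e').resolve_left h2)
  -- adjusting an element to commute with the pair
  have hadj : ∀ y ∈ R, ∃ y' ∈ R, ∃ e : GL (Fin 4) F, (e = 1 ∨ e = a ∨ e = b ∨ e = a * b) ∧ y' = y * e ∧
      (y' : Matrix (Fin 4) (Fin 4) F) * A = A * y' ∧ (y' : Matrix (Fin 4) (Fin 4) F) * B = B * y' := by
    intro y hy
    have hBA : B * A = -(A * B) := by rw [hab, neg_neg]
    rcases hcomm y hy a ha with e1 | e1 <;> rcases hcomm y hy b hb with e2 | e2
    · exact ⟨y, hy, 1, Or.inl rfl, (mul_one y).symm, e1, e2⟩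
    · refine ⟨y * a, R.mul_mem hy ha, a, Or.inr (Or.inl rfl), rfl, ?_, ?_⟩ <;> rw [Units.val_mul]
      · rw [mul_assoc, ← mul_assoc A, ← e1, mul_assoc]
      · rw [mul_assoc, hab, mul_neg, ← mul_assoc, e2, neg_mul, neg_neg, mul_assoc]
    · refine ⟨y * b, R.mul_mem hy hb, b, Or.inr (Or.inr (Or.inl rfl)), rfl, ?_, ?_⟩ <;> rw [Units.val_mul]
      · rw [mul_assoc, hBA, mul_neg, ← mul_assoc, e1, neg_mul, neg_neg, mul_assoc]
      · rw [mul_assoc, ← mul_assoc B, ← e2, mul_assoc]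
    · refine ⟨y * (a * b), R.mul_mem hy (R.mul_mem ha hb), a * b, Or.inr (Or.inr (Or.inr rfl)), rfl, ?_, ?_⟩ <;>
        rw [Units.val_mul, Units.val_mul, ← hA, ← hB]
      · have hAy : A * (y : Matrix (Fin 4) (Fin 4) F) = -((y : Matrix (Fin 4) (Fin 4) F) * A) := by rw [e1, neg_neg]
        rw [← mul_assoc A (y : Matrix (Fin 4) (Fin 4) F), hAy, neg_mul]
        simp [mul_assoc, hBA, mul_neg, ← mul_assoc A A, aa]
      · have hBy : B * (y : Matrix (Fin 4) (Fin 4) F) = -((y : Matrix (Fin 4) (Fin 4) F) * B) := by rw [e2, neg_neg]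
        rw [← mul_assoc B (y : Matrix (Fin 4) (Fin 4) F), hBy, neg_mul]
        simp only [mul_assoc, bb, mul_one]
        rw [← mul_assoc B A B, hBA, neg_mul, mul_neg, neg_neg, mul_assoc A B B, bb, mul_one]
  -- the second pair
  obtain ⟨y, hy, hyA, hyB, hyZ⟩ : ∃ y ∈ R, (y : Matrix (Fin 4) (Fin 4) F) * A = A * y ∧
      (y : Matrix (Fin 4) (Fin 4) F) * B = B * y ∧ ¬ ∀ z ∈ R, (y : Matrix (Fin 4) (Fin 4) F) * z = (z : Matrix (Fin 4) (Fin 4) F) * y := by
    by_contra hno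
    push Not at hno
    let e : Fin 4 → R := ![1, ⟨a, ha⟩, ⟨b, hb⟩, ⟨a, ha⟩ * ⟨b, hb⟩]
    have hsurj : Function.Surjective fun p : Subgroup.center R × Fin 4 => (p.1 : R) * (e p.2)⁻¹ := by
      intro w
      obtain ⟨w', hw', f, hf, hwf, h1, h2'⟩ := hadj w.1 w.2
      have hc : (⟨w', hw'⟩ : R) ∈ Subgroup.center R := Subgroup.mem_center_iff.2 fun z =>
        Subtype.ext (Units.ext (hno w' hw' h1 h2' z z.2).symm)
      obtain ⟨j, hj⟩ : ∃ j, ((e j : R) : GL (Fin 4) F) = f := by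
        rcases hf with rfl | rfl | rfl | rfl
        exacts [⟨0, rfl⟩, ⟨1, rfl⟩, ⟨2, rfl⟩, ⟨3, rfl⟩]
      refine ⟨(⟨_, hc⟩, j), Subtype.ext ?_⟩
      show w' * ((e j : R) : GL (Fin 4) F)⁻¹ = w
      rw [hj, hwf, mul_inv_cancel_right]
    have := Nat.card_le_card_of_surjective _ hsurj
    have hmul := (Subgroup.center R).card_mul_index
    rw [h.card, h.sym.index_center] at hmul
    rw [Nat.card_prod, Nat.card_fin, h.card] at this
    omega
  obtain ⟨c, hc, cc, t, ht, hct⟩ := hinvol y hy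
  push Not at hyZ
  obtain ⟨z, hz, hyz⟩ := hyZ
  obtain ⟨z', hz', f, hf, hzf, hzA, hzB⟩ := hadj z hz
  obtain ⟨d, hd, dd, t', ht', hdt⟩ := hinvol z' hz'
  set C := (c : Matrix (Fin 4) (Fin 4) F)
  set D := (d : Matrix (Fin 4) (Fin 4) F)
  have hcA : A * C = C * A := by rw [hct, mul_smul_comm, ← hyA, smul_mul_assoc]
  have hcB : B * C = C * B := by rw [hct, mul_smul_comm, ← hyB, smul_mul_assoc]
  have hdA : A * D = D * A := by rw [hdt, mul_smul_comm, ← hzA, smul_mul_assoc]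
  have hdB : B * D = D * B := by rw [hdt, mul_smul_comm, ← hzB, smul_mul_assoc]
  have hyz' : (y : Matrix (Fin 4) (Fin 4) F) * z' = -((z' : Matrix (Fin 4) (Fin 4) F) * y) := by
    have hyf : (y : Matrix (Fin 4) (Fin 4) F) * f = (f : Matrix (Fin 4) (Fin 4) F) * y := by
      rcases hf with rfl | rfl | rfl | rfl
      · simp
      · exact hyA
      · exact hyB
      · rw [Units.val_mul, ← mul_assoc, hyA, mul_assoc, hyB, ← mul_assoc]
    rw [hzf, Units.val_mul, ← mul_assoc, (hcomm y hy z hz).resolve_left hyz, neg_mul, mul_assoc, hyf, mul_assoc]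
  have hcd : C * D = -(D * C) := by
    rw [hct, hdt, smul_mul_smul_comm, smul_mul_smul_comm, hyz', smul_neg, mul_comm t']
  -- a common fixed vector
  have hM : (1 + A) * (1 + C) ≠ 0 := by
    intro h0
    have h1 : (1 + A) * (1 + C) * B = B * ((1 - A) * (1 + C)) := by
      calc (1 + A) * (1 + C) * B = (1 + A) * (B * (1 + C)) := by
            rw [mul_assoc, add_mul 1 C, one_mul, ← hcB, mul_add B, mul_one]
        _ = B * ((1 - A) * (1 + C)) := by
            rw [← mul_assoc, add_mul 1 A, one_mul, hab, ← mul_assoc, mul_sub B, mul_one, sub_eq_add_neg]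
    rw [h0, zero_mul] at h1
    have h3 : (1 - A) * (1 + C) = 0 := by
      have := congrArg (((b⁻¹ : GL (Fin 4) F) : Matrix (Fin 4) (Fin 4) F) * ·) h1
      simpa [B, ← mul_assoc] using this.symm
    have h4 : (2 : F) • (1 + C) = 0 := by
      rw [two_smul]
      calc (1 + C) + (1 + C) = (1 + A) * (1 + C) + (1 - A) * (1 + C) := by rw [← add_mul]; simp [add_mul]
        _ = 0 := by rw [h0, h3, add_zero]
    have hC : C = -1 := eq_neg_of_add_eq_zero_right ((smul_eq_zero.1 h4).resolve_left h2)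
    rw [hC] at hcd
    exact hneg d (by simpa [D] using hcd.symm)
  obtain ⟨w, hw⟩ : ∃ w, ((1 + A) * (1 + C)) *ᵥ w ≠ 0 := by
    by_contra hno
    push Not at hno
    exact hM (Matrix.ext_of_mulVec_single fun j => by rw [hno, Matrix.zero_mulVec])
  refine ⟨⟨a, b, c, d, ((1 + A) * (1 + C)) *ᵥ w, ha, hb, hc, hd, aa, bb, cc, dd, hab, hcA, hdA, hcB, hdB, hcd, hw, ?_, ?_⟩⟩
  · show A *ᵥ _ = _
    rw [Matrix.mulVec_mulVec, ← mul_assoc, mul_add A, mul_one, aa, add_comm A]
  · show C *ᵥ _ = _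
    have : C * (1 + A) = (1 + A) * C := by rw [mul_add, mul_one, add_mul, one_mul, hcA]
    rw [Matrix.mulVec_mulVec, ← mul_assoc, this, mul_assoc, mul_add C, mul_one, cc, add_comm C]

omit [Finite F] in
theorem toF_dZ_mulVec (l : Fin 4) (j : Fin 4) :
    toF F (dZ l) *ᵥ Pi.single j (1 : F) = (chi l j : F) • Pi.single j 1 := by
  ext i
  rw [Matrix.mulVec_single_one]
  by_cases h : i = j <;> simp [toF, dZ, Matrix.col_apply, h, Pi.single_apply]

omit [Finite F] in
theorem toF_tZ_mulVec (k : Fin 4) (j : Fin 4) :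
    toF F (tZ k) *ᵥ Pi.single j (1 : F) = Pi.single (tr k j) 1 := by
  ext i
  rw [Matrix.mulVec_single_one]
  by_cases h : i = tr k j <;> simp [toF, tZ, Matrix.col_apply, h, Pi.single_apply]

/-- The columns of the frame. -/
def PauliFrame.col {R : Subgroup (GL (Fin 4) F)} (f : PauliFrame R) : Fin 4 → Fin 4 → F :=
  ![f.v, (f.b : Matrix (Fin 4) (Fin 4) F) *ᵥ f.v, (f.d : Matrix (Fin 4) (Fin 4) F) *ᵥ f.v,
    (f.b : Matrix (Fin 4) (Fin 4) F) *ᵥ ((f.d : Matrix (Fin 4) (Fin 4) F) *ᵥ f.v)]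

omit [Finite F] in
theorem PauliFrame.action {R : Subgroup (GL (Fin 4) F)} (f : PauliFrame R) (j : Fin 4) :
    (f.a : Matrix (Fin 4) (Fin 4) F) *ᵥ f.col j = (chi 1 j : F) • f.col j ∧
    (f.c : Matrix (Fin 4) (Fin 4) F) *ᵥ f.col j = (chi 2 j : F) • f.col j ∧
    (f.b : Matrix (Fin 4) (Fin 4) F) *ᵥ f.col j = f.col (tr 1 j) ∧
    (f.d : Matrix (Fin 4) (Fin 4) F) *ᵥ f.col j = f.col (tr 2 j) := by
  have hda : ∀ w, (f.a : Matrix (Fin 4) (Fin 4) F) *ᵥ ((f.d : Matrix (Fin 4) (Fin 4) F) *ᵥ w) =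
      (f.d : Matrix (Fin 4) (Fin 4) F) *ᵥ ((f.a : Matrix (Fin 4) (Fin 4) F) *ᵥ w) := fun w => by
    rw [Matrix.mulVec_mulVec, f.ad, ← Matrix.mulVec_mulVec]
  have hba : ∀ w, (f.a : Matrix (Fin 4) (Fin 4) F) *ᵥ ((f.b : Matrix (Fin 4) (Fin 4) F) *ᵥ w) =
      -((f.b : Matrix (Fin 4) (Fin 4) F) *ᵥ ((f.a : Matrix (Fin 4) (Fin 4) F) *ᵥ w)) := fun w => by
    rw [Matrix.mulVec_mulVec, f.ab, Matrix.neg_mulVec, ← Matrix.mulVec_mulVec]
  have hbc : ∀ w, (f.c : Matrix (Fin 4) (Fin 4) F) *ᵥ ((f.b : Matrix (Fin 4) (Fin 4) F) *ᵥ w) =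
      (f.b : Matrix (Fin 4) (Fin 4) F) *ᵥ ((f.c : Matrix (Fin 4) (Fin 4) F) *ᵥ w) := fun w => by
    rw [Matrix.mulVec_mulVec, ← f.bc, ← Matrix.mulVec_mulVec]
  have hdc : ∀ w, (f.c : Matrix (Fin 4) (Fin 4) F) *ᵥ ((f.d : Matrix (Fin 4) (Fin 4) F) *ᵥ w) =
      -((f.d : Matrix (Fin 4) (Fin 4) F) *ᵥ ((f.c : Matrix (Fin 4) (Fin 4) F) *ᵥ w)) := fun w => by
    rw [Matrix.mulVec_mulVec, f.cd, Matrix.neg_mulVec, ← Matrix.mulVec_mulVec]
  have hbd : ∀ w, (f.d : Matrix (Fin 4) (Fin 4) F) *ᵥ ((f.b : Matrix (Fin 4) (Fin 4) F) *ᵥ w) =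
      (f.b : Matrix (Fin 4) (Fin 4) F) *ᵥ ((f.d : Matrix (Fin 4) (Fin 4) F) *ᵥ w) := fun w => by
    rw [Matrix.mulVec_mulVec, ← f.bd, ← Matrix.mulVec_mulVec]
  have hb2 : ∀ w, (f.b : Matrix (Fin 4) (Fin 4) F) *ᵥ ((f.b : Matrix (Fin 4) (Fin 4) F) *ᵥ w) = w := fun w => by
    rw [Matrix.mulVec_mulVec, f.bb, Matrix.one_mulVec]
  have hd2 : ∀ w, (f.d : Matrix (Fin 4) (Fin 4) F) *ᵥ ((f.d : Matrix (Fin 4) (Fin 4) F) *ᵥ w) = w := fun w => by
    rw [Matrix.mulVec_mulVec, f.dd, Matrix.one_mulVec]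
  fin_cases j <;> simp [-Matrix.mulVec_mulVec, PauliFrame.col, chi, bit, tr, hda, hba, hbc, hdc, hbd, hb2, hd2, f.av, f.cv,
    Matrix.mulVec_neg]

omit [Finite F] in
/-- The change of basis of a frame. -/
theorem PauliFrame.exists_matrix {R : Subgroup (GL (Fin 4) F)} (f : PauliFrame R) (h2 : (2 : F) ≠ 0) :
    ∃ P : GL (Fin 4) F, (∀ j, (P : Matrix (Fin 4) (Fin 4) F) *ᵥ Pi.single j 1 = f.col j) ∧
      (f.a : Matrix (Fin 4) (Fin 4) F) * P = (P : Matrix (Fin 4) (Fin 4) F) * toF F (dZ 1) ∧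
      (f.c : Matrix (Fin 4) (Fin 4) F) * P = (P : Matrix (Fin 4) (Fin 4) F) * toF F (dZ 2) ∧
      (f.b : Matrix (Fin 4) (Fin 4) F) * P = (P : Matrix (Fin 4) (Fin 4) F) * toF F (tZ 1) ∧
      (f.d : Matrix (Fin 4) (Fin 4) F) * P = (P : Matrix (Fin 4) (Fin 4) F) * toF F (tZ 2) := by
  classical
  have hcol0 : ∀ j, f.col j ≠ 0 := by
    have hb : ∀ (M : GL (Fin 4) F) w, w ≠ 0 → (M : Matrix (Fin 4) (Fin 4) F) *ᵥ w ≠ 0 := fun M w hw h0 =>
      hw (by rw [← Matrix.one_mulVec w, ← Units.val_one, ← inv_mul_cancel M, Units.val_mul, ← Matrix.mulVec_mulVec,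
        h0, Matrix.mulVec_zero])
    intro j
    fin_cases j
    · exact f.v0
    · exact hb _ _ f.v0
    · exact hb _ _ f.v0
    · exact hb _ _ (hb _ _ f.v0)
  have hne : (Matrix.of fun i j => f.col j i).det ≠ 0 := by
    intro h0
    obtain ⟨g, hg0, hg⟩ := Matrix.exists_mulVec_eq_zero_iff.2 h0
    have hsum : ∑ j, g j • f.col j = 0 := by
      funext i
      have := congrFun hg i
      simpa [Matrix.mulVec, dotProduct, mul_comm] using this
    refine hg0 (funext fun j => ?_)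
    have hproj : ∀ (M : Matrix (Fin 4) (Fin 4) F) (s : Fin 4 → F), (∀ k, M *ᵥ f.col k = s k • f.col k) →
        ∑ k, (g k * (1 + s j * s k)) • f.col k = 0 := by
      intro M s hs
      have h1 : ∑ k, (g k * s k) • f.col k = 0 := by
        have h' := congrArg (M *ᵥ ·) hsum
        simp only [Matrix.mulVec_sum, Matrix.mulVec_smul, hs, smul_smul, Matrix.mulVec_zero] at h'
        exact h'
      calc ∑ k, (g k * (1 + s j * s k)) • f.col k = ∑ k, g k • f.col k + s j • ∑ k, (g k * s k) • f.col k := by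
            rw [Finset.smul_sum, ← Finset.sum_add_distrib]
            exact Finset.sum_congr rfl fun k _ => by module
        _ = 0 := by rw [hsum, h1, smul_zero, add_zero]
    have h1 := hproj (f.a : Matrix (Fin 4) (Fin 4) F) (fun k => (chi 1 k : F)) fun k => (f.action k).1
    have h3 := congrArg ((f.c : Matrix (Fin 4) (Fin 4) F) *ᵥ ·) h1
    simp only [Matrix.mulVec_sum, Matrix.mulVec_smul, (f.action _).2.1, smul_smul, Matrix.mulVec_zero] at h3
    have h4 : ∑ k, (g k * (1 + (chi 1 j : F) * chi 1 k) * (1 + (chi 2 j : F) * chi 2 k)) • f.col k = 0 := by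
      calc _ = ∑ k, (g k * (1 + (chi 1 j : F) * chi 1 k)) • f.col k +
            (chi 2 j : F) • ∑ k, (g k * (1 + (chi 1 j : F) * chi 1 k) * chi 2 k) • f.col k := by
            rw [Finset.smul_sum, ← Finset.sum_add_distrib]
            exact Finset.sum_congr rfl fun k _ => by module
        _ = 0 := by rw [h1, h3, smul_zero, add_zero]
    rw [Finset.sum_eq_single j] at h4
    · have h5 := (smul_eq_zero.1 h4).resolve_right (hcol0 j)
      rw [chi_sq, chi_sq, one_add_one_eq_two] at h5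
      simpa [h2] using h5
    · intro k _ hk
      have key : ∀ j k : Fin 4, k ≠ j → (1 + chi 1 j * chi 1 k) * (1 + chi 2 j * chi 2 k) = 0 := by decide
      have hz := key j k hk
      have hz' := congrArg (fun z : ℤ => (z : F)) hz
      push_cast at hz'
      rw [mul_assoc (g k), hz', mul_zero, zero_smul]
    · simp
  refine ⟨Matrix.GeneralLinearGroup.mkOfDetNeZero (Matrix.of fun i j => f.col j i) hne, fun j => ?_, ?_⟩
  · show (Matrix.of fun i j => f.col j i) *ᵥ Pi.single j 1 = _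
    rw [Matrix.mulVec_single_one]; rfl
  have hP : ∀ j, (Matrix.of fun i j => f.col j i) *ᵥ Pi.single j (1 : F) = f.col j := fun j => by
    rw [Matrix.mulVec_single_one]; rfl
  refine ⟨?_, ?_, ?_, ?_⟩ <;> refine Matrix.ext_of_mulVec_single fun j => ?_ <;>
    rw [← Matrix.mulVec_mulVec, ← Matrix.mulVec_mulVec] <;>
    show _ *ᵥ ((Matrix.of fun i j => f.col j i) *ᵥ _) = (Matrix.of fun i j => f.col j i) *ᵥ _
  · rw [hP, toF_dZ_mulVec, Matrix.mulVec_smul, hP, (f.action j).1]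
  · rw [hP, toF_dZ_mulVec, Matrix.mulVec_smul, hP, (f.action j).2.1]
  · rw [hP, toF_tZ_mulVec, hP, (f.action j).2.2.1]
  · rw [hP, toF_tZ_mulVec, hP, (f.action j).2.2.2]

/-- A frame brings the group to the standard one. -/
theorem PauliData.eq_map {R : Subgroup (GL (Fin 4) F)} (h : PauliData R) (f : PauliFrame R) {P : GL (Fin 4) F}
    (hPa : (f.a : Matrix (Fin 4) (Fin 4) F) * P = (P : Matrix (Fin 4) (Fin 4) F) * toF F (dZ 1))
    (hPc : (f.c : Matrix (Fin 4) (Fin 4) F) * P = (P : Matrix (Fin 4) (Fin 4) F) * toF F (dZ 2))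
    (hPb : (f.b : Matrix (Fin 4) (Fin 4) F) * P = (P : Matrix (Fin 4) (Fin 4) F) * toF F (tZ 1))
    (hPd : (f.d : Matrix (Fin 4) (Fin 4) F) * P = (P : Matrix (Fin 4) (Fin 4) F) * toF F (tZ 2)) :
    R = (R₁ F).map (MulAut.conj P).toMonoidHom := by
  classical
  have : NeZero (2 : F) := ⟨h.two⟩
  have := h.sym.finite
  have hd3 : dZ 3 = dZ 1 * dZ 2 := by decide +kernel
  have ht3 : tZ 3 = tZ 1 * tZ 2 := by decide +kernel
  have hd0 : dZ 0 = 1 := by decide +kernel
  have ht0 : tZ 0 = 1 := by decide +kernel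
  have hlift : ∀ l, ∃ g ∈ R, (g : Matrix (Fin 4) (Fin 4) F) * P = (P : Matrix (Fin 4) (Fin 4) F) * toF F (dZ l) := by
    intro l
    fin_cases l
    · exact ⟨1, R.one_mem, by simp [hd0]⟩
    · exact ⟨f.a, f.ha, hPa⟩
    · exact ⟨f.c, f.hc, hPc⟩
    · refine ⟨f.a * f.c, R.mul_mem f.ha f.hc, ?_⟩
      show _ = (P : Matrix (Fin 4) (Fin 4) F) * toF F (dZ 3)
      rw [Units.val_mul, mul_assoc, hPc, ← mul_assoc, hPa, hd3, map_mul, mul_assoc]
  have hlift' : ∀ k, ∃ g ∈ R, (g : Matrix (Fin 4) (Fin 4) F) * P = (P : Matrix (Fin 4) (Fin 4) F) * toF F (tZ k) := by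
    intro k
    fin_cases k
    · exact ⟨1, R.one_mem, by simp [ht0]⟩
    · exact ⟨f.b, f.hb, hPb⟩
    · exact ⟨f.d, f.hd, hPd⟩
    · refine ⟨f.b * f.d, R.mul_mem f.hb f.hd, ?_⟩
      show _ = (P : Matrix (Fin 4) (Fin 4) F) * toF F (tZ 3)
      rw [Units.val_mul, mul_assoc, hPd, ← mul_assoc, hPb, ht3, map_mul, mul_assoc]
  have hle : (R₁ F).map (MulAut.conj P).toMonoidHom ≤ R := by
    rintro _ ⟨x, hx, rfl⟩
    obtain ⟨u, l, k, hxu, hu⟩ := exists_form ⟨x, hx⟩
    obtain ⟨g₁, hg₁, e₁⟩ := hlift l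
    obtain ⟨g₂, hg₂, e₂⟩ := hlift' k
    obtain ⟨g₀, hg₀, e₀⟩ := h.roots (u : F) (by rw [← Units.val_pow_eq_pow_val, hu, Units.val_one])
    convert R.mul_mem hg₀ (R.mul_mem hg₁ hg₂) using 1
    show P * x * P⁻¹ = _
    rw [mul_inv_eq_iff_eq_mul]
    refine Units.ext ?_
    change _ = ((g₀ * (g₁ * g₂)) * P : GL (Fin 4) F).1
    simp only [Units.val_mul]
    change (P : Matrix (Fin 4) (Fin 4) F) * (x : Matrix (Fin 4) (Fin 4) F) = _
    rw [hxu, e₀, smul_mul_assoc, one_mul, smul_mul_assoc, mul_assoc, e₂, ← mul_assoc, e₁, mul_assoc, ← map_mul,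
      mul_smul_comm]
    rfl
  refine (Subgroup.eq_of_le_of_card_ge hle ?_).symm
  rw [Subgroup.card_map_of_injective (MulAut.conj P).injective, h.card]
  obtain ⟨i, hi⟩ := h.exists_i
  have hi0 : i ≠ 0 := fun e => by rw [e] at hi; simp at hi
  let z : Fˣ := Units.mk0 i hi0
  have hz : z ^ 4 = 1 := Units.ext (by simp [z]; linear_combination (i ^ 2 - 1) * hi)
  let φ : Fin 4 × Fin 4 × Fin 4 → R₁ F := fun p =>
    ⟨mkEl (z ^ (p.1 : ℕ)) p.2.1 p.2.2, mem_R₁ (by rw [← pow_mul, mul_comm, pow_mul, hz, one_pow]) _ _⟩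
  have hz2 : orderOf z = 2 ^ (1 + 1) := orderOf_eq_prime_pow (hp := ⟨Nat.prime_two⟩) (fun e => by
      have := congrArg Units.val e
      simp [z, hi] at this
      exact h.two (by linear_combination -this)) (by simpa using hz)
  have hφ : Function.Injective φ := fun p p' e => by
    have h0 := congrArg (fun x : R₁ F => ((x : GL (Fin 4) F) : Matrix (Fin 4) (Fin 4) F)) e
    obtain ⟨h1, h3, h4⟩ := param_inj h0
    refine Prod.ext (Fin.ext ?_) (Prod.ext h3 h4)
    exact pow_injOn_Iio_orderOf (by simp [hz2]) (by simp [hz2]) h1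
  have : Finite (R₁ F) := inferInstance
  have := Nat.card_le_card_of_injective φ hφ
  simpa using this

/-- Standard form. -/
theorem PauliData.exists_conj {R : Subgroup (GL (Fin 4) F)} (h : PauliData R) :
    ∃ P : GL (Fin 4) F, R = (R₁ F).map (MulAut.conj P).toMonoidHom := by
  obtain ⟨f⟩ := h.exists_frame
  obtain ⟨P, -, h1, h3, h4, h5⟩ := f.exists_matrix h.two
  exact ⟨P, h.eq_map f h1 h3 h4 h5⟩

end Cfsg.Agent.Elusive25
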