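import Cfsg.Agent.ClassicalMax.SymplecticFour
import Cfsg.Agent.Forms.UnitaryGeom
import Cfsg.Prelude.Def_LieClassical
import Mathlib.NumberTheory.Zsqrtd.GaussianInt

/-!
Elements normalising the standard group of symplectic type of order 64, given by matrices over the
Gaussian integers: all sign changes, two classes of elements of order three and one of order five.
-/

set_option autoImplicit false

namespace Cfsg.Agent.Elusive25

open Matrix Cfsg.Geo
open Cfsg.Agent.ClassicalMax.MonomialFive Cfsg.Agent.ClassicalMax.MonomialFour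
open Cfsg.Agent.Classical.U (SqField)
open scoped MatrixGroups

namespace Gauss

/-- `dZ l * tZ k` over the Gaussian integers. -/
def eG (l k : Fin 4) : Matrix (Fin 4) (Fin 4) GaussianInt :=
  (dZ l * tZ k).map fun z => (z : GaussianInt)

/-- A Gaussian matrix permuting the standard elements up to powers of the fourth root of unity. -/
def NormG (M : Matrix (Fin 4) (Fin 4) GaussianInt) : Prop :=
  ∀ l k : Fin 4, ∃ e m j : Fin 4, M * eG l k = ((⟨0, 1⟩ : GaussianInt) ^ (e : ℕ)) • (eG m j * M)

/-- A sign change in one coordinate. -/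
def signM (a : Fin 4) : Matrix (Fin 4) (Fin 4) GaussianInt :=
  Matrix.diagonal fun x => if x = a then -1 else 1

/-- A permutation matrix of order three fixing the first coordinate. -/
def permM : Matrix (Fin 4) (Fin 4) GaussianInt :=
  !![1, 0, 0, 0; 0, 0, 0, 1; 0, 1, 0, 0; 0, 0, 1, 0]

/-- Twice an element of order three without fixed vectors. -/
def threeM : Matrix (Fin 4) (Fin 4) GaussianInt :=
  !![⟨-1, 1⟩, 0, ⟨1, 1⟩, 0; 0, ⟨-1, 1⟩, 0, ⟨1, 1⟩; ⟨-1, 1⟩, 0, ⟨-1, -1⟩, 0; 0, ⟨-1, 1⟩, 0, ⟨-1, -1⟩]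

/-- Twice an element of order five. -/
def fiveM : Matrix (Fin 4) (Fin 4) GaussianInt :=
  !![⟨-1, -1⟩, ⟨-1, 1⟩, 0, 0; 0, 0, ⟨-1, -1⟩, ⟨1, -1⟩; ⟨-1, -1⟩, ⟨1, -1⟩, 0, 0; 0, 0, ⟨-1, -1⟩, ⟨-1, 1⟩]

theorem normG_signM : ∀ a, NormG (signM a) := by unfold NormG; decide +kernel
theorem normG_permM : NormG permM := by unfold NormG; decide +kernel
theorem normG_threeM : NormG threeM := by unfold NormG; decide +kernel
theorem normG_fiveM : NormG fiveM := by unfold NormG; decide +kernel
theorem permM_pow : permM ^ 3 = 1 := by decide +kernel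
theorem threeM_sq : threeM * threeM + (2 : GaussianInt) • threeM + (4 : GaussianInt) • 1 = 0 := by decide +kernel
theorem fiveM_pow : fiveM ^ 5 = (32 : GaussianInt) • 1 := by decide +kernel
theorem permM_unitary : permMᵀ * permM.map star = 1 := by decide +kernel
theorem threeM_unitary : threeMᵀ * threeM.map star = (4 : GaussianInt) • 1 := by decide +kernel
theorem fiveM_unitary : fiveMᵀ * fiveM.map star = (4 : GaussianInt) • 1 := by decide +kernel
theorem permM_fix : permM *ᵥ Pi.single 0 1 = Pi.single 0 1 := by decide +kernel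
theorem permM_entry : permM 1 1 = 0 := by decide +kernel
theorem fiveM_entry : fiveM 2 2 = 0 := by decide +kernel

end Gauss

open Gauss

variable {F : Type*} [Field F]

/-- The map of the Gaussian integers given by a square root of `-1`. -/
def toGauss (i : F) (hi : i ^ 2 = -1) : GaussianInt →+* F :=
  Zsqrtd.lift ⟨i, by rw [← pow_two, hi]; simp⟩

/-- The same on matrices. -/
def toGaussM (i : F) (hi : i ^ 2 = -1) : Matrix (Fin 4) (Fin 4) GaussianInt →+* Matrix (Fin 4) (Fin 4) F :=
  (toGauss i hi).mapMatrix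

variable {i : F} {hi : i ^ 2 = -1}

theorem toGaussM_smul (c : GaussianInt) (M : Matrix (Fin 4) (Fin 4) GaussianInt) :
    toGaussM i hi (c • M) = toGauss i hi c • toGaussM i hi M := by
  ext a b
  simp [toGaussM]

theorem toGaussM_eG (l k : Fin 4) : toGaussM i hi (eG l k) = el F l k := by
  ext a b
  simp [toGaussM, eG, el, toF]

variable [Finite F]

/-- A multiple of a Gaussian matrix with the permutation property normalises the standard group. -/
theorem mem_normalizer_of_normG {g : GL (Fin 4) F} {s : F} {M : Matrix (Fin 4) (Fin 4) GaussianInt}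
    (hM : NormG M) (hg : (g : Matrix (Fin 4) (Fin 4) F) = s • toGaussM i hi M) :
    g ∈ subgroupNormalizer (R₁ F) := by
  have := Fintype.ofFinite F
  have hi0 : i ≠ 0 := fun e => by rw [e] at hi; simp at hi
  refine Subgroup.mem_normalizer_iff_map_conj_eq.2 (map_R₁ (normalizer_of_forall fun l k => ?_))
  obtain ⟨e, m, j, he⟩ := hM l k
  refine ⟨Units.mk0 i hi0 ^ (e : ℕ), m, j, ?_⟩
  have h := congrArg (toGaussM i hi) he
  rw [map_mul, toGaussM_smul, map_mul, toGaussM_eG, toGaussM_eG, map_pow] at h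
  rw [hg, smul_mul_assoc, h, Units.val_pow_eq_pow_val, Units.val_mk0, smul_mul_assoc, mul_smul_comm, smul_comm]
  congr 2
  simp [toGauss]

/-- Scalars normalise. -/
theorem scalar_mem_normalizer (R : Subgroup (GL (Fin 4) F)) {g : GL (Fin 4) F} {c : F}
    (hg : (g : Matrix (Fin 4) (Fin 4) F) = c • 1) : g ∈ subgroupNormalizer R := by
  refine Subgroup.mem_normalizer_iff.2 fun x => ?_
  rw [show g * x = x * g from Units.ext (by rw [Units.val_mul, Units.val_mul, hg]; simp), mul_inv_cancel_right]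

/-- Multiples of sign changes normalise the standard group. -/
theorem diag_mem_normalizer (hi : i ^ 2 = -1) {g : GL (Fin 4) F} {w : F} (hw : w ≠ 0) (l : Fin 4 → F)
    (hl : ∀ x, l x = w ∨ l x = -w) (hg : (g : Matrix (Fin 4) (Fin 4) F) = Matrix.diagonal l) :
    g ∈ subgroupNormalizer (R₁ F) := by
  classical
  let ε : Fin 4 → F := fun x => if l x = w then 1 else -1
  let sg : Fin 4 → GL (Fin 4) F := fun a => Matrix.GeneralLinearGroup.mkOfDetNeZero
    (Matrix.diagonal fun x => if x = a then ε a else 1) (by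
      rw [Matrix.det_diagonal, Finset.prod_ite_eq' Finset.univ a]
      simp only [Finset.mem_univ, if_true, ε]
      split_ifs <;> simp)
  have hsg : ∀ a, sg a ∈ subgroupNormalizer (R₁ F) := fun a => by
    by_cases ha : l a = w
    · rw [show sg a = 1 from Units.ext (by
        show Matrix.diagonal _ = _
        simp [ε, ha])]
      exact one_mem _
    · refine mem_normalizer_of_normG (i := i) (hi := hi) (s := 1) (normG_signM a) ?_
      show Matrix.diagonal _ = _
      rw [one_smul, toGaussM, RingHom.mapMatrix_apply, signM, Matrix.diagonal_map (map_zero _)]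
      congr 1
      funext x
      simp only [ε, if_neg ha]
      split_ifs <;> simp
  let c : GL (Fin 4) F := Matrix.GeneralLinearGroup.mkOfDetNeZero (w • (1 : Matrix (Fin 4) (Fin 4) F))
    (by simp [Matrix.det_smul, hw])
  have hmem := mul_mem (scalar_mem_normalizer (R₁ F) (g := c) (c := w) rfl)
    (mul_mem (mul_mem (hsg 0) (hsg 1)) (mul_mem (hsg 2) (hsg 3)))
  convert hmem using 1
  refine Units.ext ?_
  simp only [Units.val_mul, hg, c, sg]
  show Matrix.diagonal l = w • (1 : Matrix (Fin 4) (Fin 4) F) * (Matrix.diagonal _ * Matrix.diagonal _ *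
    (Matrix.diagonal _ * Matrix.diagonal _))
  simp only [Matrix.diagonal_mul_diagonal, smul_mul_assoc, one_mul, ← Matrix.diagonal_smul]
  congr 1
  funext x
  have hx : ∀ y, l y = w * ε y := fun y => by
    simp only [ε]
    split_ifs with h
    · rw [h, mul_one]
    · rw [(hl y).resolve_left h, mul_neg_one]
  simp only [Pi.smul_apply, smul_eq_mul, hx]
  fin_cases x <;> simp

/-- The unitary condition for a multiple of a Gaussian matrix. -/
theorem mem_GU_of_gauss {q : ℕ} (hF : SqField F q) (hiq : i ^ q = -i) {g : GL (Fin 4) F} {s : F}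
    {M : Matrix (Fin 4) (Fin 4) GaussianInt} {N : GaussianInt} (hM : Mᵀ * M.map star = N • 1)
    (hs : s ^ (q + 1) * toGauss i hi N = 1) (hg : (g : Matrix (Fin 4) (Fin 4) F) = s • toGaussM i hi M) :
    g ∈ Cfsg.GU 4 F q := by
  let σ : F →+* F := Forms.sqConj hF
  have hstar : ∀ z : GaussianInt, toGauss i hi (star z) = σ (toGauss i hi z) := fun z => by
    simp only [toGauss, Zsqrtd.lift_apply_apply, Zsqrtd.re_star, Zsqrtd.im_star, map_add, map_mul, map_intCast]
    rw [show σ i = -i from hiq]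
    push_cast
    ring
  have hgram : ((g : Matrix (Fin 4) (Fin 4) F))ᵀ * (g : Matrix (Fin 4) (Fin 4) F).map σ = 1 := by
    have h1 : (toGaussM i hi M).map σ = toGaussM i hi (M.map star) := by
      ext a b
      simp [toGaussM, hstar]
    have h2 : (toGaussM i hi M)ᵀ = toGaussM i hi Mᵀ := by
      ext a b
      simp [toGaussM]
    rw [hg, Matrix.transpose_smul, show (s • toGaussM i hi M).map σ = σ s • (toGaussM i hi M).map σ from
      Matrix.map_smul' σ s (toGaussM i hi M) (map_mul σ), h1, h2, smul_mul_smul_comm, ← map_mul, hM, toGaussM_smul,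
      map_one, smul_smul, show s * σ s = s ^ (q + 1) by rw [pow_succ']; rfl, hs, one_smul]
  intro u v
  show Cfsg.hermForm 4 F q ((g : Matrix (Fin 4) (Fin 4) F) *ᵥ u) ((g : Matrix (Fin 4) (Fin 4) F) *ᵥ v) = _
  have hherm : ∀ a b : Fin 4 → F, Cfsg.hermForm 4 F q a b = a ⬝ᵥ (σ ∘ b) := fun a b => rfl
  rw [hherm, hherm, show σ ∘ ((g : Matrix (Fin 4) (Fin 4) F) *ᵥ v) =
      (g : Matrix (Fin 4) (Fin 4) F).map σ *ᵥ (σ ∘ v) from funext fun k => RingHom.map_mulVec σ _ v k,
    dotProduct_comm, Matrix.dotProduct_mulVec, ← Matrix.mulVec_transpose, Matrix.mulVec_mulVec, hgram,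
    Matrix.one_mulVec, dotProduct_comm]

/-- An element of order five. -/
theorem exists_five_mem (hi : i ^ 2 = -1) (h2 : (2 : F) ≠ 0) :
    ∃ y ∈ subgroupNormalizer (R₁ F), y ^ 5 = 1 ∧ y ≠ 1 ∧
      ∀ q : ℕ, SqField F q → i ^ q = -i → y ∈ Cfsg.GU 4 F q := by
  have hpow : ((2 : F)⁻¹ • toGaussM i hi fiveM) ^ 5 = 1 := by
    rw [smul_pow, ← map_pow, fiveM_pow, toGaussM_smul, map_one, smul_smul, inv_pow,
      show toGauss i hi 32 = (2 : F) ^ 5 by rw [map_ofNat]; norm_num, inv_mul_cancel₀ (pow_ne_zero _ h2), one_smul]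
  refine ⟨⟨_, _, (pow_succ' _ 4).symm.trans hpow, (pow_succ _ 4).symm.trans hpow⟩, mem_normalizer_of_normG normG_fiveM rfl,
    Units.ext (by rw [Units.val_pow_eq_pow_val]; exact hpow), fun h => ?_, fun q hF hiq => ?_⟩
  · have h' := congrArg (fun g : GL (Fin 4) F => (g : Matrix (Fin 4) (Fin 4) F) 2 2) h
    simp [toGaussM, fiveM_entry] at h'
  · refine mem_GU_of_gauss hF hiq fiveM_unitary ?_ rfl
    have hfix : ((2 : F)⁻¹) ^ q = (2 : F)⁻¹ := by
      rw [inv_pow]; congr 1
      exact (map_ofNat (Forms.sqConj hF) 2 : _)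
    rw [pow_succ, hfix, map_ofNat, ← mul_inv, show (2 : F) * 2 = 4 by norm_num, inv_mul_cancel₀]
    rw [show (4 : F) = 2 * 2 by norm_num]
    exact mul_ne_zero h2 h2

/-- Two elements of order three, with and without fixed vectors. -/
theorem exists_three_mem (hi : i ^ 2 = -1) (h2 : (2 : F) ≠ 0) :
    (∃ y ∈ subgroupNormalizer (R₁ F), y ^ 3 = 1 ∧ y ≠ 1 ∧
      (y : Matrix (Fin 4) (Fin 4) F) *ᵥ Pi.single 0 1 = Pi.single 0 1 ∧
      ∀ q : ℕ, SqField F q → i ^ q = -i → y ∈ Cfsg.GU 4 F q) ∧
    ∃ y ∈ subgroupNormalizer (R₁ F), y ^ 3 = 1 ∧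
      (y : Matrix (Fin 4) (Fin 4) F) * y + (y : Matrix (Fin 4) (Fin 4) F) + 1 = 0 ∧
      ∀ q : ℕ, SqField F q → i ^ q = -i → y ∈ Cfsg.GU 4 F q := by
  constructor
  · have hpow : toGaussM i hi permM ^ 3 = 1 := by rw [← map_pow, permM_pow, map_one]
    refine ⟨⟨_, _, (pow_succ' _ 2).symm.trans hpow, (pow_succ _ 2).symm.trans hpow⟩, mem_normalizer_of_normG (s := 1) normG_permM (one_smul _ _).symm,
      Units.ext (by rw [Units.val_pow_eq_pow_val]; exact hpow), fun h => ?_, ?_, fun q hF hiq => ?_⟩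
    · have h' := congrArg (fun g : GL (Fin 4) F => (g : Matrix (Fin 4) (Fin 4) F) 1 1) h
      simp [toGaussM, permM_entry] at h'
    · show toGaussM i hi permM *ᵥ _ = _
      funext k
      rw [Matrix.mulVec_single_one]
      have h' := congrFun permM_fix k
      rw [Matrix.mulVec_single_one] at h'
      show toGauss i hi (permM k 0) = _
      rw [show permM k 0 = (Pi.single 0 1 : Fin 4 → GaussianInt) k from h']
      by_cases hk : k = 0 <;> simp [hk]
    · refine mem_GU_of_gauss (N := 1) (s := 1) hF hiq ?_ (by simp) (one_smul _ _).symm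
      rw [permM_unitary, one_smul]
  · set A := toGaussM i hi threeM
    have hA : A * A + (2 : F) • A + (4 : F) • 1 = 0 := by
      have := congrArg (toGaussM i hi) threeM_sq
      rwa [map_add, map_add, map_mul, toGaussM_smul, toGaussM_smul, map_one, map_zero, map_ofNat, map_ofNat] at this
    have h4 : (4 : F) ≠ 0 := by rw [show (4 : F) = 2 * 2 by norm_num]; exact mul_ne_zero h2 h2
    set Y := (2 : F)⁻¹ • A with hY
    have hY2 : Y * Y + Y + 1 = 0 := by
      refine (smul_eq_zero.1 ?_).resolve_left h4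
      rw [← hA, hY, smul_mul_smul_comm, smul_add, smul_add, smul_smul, smul_smul]
      congr 2
      · rw [show (4 : F) * ((2 : F)⁻¹ * (2 : F)⁻¹) = 1 by field_simp; norm_num, one_smul]
      · congr 1
        field_simp; norm_num
    have hpow : Y ^ 3 = 1 := by
      have : (Y - 1) * (Y * Y + Y + 1) = 0 := by rw [hY2, mul_zero]
      rw [← sub_eq_zero, ← this]
      noncomm_ring
    refine ⟨⟨_, _, (pow_succ' _ 2).symm.trans hpow, (pow_succ _ 2).symm.trans hpow⟩, mem_normalizer_of_normG normG_threeM rfl,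
      Units.ext (by rw [Units.val_pow_eq_pow_val]; exact hpow), hY2, fun q hF hiq => ?_⟩
    refine mem_GU_of_gauss hF hiq threeM_unitary ?_ rfl
    have hfix : ((2 : F)⁻¹) ^ q = (2 : F)⁻¹ := by
      rw [inv_pow]; congr 1
      exact (map_ofNat (Forms.sqConj hF) 2 : _)
    rw [pow_succ, hfix, map_ofNat, ← mul_inv, show (2 : F) * 2 = 4 by norm_num, inv_mul_cancel₀ h4]

end Cfsg.Agent.Elusive25
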