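import Cfsg.Agent.Elusive.InvolutionForms
import Cfsg.Agent.Elusive.SLElements
import Cfsg.Agent.Elusive25.Models
import Cfsg.Agent.Elusive25.Even
import Cfsg.Agent.Forms25.Disc
import Cfsg.Agent.Linear.Orders

/-!
Elements of `SL_n` that are similitudes of a given quadratic form after conjugation (odd characteristic).
-/

set_option autoImplicit false

namespace Cfsg.Agent.Elusive25

open Module Finset QuadraticMap Cfsg.Agent.Classical
open LinearMap (BilinForm)
open scoped Matrix

section forms

variable {F : Type*} [Field F]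

/-- A non-degenerate quadratic form in the sense of the prelude as a quadratic map. -/
theorem exists_qf (h2 : (2 : F) ≠ 0) {ι : Type} [Fintype ι] [DecidableEq ι] {Q : (ι → F) → F}
    (hQ : Cfsg.Geo.IsNondegenerateQuadraticForm Q) :
    ∃ R : QuadraticForm F (ι → F), (∀ v, R v = Q v) ∧ BNondeg R := by
  let B : BilinForm F (ι → F) := LinearMap.mk₂ F (polar Q) hQ.polar_bilinear.add_left
    hQ.polar_bilinear.smul_left hQ.polar_bilinear.add_right hQ.polar_bilinear.smul_right
  let R : QuadraticForm F (ι → F) := (2 : F)⁻¹ • LinearMap.BilinMap.toQuadraticMap B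
  have hR : ∀ v, R v = Q v := fun v => by
    have h := hQ.smul 2 v
    rw [two_smul] at h
    show (2 : F)⁻¹ * (Q (v + v) - Q v - Q v) = Q v
    rw [h]
    field_simp
    ring
  refine ⟨R, hR, fun x hx => ?_⟩
  by_contra hx0
  obtain ⟨y, hy⟩ := (hQ.nondegenerate x hx0).2
  refine hy ?_
  have := hx y
  simpa [polar, hR] using this

variable {V : Type*} [AddCommGroup V] [Module F V]

theorem eigen_card_le {ι : Type*} [Fintype ι] [DecidableEq ι] [DecidableEq F]
    (B : BilinForm F V) (hB : B.Nondegenerate) (e : Basis ι F V) (l : ι → F) {c : F}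
    (hl : ∀ a b, l a * l b * B (e a) (e b) = c * B (e a) (e b)) {μ ν : F}
    (hμν : ∀ x, μ * x = c → x = ν) :
    (univ.filter fun a => l a = μ).card ≤ (univ.filter fun a => l a = ν).card := by
  let L : ({a // l a = μ} → F) →ₗ[F] ({a // l a = ν} → F) :=
    { toFun := fun u b => ∑ a, u a * B (e a.1) (e b.1)
      map_add' := fun u v => by funext b; simp [add_mul, sum_add_distrib]
      map_smul' := fun c v => by funext b; simp [mul_sum, mul_assoc] }
  have hLi : Function.Injective L := by
    refine (injective_iff_map_eq_zero _).2 fun u hu => ?_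
    have h0 : ∑ a, u a • e a.1 = 0 := hB.1 _ fun y => by
      conv_lhs => rw [← e.sum_repr y]
      rw [map_sum, Finset.sum_eq_zero]
      intro b _
      rw [map_smul, map_sum, LinearMap.sum_apply, smul_eq_mul]
      refine mul_eq_zero_of_right _ ?_
      by_cases hb : l b = ν
      · simpa [L] using congrFun hu ⟨b, hb⟩
      · refine Finset.sum_eq_zero fun a _ => ?_
        rw [map_smul, LinearMap.smul_apply, smul_eq_mul]
        refine mul_eq_zero_of_right _ ?_
        by_contra hne
        refine hb (hμν _ ?_)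
        rw [← a.2]
        exact mul_right_cancel₀ hne (hl _ _)
    have hli : LinearIndependent F fun a : {a // l a = μ} => e a.1 :=
      e.linearIndependent.comp _ Subtype.val_injective
    exact funext fun a => Fintype.linearIndependent_iff.1 hli u h0 a
  have := LinearMap.finrank_le_finrank_of_injective hLi
  simpa [Module.finrank_fintype_fun_eq_card, Fintype.card_subtype] using this

/-- The symmetric form pairing `b i` with `b (τ i)`. -/
theorem exists_pairing_form {ι : Type*} [Fintype ι] [DecidableEq ι] (b : Basis ι F V) (τ : ι → ι)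
    (hτ : ∀ i, τ (τ i) = i) :
    ∃ B : BilinForm F V, B.IsSymm ∧ B.Nondegenerate ∧ ∀ i j, B (b i) (b j) = if j = τ i then 1 else 0 := by
  let B : BilinForm F V := b.constr F fun i => b.constr F fun j => if j = τ i then (1 : F) else 0
  have hB : ∀ i j, B (b i) (b j) = if j = τ i then 1 else 0 := fun i j => by
    simp [B, Basis.constr_basis]
  have hS : B.IsSymm := by
    refine LinearMap.BilinForm.isSymm_iff_flip.2 (LinearMap.BilinForm.ext_basis b fun i j => ?_)
    show B (b j) (b i) = B (b i) (b j)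
    rw [hB, hB]
    exact if_congr ⟨fun h => by rw [h, hτ], fun h => by rw [h, hτ]⟩ rfl rfl
  have key : ∀ v, (∀ w, B v w = 0) → v = 0 := fun v hv => by
    refine b.ext_elem fun i => ?_
    have h := hv (b (τ i))
    rw [← b.sum_repr v, map_sum, LinearMap.sum_apply, Finset.sum_eq_single i] at h
    · simpa [hB] using h
    · intro j _ hj
      rw [map_smul, LinearMap.smul_apply, hB, if_neg, smul_zero]
      exact fun h' => hj (by rw [← hτ j, ← h', hτ])
    · exact fun h => absurd (mem_univ _) h
  exact ⟨B, hS, ⟨key, fun w hw => key w fun v => (hS.eq w v).trans (hw v)⟩, hB⟩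

variable [Finite F]

/-- Maps commuting with a monomial map and self-adjoint for the pairing form, of any determinant. -/
theorem exists_commute_selfAdjoint [FiniteDimensional F V] {ι : Type*} [Fintype ι] [DecidableEq ι]
    [Nonempty ι] (h2 : (2 : F) ≠ 0) (b : Basis ι F V) {f : Module.End F V} (π : ι → ι)
    (hπ : ∀ i, π (π i) = i) (a : ι → F) (hf : ∀ i, f (b i) = a i • b (π i))
    (haa : ∀ i, a i * a (π i) ≠ 0) (B : BilinForm F V)
    (hB : ∀ i j, B (b i) (b j) = if j = π i then 1 else 0) (t : F) :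
    ∃ y : Module.End F V, y * f = f * y ∧ LinearMap.det y = t ∧ ∀ u v, B (y u) v = B u (y v) := by
  classical
  have := Fintype.ofFinite F
  obtain ⟨i⟩ := ‹Nonempty ι›
  have hadj : ∀ y : Module.End F V, (∀ j k, B (y (b j)) (b k) = B (b j) (y (b k))) →
      ∀ u v, B (y u) v = B u (y v) := fun y h u v => by
    have key : B.compl₁₂ y LinearMap.id = B.compl₁₂ LinearMap.id y :=
      LinearMap.BilinForm.ext_basis b fun j k => by simpa using h j k
    simpa using LinearMap.congr_fun₂ key u v
  by_cases hi : π i = i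
  · have hpi : ∀ j, π j = i ↔ j = i := fun j =>
      ⟨fun h => by rw [← hπ j, h, hi], fun h => by rw [h, hi]⟩
    refine ⟨b.constr F fun j => if j = i then t • b j else b j, b.ext fun j => ?_, ?_, hadj _ fun j k => ?_⟩
    · simp only [Module.End.mul_apply, hf, map_smul, Basis.constr_basis]
      by_cases hj : j = i
      · rw [if_pos hj, if_pos ((hpi j).2 hj), map_smul, hf, smul_comm]
      · rw [if_neg hj, if_neg (mt (hpi j).1 hj), hf]
    · rw [← LinearMap.det_toMatrix b, show LinearMap.toMatrix b b (b.constr F fun j => if j = i then t • b j else b j) =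
        Matrix.diagonal (fun j => if j = i then t else 1) from ?_, Matrix.det_diagonal]
      · simp
      · ext j k
        rw [LinearMap.toMatrix_apply, Basis.constr_basis, Matrix.diagonal_apply]
        rcases eq_or_ne j k with rfl | h
        · split_ifs with h' <;> simp_all
        · rw [if_neg h]
          split_ifs with h' <;> simp [h.symm]
    · simp only [Basis.constr_basis]
      by_cases hk : k = π j
      · subst hk
        by_cases hj : j = i
        · rw [if_pos hj, if_pos ((hpi j).2 hj)]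
          simp [hB]
        · rw [if_neg hj, if_neg (mt (hpi j).1 hj)]
      · split_ifs <;> simp [hB, hk]
  · obtain ⟨u, v, huv⟩ : ∃ u v : F, u * u - a i * a (π i) * (v * v) = t := by
      have hr : ringChar F ≠ 2 := fun h => h2 (by
        have := ringChar.charP F; rw [h] at this; exact CharTwo.two_eq_zero)
      obtain ⟨u, v, huv⟩ := FiniteField.exists_root_sum_quadratic (R := F)
        (f := Polynomial.X ^ 2 - Polynomial.C t) (g := Polynomial.C (-(a i * a (π i))) * Polynomial.X ^ 2)
        (Polynomial.degree_X_pow_sub_C (by norm_num) _) (Polynomial.degree_C_mul_X_pow 2 (neg_ne_zero.2 (haa i)))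
        (FiniteField.odd_card_of_char_ne_two hr)
      simp only [Polynomial.eval_mul, Polynomial.eval_C, Polynomial.eval_pow, Polynomial.eval_X,
        Polynomial.eval_sub] at huv
      exact ⟨u, v, by linear_combination huv⟩
    let y : Module.End F V := b.constr F fun j =>
      if j = i ∨ j = π i then u • b j + v • f (b j) else b j
    have hmem : ∀ j, (π j = i ∨ π j = π i) ↔ (j = i ∨ j = π i) := fun j =>
      ⟨fun h => h.elim (fun h => Or.inr (by rw [← h, hπ])) (fun h => Or.inl (by rw [← hπ j, h, hπ])),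
        fun h => h.elim (fun h => Or.inr (by rw [h])) (fun h => Or.inl (by rw [h, hπ]))⟩
    refine ⟨y, b.ext fun j => ?_, ?_, hadj _ fun j k => ?_⟩
    · simp only [Module.End.mul_apply, y, Basis.constr_basis]
      by_cases hj : j = i ∨ j = π i
      · rw [if_pos hj, hf j, map_smul, Basis.constr_basis, if_pos ((hmem j).2 hj), map_add, map_smul, map_smul]
        simp only [hf, map_smul, smul_add, smul_smul, mul_comm (a j) u]
        ring_nf
      · rw [if_neg hj, hf j, map_smul, Basis.constr_basis, if_neg (mt (hmem j).1 hj)]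
    · rw [← LinearMap.det_toMatrix b, Matrix.twoBlockTriangular_det' _ (fun j => j = i ∨ j = π i) ?_]
      swap
      · intro j hj k hk
        rw [LinearMap.toMatrix_apply, Basis.constr_basis, if_neg hk, Basis.repr_self,
          Finsupp.single_apply, if_neg (fun h => hk (by rw [h]; exact hj))]
      have h1 : (LinearMap.toMatrix b b y).toSquareBlockProp (fun j => ¬ (j = i ∨ j = π i)) = 1 := by
        ext ⟨j, hj⟩ ⟨k, hk⟩
        rw [Matrix.toSquareBlockProp, Matrix.toBlock_apply, LinearMap.toMatrix_apply, Basis.constr_basis,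
          if_neg hk, Basis.repr_self, Finsupp.single_apply, Matrix.one_apply]
        exact if_congr ⟨fun h => Subtype.ext h.symm, fun h => (congrArg Subtype.val h).symm⟩ rfl rfl
      rw [h1, Matrix.det_one, mul_one]
      let g : Fin 2 → {j // j = i ∨ j = π i} := ![⟨i, Or.inl rfl⟩, ⟨π i, Or.inr rfl⟩]
      have hg : Function.Bijective g := by
        refine ⟨fun k l hkl => ?_, fun ⟨j, hj⟩ => ?_⟩
        · fin_cases k <;> fin_cases l <;> simp [g, hi, Ne.symm hi] at hkl ⊢
        · rcases hj with rfl | rfl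
          · exact ⟨0, rfl⟩
          · exact ⟨1, rfl⟩
      rw [← Matrix.det_submatrix_equiv_self (Equiv.ofBijective g hg), Matrix.det_fin_two]
      have ent : ∀ k l : {j // j = i ∨ j = π i},
          (LinearMap.toMatrix b b y).toSquareBlockProp (fun j => j = i ∨ j = π i) k l =
            u * (if (l : ι) = k then 1 else 0) + v * a l * (if π l = k then 1 else 0) := fun k l => by
        rw [Matrix.toSquareBlockProp, Matrix.toBlock_apply, LinearMap.toMatrix_apply, Basis.constr_basis,
          if_pos l.2, hf, smul_smul, map_add, map_smul, map_smul, Finsupp.add_apply, Finsupp.smul_apply,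
          Finsupp.smul_apply, Basis.repr_self, Basis.repr_self, Finsupp.single_apply,
          Finsupp.single_apply, smul_eq_mul, smul_eq_mul]
      simp only [Matrix.submatrix_apply, Equiv.ofBijective_apply, ent]
      simp [g, hi, Ne.symm hi, hπ]
      linear_combination huv
    · simp only [y, Basis.constr_basis]
      by_cases hkj : k = π j
      · have hiff : (j = i ∨ j = π i) ↔ (k = i ∨ k = π i) := by rw [hkj, hmem]
        by_cases hj : j = i ∨ j = π i
        · rw [if_pos hj, if_pos (hiff.1 hj)]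
          simp only [hf, map_add, map_smul, LinearMap.add_apply, LinearMap.smul_apply, hB, smul_eq_mul,
            hkj, hπ, if_true]
          by_cases hjj : j = π j
          · rw [← hjj, if_pos rfl]
          · rw [if_neg (Ne.symm hjj), if_neg hjj]; ring
        · rw [if_neg hj, if_neg (mt hiff.2 hj)]
      · by_cases hjk : k = j
        · subst hjk; split_ifs <;> simp [hf, hB, hπ, hkj]
        · have h1 : ¬ π k = π j := fun h => hjk (by rw [← hπ k, h, hπ])
          split_ifs <;> simp [hf, hB, hπ, hkj, hjk, h1]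

end forms

section conj

variable {F : Type*} [Field F] [Finite F] {n : ℕ}

/-- Conjugation into the similitude group by an element of determinant one. -/
theorem exists_conj_similitude (h2 : (2 : F) ≠ 0) {R : QuadraticForm F (Fin n → F)} (hR : BNondeg R)
    {ι : Type*} [Fintype ι] [DecidableEq ι] (b : Basis ι F (Fin n → F))
    {B : BilinForm F (Fin n → F)} (hS : B.IsSymm) (hB : B.Nondegenerate)
    (hsq : IsSquare ((LinearMap.BilinForm.toMatrix b B).det *
      (LinearMap.BilinForm.toMatrix (Pi.basisFun F (Fin n)) (polarBilin R)).det))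
    (x : Matrix.GeneralLinearGroup (Fin n) F) {c : F} (hc : c ≠ 0)
    (hsim : ∀ u v, B ((x : Matrix (Fin n) (Fin n) F) *ᵥ u) ((x : Matrix (Fin n) (Fin n) F) *ᵥ v) = c * B u v)
    (hdet : ∀ t : F, t ≠ 0 → ∃ y : Module.End F (Fin n → F),
      y * Matrix.toLin' (x : Matrix (Fin n) (Fin n) F) = Matrix.toLin' (x : Matrix (Fin n) (Fin n) F) * y ∧
        LinearMap.det y = t) :
    ∃ g ∈ Cfsg.Geo.specialLinear (Fin n) F, g⁻¹ * x * g ∈ Cfsg.Geo.quadSimilarityGroup ⇑R := by
  have hS' : LinearMap.BilinForm.IsSymm (polarBilin R) := ⟨fun x y => by simp [polar_comm]⟩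
  have hB' : (polarBilin R).Nondegenerate :=
    ⟨fun x hx => hR x fun y => hx y, fun x hx => hR x fun y => by rw [polar_comm]; exact hx y⟩
  obtain ⟨e, he⟩ := Forms25.equiv_of_det h2 hS hS' hB hB' b (Pi.basisFun F (Fin n))
    (by rw [← Module.finrank_eq_card_basis b, Module.finrank_fin_fun, Fintype.card_fin]) hsq
  obtain ⟨y, hy, hyd⟩ := hdet (LinearMap.det e.toLinearMap)⁻¹ (inv_ne_zero e.isUnit_det'.ne_zero)
  have hd : (LinearMap.toMatrix' (e.toLinearMap * y)).det = 1 := by
    rw [LinearMap.det_toMatrix', map_mul, hyd, mul_inv_cancel₀ e.isUnit_det'.ne_zero]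
  let G : Matrix.GeneralLinearGroup (Fin n) F :=
    Matrix.GeneralLinearGroup.mkOfDetNeZero (LinearMap.toMatrix' (e.toLinearMap * y)) (hd ▸ one_ne_zero)
  have hG : ∀ v, (G : Matrix (Fin n) (Fin n) F) *ᵥ v = e (y v) := fun v => by
    show LinearMap.toMatrix' (e.toLinearMap * y) *ᵥ v = _
    rw [LinearMap.toMatrix'_mulVec]
    rfl
  refine ⟨G⁻¹, inv_mem (Units.ext (by simpa [G] using hd)), Units.mk0 c hc, fun v => ?_⟩
  rw [inv_inv, Units.val_mk0, Units.val_mul, Units.val_mul]
  set w := ((G⁻¹ : Matrix.GeneralLinearGroup (Fin n) F) : Matrix (Fin n) (Fin n) F) *ᵥ v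
  have hw : (G : Matrix (Fin n) (Fin n) F) *ᵥ w = v := by
    simp only [w, Matrix.mulVec_mulVec, ← Units.val_mul, mul_inv_cancel, Units.val_one, Matrix.one_mulVec]
  have hyx : ∀ u, y ((x : Matrix (Fin n) (Fin n) F) *ᵥ u) = (x : Matrix (Fin n) (Fin n) F) *ᵥ y u :=
    fun u => by simpa [Matrix.toLin'_apply] using LinearMap.congr_fun hy u
  rw [← Matrix.mulVec_mulVec, ← Matrix.mulVec_mulVec, hG, hyx]
  conv_rhs => rw [← hw, hG]
  have key : ∀ u, (2 : F) * R (e u) = B u u := fun u => by
    rw [← he, polarBilin_apply_apply, polar_self, nsmul_eq_mul, Nat.cast_ofNat]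
  refine mul_left_cancel₀ h2 ?_
  rw [key, hsim, mul_left_comm, key]

/-- A map with scalar square is conjugate into the similitude group of any quadratic form. -/
theorem exists_conj_of_sq (h2 : (2 : F) ≠ 0) (hn : 0 < n) {R : QuadraticForm F (Fin n → F)} (hR : BNondeg R)
    (x : Matrix.GeneralLinearGroup (Fin n) F) {z : F}
    (hz : ((x ^ 2 : Matrix.GeneralLinearGroup (Fin n) F) : Matrix (Fin n) (Fin n) F) = z • 1) :
    ∃ g ∈ Cfsg.Geo.specialLinear (Fin n) F, g⁻¹ * x * g ∈ Cfsg.Geo.quadSimilarityGroup ⇑R := by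
  classical
  have : Nonempty (Fin n) := ⟨⟨0, hn⟩⟩
  have hz0 : z ≠ 0 := fun h => by
    rw [h, zero_smul] at hz
    exact Units.ne_zero _ hz
  set f : Module.End F (Fin n → F) := Matrix.toLin' (x : Matrix (Fin n) (Fin n) F)
  have hff : ∀ v, f (f v) = z • v := fun v => by
    simp only [f, Matrix.toLin'_apply, Matrix.mulVec_mulVec]
    rw [← pow_two, ← Units.val_pow_eq_pow_val, hz, Matrix.smul_mulVec, Matrix.one_mulVec]
  obtain ⟨ι, _, v₀, π, hb⟩ := Elusive.exists_monomial_basis f hz0 hff
  obtain ⟨b', hb'⟩ : ∃ b' : Basis ι F (Fin n → F), ∀ i, b' i = v₀ i :=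
    ⟨Basis.mk hb.1 (top_le_iff.2 hb.2.1), fun i => Basis.mk_apply _ _ i⟩
  obtain ⟨-, -, hπ, hbi⟩ := hb
  choose a ha using fun i => Submodule.mem_span_singleton.1 (hbi i)
  have hf : ∀ i, f (b' i) = a i • b' (π i) := fun i => by rw [hb', hb', ha]
  have haa : ∀ i, a i * a (π i) = z := fun i => by
    have h := hff (b' i)
    rw [hf, map_smul, hf, hπ, smul_smul] at h
    exact smul_left_injective F (b'.ne_zero i) h
  have : Nonempty ι := b'.index_nonempty
  obtain ⟨B, hS, hB, hBb⟩ := exists_pairing_form b' π hπ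
  have hsim : ∀ u v, B (f u) (f v) = z * B u v := by
    have key : B.compl₁₂ f f = z • B := by
      refine LinearMap.BilinForm.ext_basis b' fun i j => ?_
      simp only [LinearMap.compl₁₂_apply, hf, map_smul, LinearMap.smul_apply, hBb, smul_eq_mul, hπ]
      by_cases hj : j = π i
      · subst hj; rw [hπ, if_pos rfl, if_pos rfl, ← haa i]; ring
      · rw [if_neg hj, if_neg (fun h => hj (by rw [← h, hπ])), mul_zero, mul_zero, mul_zero]
    exact fun u v => LinearMap.congr_fun₂ key u v
  set D₁ := (LinearMap.BilinForm.toMatrix b' B).det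
  set D₀ := (LinearMap.BilinForm.toMatrix (Pi.basisFun F (Fin n)) (polarBilin R)).det
  have hD₁ : D₁ ≠ 0 := (LinearMap.BilinForm.nondegenerate_iff_det_ne_zero b').1 hB
  have hD₀ : D₀ ≠ 0 := (LinearMap.BilinForm.nondegenerate_iff_det_ne_zero _).1
    ⟨fun x hx => hR x fun y => hx y, fun x hx => hR x fun y => by rw [polar_comm]; exact hx y⟩
  have haa0 : ∀ i, a i * a (π i) ≠ 0 := fun i => by rw [haa]; exact hz0
  obtain ⟨y, hy, hyd, hya⟩ := exists_commute_selfAdjoint h2 b' π hπ a hf haa0 B hBb (D₁ * D₀)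
  have hdetB : (LinearMap.BilinForm.toMatrix b' (B.compLeft y)).det = D₁ * D₀ * D₁ := by
    rw [LinearMap.BilinForm.toMatrix_compLeft, Matrix.det_mul, Matrix.det_transpose, LinearMap.det_toMatrix, hyd]
  refine exists_conj_similitude h2 hR b' (B := B.compLeft y) ⟨fun u v => ?_⟩ ?_ ?_ x hz0 (fun u v => ?_)
    fun t _ => ?_
  · rw [LinearMap.BilinForm.compLeft_apply, LinearMap.BilinForm.compLeft_apply, hya]
    exact hS.eq u (y v)
  · rw [LinearMap.BilinForm.nondegenerate_iff_det_ne_zero b', hdetB]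
    exact mul_ne_zero (mul_ne_zero hD₁ hD₀) hD₁
  · rw [hdetB]
    exact ⟨D₁ * D₀, by ring⟩
  · rw [← Matrix.toLin'_apply, ← Matrix.toLin'_apply, LinearMap.BilinForm.compLeft_apply,
      LinearMap.BilinForm.compLeft_apply]
    show B (y (f u)) (f v) = _
    rw [show y (f u) = f (y u) from LinearMap.congr_fun hy u, hsim]
  · obtain ⟨y', hy', hyd', -⟩ := exists_commute_selfAdjoint h2 b' π hπ a hf haa0 B hBb t
    exact ⟨y', hy', hyd'⟩

/-- A diagonalisable map with eigenvalues symmetric under `μ ↦ c / μ`, in odd dimension. -/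
theorem exists_conj_of_pairing (h2 : (2 : F) ≠ 0) (hn : Odd n) {R : QuadraticForm F (Fin n → F)}
    (hR : BNondeg R) (x : Matrix.GeneralLinearGroup (Fin n) F) {ι : Type*} [Fintype ι] [DecidableEq ι]
    (b : Basis ι F (Fin n → F)) (l : ι → F)
    (hb : ∀ i, Matrix.toLin' (x : Matrix (Fin n) (Fin n) F) (b i) = l i • b i)
    (τ : ι → ι) (hτ : ∀ i, τ (τ i) = i) {c : F} (hc : c ≠ 0) (hl : ∀ i, l i * l (τ i) = c) :
    ∃ g ∈ Cfsg.Geo.specialLinear (Fin n) F, g⁻¹ * x * g ∈ Cfsg.Geo.quadSimilarityGroup ⇑R := by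
  obtain ⟨B, hS, hB, hBb⟩ := exists_pairing_form b τ hτ
  set f : Module.End F (Fin n → F) := Matrix.toLin' (x : Matrix (Fin n) (Fin n) F)
  have key : B.compl₁₂ f f = c • B := by
    refine LinearMap.BilinForm.ext_basis b fun i j => ?_
    simp only [LinearMap.compl₁₂_apply, hb, map_smul, LinearMap.smul_apply, hBb, smul_eq_mul]
    by_cases hj : j = τ i
    · subst hj; rw [if_pos rfl, ← hl i]; ring
    · rw [if_neg hj, mul_zero, mul_zero, mul_zero]
  set D₁ := (LinearMap.BilinForm.toMatrix b B).det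
  set D₀ := (LinearMap.BilinForm.toMatrix (Pi.basisFun F (Fin n)) (polarBilin R)).det
  have hD₁ : D₁ ≠ 0 := (LinearMap.BilinForm.nondegenerate_iff_det_ne_zero b).1 hB
  have hD₀ : D₀ ≠ 0 := (LinearMap.BilinForm.nondegenerate_iff_det_ne_zero _).1
    ⟨fun x hx => hR x fun y => hx y, fun x hx => hR x fun y => by rw [polar_comm]; exact hx y⟩
  set t := D₁ * D₀ with ht
  have hcard : Fintype.card ι = n := by rw [← Module.finrank_eq_card_basis b, Module.finrank_fin_fun]
  have hdetB : (LinearMap.BilinForm.toMatrix b (t • B)).det = t ^ n * D₁ := by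
    rw [map_smul, Matrix.det_smul, hcard]
  refine exists_conj_similitude h2 hR b (B := t • B) ⟨fun u v => ?_⟩ ?_ ?_ x hc (fun u v => ?_) fun s _ => ?_
  · simp only [LinearMap.smul_apply, smul_eq_mul, hS.eq u v]
  · rw [LinearMap.BilinForm.nondegenerate_iff_det_ne_zero b, hdetB]
    exact mul_ne_zero (pow_ne_zero _ (mul_ne_zero hD₁ hD₀)) hD₁
  · obtain ⟨k, rfl⟩ := hn
    rw [hdetB]
    exact ⟨t ^ (k + 1), by rw [ht]; ring⟩
  · have h := LinearMap.congr_fun₂ key u v
    simp only [LinearMap.compl₁₂_apply, LinearMap.smul_apply, smul_eq_mul] at h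
    simp only [LinearMap.smul_apply, smul_eq_mul, ← Matrix.toLin'_apply]
    rw [h]; ring
  · classical
    obtain ⟨i⟩ : Nonempty ι := Fintype.card_pos_iff.1 (hcard ▸ hn.pos)
    refine ⟨b.constr F fun j => if j = i then s • b j else b j, b.ext fun j => ?_, ?_⟩
    · show (b.constr F fun j => if j = i then s • b j else b j) (f (b j)) =
        f ((b.constr F fun j => if j = i then s • b j else b j) (b j))
      rw [hb, map_smul, Basis.constr_basis]
      split_ifs
      · rw [map_smul, hb, smul_comm]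
      · rw [hb]
    · rw [← LinearMap.det_toMatrix b, show LinearMap.toMatrix b b (b.constr F fun j => if j = i then s • b j else b j) =
        Matrix.diagonal (fun j => if j = i then s else 1) from ?_, Matrix.det_diagonal]
      · simp
      · ext j k
        rw [LinearMap.toMatrix_apply, Basis.constr_basis, Matrix.diagonal_apply]
        rcases eq_or_ne j k with rfl | h
        · split_ifs with h' <;> simp_all
        · rw [if_neg h]
          split_ifs with h' <;> simp [h.symm]

end conj

section index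

variable {F : Type*} [Field F] [Fintype F]

omit [Fintype F] in
/-- The determinant of an isometry is a sign. -/
theorem det_mul_self_of_isometry {ι : Type} [Fintype ι] [DecidableEq ι] {R : QuadraticForm F (ι → F)}
    (hR : BNondeg R) {M : Matrix ι ι F} (hM : ∀ v, R (M *ᵥ v) = R v) : M.det * M.det = 1 := by
  have hB : LinearMap.BilinForm.Nondegenerate (polarBilin R) :=
    ⟨fun x hx => hR x fun y => hx y, fun x hx => hR x fun y => by rw [polar_comm]; exact hx y⟩
  have h : (LinearMap.toMatrix' (Matrix.toLin' M)).transpose * LinearMap.BilinForm.toMatrix' (polarBilin R) *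
      LinearMap.toMatrix' (Matrix.toLin' M) = LinearMap.BilinForm.toMatrix' (polarBilin R) := by
    rw [← LinearMap.BilinForm.toMatrix'_comp]
    refine congrArg _ (LinearMap.ext₂ fun u v => ?_)
    simp only [LinearMap.BilinForm.comp_apply, polarBilin_apply_apply, polar, Matrix.toLin'_apply, ← Matrix.mulVec_add, hM]
  have hd := congrArg Matrix.det h
  rw [Matrix.det_mul, Matrix.det_mul, Matrix.det_transpose, LinearMap.toMatrix'_toLin'] at hd
  exact mul_right_cancel₀ (Matrix.nondegenerate_iff_det_ne_zero.1 hB.toMatrix') (by linear_combination hd)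

theorem glOf_injective {ι : Type} [Fintype ι] [DecidableEq ι] (R : QuadraticForm F (ι → F)) :
    Function.Injective (glOf R) := fun g h e => Subtype.ext (LinearEquiv.ext fun v => by
  rw [← glOf_mulVec R g v, e, glOf_mulVec])

/-- The order of the isometry group times a prime in the index. -/
theorem mul_card_OQ_dvd {n r : ℕ} (hn : 0 < n) {R : QuadraticForm F (Fin n → F)} (hR : BNondeg R)
    (hdvd : r ∣ (Cfsg.Geo.quadSimilarityGroup ⇑R).relIndex (Cfsg.Geo.specialLinear (Fin n) F)) :
    r * Nat.card (OQ R) * (Fintype.card F - 1) ∣ 2 * Nat.card (GL (Fin n) F) := by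
  have : Nonempty (Fin n) := ⟨⟨0, hn⟩⟩
  set S := Cfsg.Geo.specialLinear (Fin n) F
  set H := (Cfsg.Geo.quadSimilarityGroup ⇑R).subgroupOf S
  let χ : OQ R →* Fˣ := Matrix.GeneralLinearGroup.det.comp (glOf R)
  have hχ : Nat.card χ.range ∣ 2 := by
    have hle : χ.range ≤ rootsOfUnity 2 F := by
      rintro _ ⟨g, rfl⟩
      refine (mem_rootsOfUnity _ _).2 (Units.ext ?_)
      rw [pow_two, Units.val_mul, Units.val_one]
      exact det_mul_self_of_isometry hR fun v => by rw [glOf_mulVec]; exact g.2 v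
    have h1 := Subgroup.card_dvd_of_le hle
    have h2 : Nat.card (rootsOfUnity 2 F) ≤ 2 := card_rootsOfUnity F 2
    have h3 := Nat.card_pos (α := rootsOfUnity 2 F)
    refine h1.trans ?_
    interval_cases (Nat.card (rootsOfUnity 2 F)) <;> norm_num
  let ψ : χ.ker →* H :=
    { toFun := fun g => ⟨⟨glOf R g.1, MonoidHom.mem_ker.1 g.2⟩,
        ⟨1, fun v => by rw [Units.val_one, one_mul]; exact (congrArg R (glOf_mulVec R g.1 v)).trans (g.1.2 v)⟩⟩
      map_one' := Subtype.ext (Subtype.ext (map_one _))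
      map_mul' := fun g h => Subtype.ext (Subtype.ext (map_mul _ _ _)) }
  have hψ : Function.Injective ψ := fun g h e =>
    Subtype.ext (glOf_injective R (congrArg (fun z : H => ((z.1 : S) : GL (Fin n) F)) e))
  have hkH : Nat.card χ.ker ∣ Nat.card H := Subgroup.card_dvd_of_injective ψ hψ
  have hS : Nat.card (GL (Fin n) F) = Nat.card S * (Fintype.card F - 1) := by
    rw [← Subgroup.card_mul_index S]
    congr 1
    show ((Matrix.GeneralLinearGroup.det : GL (Fin n) F →* Fˣ).ker).index = _
    rw [Linear.index_ker_det, Nat.card_units, Nat.card_eq_fintype_card]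
  rw [hS, ← H.card_mul_index, ← χ.ker.card_mul_index, Subgroup.index_ker]
  calc r * (Nat.card χ.ker * Nat.card χ.range) * (Fintype.card F - 1)
      = Nat.card χ.range * (Nat.card χ.ker * r * (Fintype.card F - 1)) := by ring
    _ ∣ 2 * (Nat.card H * H.index * (Fintype.card F - 1)) :=
        mul_dvd_mul hχ (mul_dvd_mul_right (mul_dvd_mul hkH hdvd) _)

theorem prod_range_odd (f : ℕ → ℕ) (m : ℕ) :
    ∏ k ∈ range (2 * m + 1), f (k + 1) =
      (∏ k ∈ range (m + 1), f (2 * k + 1)) * ∏ k ∈ range m, f (2 * (k + 1)) := by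
  induction m with
  | zero => simp
  | succ m ih =>
    rw [show 2 * (m + 1) + 1 = 2 * m + 1 + 1 + 1 by ring, prod_range_succ, prod_range_succ, ih,
      prod_range_succ (fun k => f (2 * k + 1)) (m + 1), prod_range_succ (fun k => f (2 * (k + 1))) m]
    ring_nf

theorem card_GL_prod (n : ℕ) : ∃ s, Nat.card (GL (Fin n) F) =
    Fintype.card F ^ s * ∏ k ∈ range n, (Fintype.card F ^ (k + 1) - 1) := by
  refine ⟨n * (n - 1) / 2, ?_⟩
  rw [Linear.card_GL_factor, Fin.prod_univ_eq_prod_range (fun i => Fintype.card F ^ (n - i) - 1),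
    ← Finset.prod_range_reflect (fun k => Fintype.card F ^ (k + 1) - 1)]
  congr 1
  refine prod_congr rfl fun i hi => ?_
  rw [mem_range] at hi
  rw [show n - 1 - i + 1 = n - i by omega]

/-- Odd primes in the index of the orthogonal similitudes in `SL_n`, prime to `q (q - 1)`. -/
theorem dvd_index_cases (h2 : (2 : F) ≠ 0) {n r : ℕ} (hn : 0 < n) (hr : r.Prime) (hr2 : r ≠ 2)
    (hrq : ¬ r ∣ Fintype.card F) {R : QuadraticForm F (Fin n → F)} (hR : BNondeg R)
    (hdvd : r ∣ (Cfsg.Geo.quadSimilarityGroup ⇑R).relIndex (Cfsg.Geo.specialLinear (Fin n) F)) :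
    (∃ k, 2 * k + 1 ≤ n ∧ r ∣ Fintype.card F ^ (2 * k + 1) - 1) ∨
      (∃ m, n = 2 * (m + 1) ∧
        (∃ e : (Fin n → F) ≃ₗ[F] (Fin (m + 1) ⊕ Fin (m + 1) → F), ∀ v, plusQF (m + 1) F (e v) = R v) ∧
        r ∣ Fintype.card F ^ (m + 1) + 1) ∨
      (∃ m a b, n = 2 * (m + 1) ∧ Forms.BinaryAniso a b ∧
        (∃ e : (Fin n → F) ≃ₗ[F] ((Fin m ⊕ Fin m) ⊕ Fin 2 → F), ∀ v, minusQF m a b (e v) = R v) ∧
        r ∣ Fintype.card F ^ (m + 1) - 1) := by
  classical
  set q := Fintype.card F with hq
  have hq1 : 1 < q := Fintype.one_lt_card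
  have hns : Forms.NonsingOn R ⊤ := by
    intro u _ hu _
    exact hR u fun v => hu v trivial
  have hdiv := mul_card_OQ_dvd hn hR hdvd
  obtain ⟨s, hs⟩ := card_GL_prod (F := F) n
  rw [hs, ← hq] at hdiv
  set O : ℕ → ℕ := fun m => ∏ k ∈ range m, (q ^ (2 * k + 1) - 1) with hO
  set E : ℕ → ℕ := fun m => ∏ k ∈ range m, (q ^ (2 * (k + 1)) - 1) with hE
  have hEpos : ∀ m, 0 < E m := fun m =>
    prod_pos fun k _ => Nat.sub_pos_of_lt (Nat.one_lt_pow (by omega) hq1)
  have hodd : ∀ {A N : ℕ}, r * (A * (q - 1)) ∣ 2 * q ^ s * N → r ∣ N := fun {A N} h => by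
    rcases hr.dvd_mul.1 ((dvd_mul_right r _).trans h) with h' | h'
    · rcases hr.dvd_mul.1 h' with h' | h'
      · exact absurd ((Nat.prime_dvd_prime_iff_eq hr Nat.prime_two).1 h') hr2
      · exact absurd (hr.dvd_of_dvd_pow h') hrq
    · exact h'
  have hOdvd : ∀ {m}, 2 * m ≤ n + 1 → r ∣ O m → ∃ k, 2 * k + 1 ≤ n ∧ r ∣ q ^ (2 * k + 1) - 1 := fun {m} hm h => by
    obtain ⟨k, hk, hk'⟩ := (Prime.dvd_finsetProd_iff hr.prime _).1 h
    exact ⟨k, by have := mem_range.1 hk; omega, hk'⟩
  obtain ⟨m, h⟩ := Forms.exists_finite_witt_decomposition R hns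
  rw [Module.finrank_fin_fun] at h
  rcases h with ⟨hnm, e, he⟩ | ⟨hnm, c, hc, e, he⟩ | ⟨hnm, a, b, hab, e, he⟩
  · obtain ⟨m, rfl⟩ : ∃ k, m = k + 1 := ⟨m - 1, by omega⟩
    have hcard : Nat.card (OQ R) = Nat.card (OQ (hypExt (m + 1) (0 : QuadraticForm F (Fin 0 → F)))) :=
      Nat.card_congr (OQCongr (e.trans (plusEquiv (m + 1))) (fun v => by
        rw [LinearEquiv.trans_apply, plusEquiv_spec, plusQF_apply, he])).toEquiv
    rw [hcard, card_OQ_plus, Nat.card_eq_fintype_card, ← hq, hnm,
      show 2 * (m + 1) = 2 * m + 1 + 1 by ring, prod_range_succ, prod_range_odd (fun k => q ^ k - 1) m] at hdiv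
    have hfac : q ^ (2 * m + 1 + 1) - 1 = (q ^ (m + 1) + 1) * (q ^ (m + 1) - 1) := by
      rw [← Nat.sq_sub_sq, one_pow, ← pow_mul]; congr 2; ring
    rw [hfac] at hdiv
    have hpos : 0 < (q ^ (m + 1) - 1) * E m :=
      Nat.mul_pos (Nat.sub_pos_of_lt (Nat.one_lt_pow (by omega) hq1)) (hEpos m)
    have h' : r * (2 * q ^ ((m + 1) * m) * (q - 1)) * ((q ^ (m + 1) - 1) * E m) ∣
        2 * q ^ s * (O (m + 1) * (q ^ (m + 1) + 1)) * ((q ^ (m + 1) - 1) * E m) := by
      convert hdiv using 1 <;> (simp only [O, E]; ring)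
    rcases hr.dvd_mul.1 (hodd (Nat.dvd_of_mul_dvd_mul_right hpos h')) with h | h
    · exact Or.inl (hOdvd (m := m + 1) (by omega) h)
    · exact Or.inr (Or.inl ⟨m, by omega, ⟨e, fun v => by rw [plusQF_apply, he]⟩, h⟩)
  · have hcard : Nat.card (OQ R) = Nat.card (OQ (hypExt m (QuadraticMap.sq : QuadraticForm F F))) := by
      have hsub : OQ (c⁻¹ • R) = OQ R := by
        ext g
        simp [mem_OQ, hc]
      rw [← hsub]
      exact Nat.card_congr (OQCongr (e.trans (oddEquiv m)) (fun v => by
        rw [LinearEquiv.trans_apply, oddEquiv_spec, oddQF_apply]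
        simp [he, hc])).toEquiv
    have hqodd : Odd (Nat.card F) := by
      rw [Nat.card_eq_fintype_card, Nat.odd_iff]
      exact FiniteField.odd_card_of_char_ne_two fun h => h2 (by
        have := ringChar.charP F; rw [h] at this; exact CharTwo.two_eq_zero)
    rw [hcard, card_OQ_odd hqodd,
      Nat.card_eq_fintype_card, ← hq, hnm, prod_range_odd (fun k => q ^ k - 1) m] at hdiv
    have h' : r * (2 * q ^ m ^ 2 * (q - 1)) * E m ∣ 2 * q ^ s * O (m + 1) * E m := by
      convert hdiv using 1 <;> (simp only [O, E]; ring)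
    exact Or.inl (hOdvd (m := m + 1) (by omega) (hodd (Nat.dvd_of_mul_dvd_mul_right (hEpos m) h')))
  · have hcard : Nat.card (OQ R) = Nat.card (OQ (hypExt m (binQF a b))) :=
      Nat.card_congr (OQCongr (e.trans (minusEquiv m)) (fun v => by
        rw [LinearEquiv.trans_apply, minusEquiv_spec, minusQF_apply, he])).toEquiv
    rw [hcard, card_OQ_minus (anisotropic_binQF hab), Nat.card_eq_fintype_card, ← hq, hnm,
      show 2 * m + 2 = 2 * m + 1 + 1 by ring, prod_range_succ, prod_range_odd (fun k => q ^ k - 1) m] at hdiv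
    have hfac : q ^ (2 * m + 1 + 1) - 1 = (q ^ (m + 1) + 1) * (q ^ (m + 1) - 1) := by
      rw [← Nat.sq_sub_sq, one_pow, ← pow_mul]; congr 2; ring
    rw [hfac] at hdiv
    have hpos : 0 < (q ^ (m + 1) + 1) * E m := Nat.mul_pos (Nat.succ_pos _) (hEpos m)
    have h' : r * (2 * q ^ ((m + 1) * m) * (q - 1)) * ((q ^ (m + 1) + 1) * E m) ∣
        2 * q ^ s * (O (m + 1) * (q ^ (m + 1) - 1)) * ((q ^ (m + 1) + 1) * E m) := by
      convert hdiv using 1 <;> (simp only [O, E]; ring)
    rcases hr.dvd_mul.1 (hodd (Nat.dvd_of_mul_dvd_mul_right hpos h')) with h | h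
    · exact Or.inl (hOdvd (m := m + 1) (by omega) h)
    · exact Or.inr (Or.inr ⟨m, a, b, by omega, hab, ⟨e, fun v => by rw [minusQF_apply, he]⟩, h⟩)

end index

end Cfsg.Agent.Elusive25
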