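import Cfsg.Agent.GeoClasses.UnitParabolic
import Cfsg.Agent.GeoClasses.DecompTwo
import Cfsg.Agent.Forms.UnitaryGeom
import Cfsg.Agent.Elusive25.SelfDual

/-!
Pairs of complementary totally isotropic halves of the standard hermitian space.
-/

set_option autoImplicit false

namespace Cfsg.Agent.Elusive25

open Module Matrix
open Cfsg.Agent.Classical.U (SqField UG SUG herm herm_add_left herm_smul_left herm_smul_right herm_zero_left)
open Cfsg.Agent.Forms (hermB hermB_apply hperp mem_hperp finrank_hperp)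

variable {F : Type*} [Field F] {n q m : ℕ}

/-- A pair of complementary totally isotropic subspaces of dimension `m`. -/
structure PolarPair (q m : ℕ) (A B : Submodule F (Fin n → F)) : Prop where
  compl : IsCompl A B
  left : ∀ x ∈ A, ∀ y ∈ A, herm q x y = 0
  right : ∀ x ∈ B, ∀ y ∈ B, herm q x y = 0
  dimA : finrank F A = m
  dimB : finrank F B = m

/-- The values of the form on a dual basis. -/
def pairVal (s t : Fin m ⊕ Fin m) : F :=
  match s, t with
  | Sum.inl i, Sum.inr j => if i = j then 1 else 0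
  | Sum.inr i, Sum.inl j => if i = j then 1 else 0
  | _, _ => 0

theorem PolarPair.symm {A B : Submodule F (Fin n → F)} (h : PolarPair q m A B) : PolarPair q m B A :=
  ⟨h.compl.symm, h.right, h.left, h.dimB, h.dimA⟩

theorem PolarPair.dim {A B : Submodule F (Fin n → F)} (h : PolarPair q m A B) : n = m + m := by
  have := Submodule.finrank_add_eq_of_isCompl h.compl
  rw [h.dimA, h.dimB, Module.finrank_fin_fun] at this
  omega

variable (hF : SqField F q)
include hF

/-- A basis made of dual bases of the two halves. -/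
theorem PolarPair.exists_basis {A B : Submodule F (Fin n → F)} (h : PolarPair q m A B) :
    ∃ b : Basis (Fin m ⊕ Fin m) F (Fin n → F), (∀ i, b (Sum.inl i) ∈ A) ∧ (∀ i, b (Sum.inr i) ∈ B) ∧
      ∀ s t, herm q (b s) (b t) = pairVal s t := by
  classical
  let ba := Module.finBasisOfFinrankEq F A h.dimA
  set e : Fin m → (Fin n → F) := fun i => (ba i : Fin n → F) with he
  have heA : ∀ i, e i ∈ A := fun i => (ba i).2
  have hdual : ∀ j, ∃ f ∈ B, ∀ i, herm q (e i) f = if i = j then 1 else 0 := by
    intro j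
    obtain ⟨φ, hφ⟩ := LinearMap.exists_extend (ba.coord j)
    set z : Fin n → F := fun i => φ (Pi.single i 1) ^ q with hz
    have hrep : ∀ v, herm q v z = φ v := fun v => by
      conv_rhs => rw [pi_eq_sum_univ' v, map_sum]
      rw [Classical.U.herm_def]
      refine Finset.sum_congr rfl fun i _ => ?_
      rw [hz, hF.pow_pow, map_smul, smul_eq_mul]
    obtain ⟨w, hw, f, hf, hwf⟩ :=
      Submodule.mem_sup.1 (show z ∈ A ⊔ B by rw [h.compl.sup_eq_top]; trivial)
    refine ⟨f, hf, fun i => ?_⟩
    have h1 := hrep (e i)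
    rw [← hwf, hF.herm_add_right, h.left _ (heA i) w hw, zero_add] at h1
    rw [h1, show φ (e i) = ba.coord j (ba i) from LinearMap.congr_fun hφ (ba i)]
    simp [Finsupp.single_apply, eq_comm]
  choose f hfB hef using hdual
  let v : Fin m ⊕ Fin m → (Fin n → F) := Sum.elim e f
  have hv : ∀ s t, herm q (v s) (v t) = pairVal s t := by
    rintro (i | i) (j | j)
    · exact h.left _ (heA i) _ (heA j)
    · exact hef j i
    · show herm q (f i) (e j) = _
      rw [← hF.herm_symm, hef i j]
      simp only [pairVal, eq_comm (a := j)]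
      split_ifs <;> simp [hF.q_ne_zero]
    · exact h.right _ (hfB i) _ (hfB j)
  have hli : LinearIndependent F v := by
    rw [Fintype.linearIndependent_iff]
    intro g hg s
    have key : ∀ t, ∑ u, g u * herm q (v u) (v t) = 0 := fun t => by
      have h0 := congrArg (hermB hF (v t)) hg
      simp only [map_sum, map_smul, map_zero, hermB_apply, smul_eq_mul] at h0
      exact h0
    rcases s with i | i
    · simpa [hv, pairVal, Fintype.sum_sum_type] using key (Sum.inr i)
    · simpa [hv, pairVal, Fintype.sum_sum_type] using key (Sum.inl i)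
  rcases Nat.eq_zero_or_pos m with rfl | hm
  · have hn := h.dim
    have : IsEmpty (Fin n) := by rw [hn]; exact Fin.isEmpty
    exact ⟨Basis.empty _, fun i => i.elim0, fun i => i.elim0, fun s => s.elim (·.elim0) (·.elim0)⟩
  have : Nonempty (Fin m ⊕ Fin m) := ⟨Sum.inl ⟨0, hm⟩⟩
  have hcard : Fintype.card (Fin m ⊕ Fin m) = finrank F (Fin n → F) := by
    rw [Fintype.card_sum, Fintype.card_fin, Module.finrank_fin_fun, h.dim]
  refine ⟨basisOfLinearIndependentOfCardEqFinrank hli hcard, fun i => ?_, fun i => ?_, fun s t => ?_⟩ <;>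
    rw [coe_basisOfLinearIndependentOfCardEqFinrank]
  · exact heA i
  · exact hfB i
  · exact hv s t

/-- An isometry is recognised on a basis. -/
theorem isometry_of_basis {ι : Type*} [Fintype ι] (b : Basis ι F (Fin n → F))
    (L : (Fin n → F) →ₗ[F] (Fin n → F))
    (hb : ∀ s t, herm q (L (b s)) (L (b t)) = herm q (b s) (b t)) (u v : Fin n → F) :
    herm q (L u) (L v) = herm q u v := by
  rw [← b.sum_repr u, ← b.sum_repr v, ← hermB_apply hF, ← hermB_apply hF]
  simp only [map_sum, LinearMap.sum_apply, map_smul, LinearMap.map_smulₛₗ, LinearMap.smul_apply, hermB_apply, hb]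

omit hF in
/-- A linear map sending a basis of two halves into two subspaces. -/
theorem map_mem_of_basis {A : Submodule F (Fin n → F)} {A' : Submodule F (Fin n → F)}
    (b : Basis (Fin m ⊕ Fin m) F (Fin n → F)) (e : Fin m → Fin m ⊕ Fin m) (he : Function.Injective e)
    (hA : ∀ i, b (e i) ∈ A) (hdim : finrank F A = m) (L : (Fin n → F) →ₗ[F] (Fin n → F))
    (hL : ∀ i, L (b (e i)) ∈ A') {x : Fin n → F} (hx : x ∈ A) : L x ∈ A' := by
  have hspan : Submodule.span F (Set.range fun i => b (e i)) = A := by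
    refine Submodule.eq_of_le_of_finrank_eq (Submodule.span_le.2 ?_) ?_
    · rintro _ ⟨i, rfl⟩
      exact hA i
    · rw [hdim]
      exact (finrank_span_eq_card (b.linearIndependent.comp e he)).trans (Fintype.card_fin m)
  rw [← hspan] at hx
  exact (Submodule.span_le.2 (by rintro _ ⟨i, rfl⟩; exact hL i) :
    Submodule.span F (Set.range fun i => b (e i)) ≤ A'.comap L) hx

/-- `SU` is transitive on pairs of complementary totally isotropic halves. -/
theorem PolarPair.exists_move [Fintype F] {A B A' B' : Submodule F (Fin n → F)} (hm : 0 < m)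
    (h : PolarPair q m A B) (h' : PolarPair q m A' B') :
    ∃ g ∈ Cfsg.GU n F q ⊓ Cfsg.Geo.specialLinear (Fin n) F,
      (∀ x ∈ A, (g : Matrix (Fin n) (Fin n) F) *ᵥ x ∈ A') ∧ ∀ x ∈ B, (g : Matrix (Fin n) (Fin n) F) *ᵥ x ∈ B' := by
  classical
  obtain ⟨b, hbA, hbB, hb⟩ := h.exists_basis hF
  obtain ⟨b', hbA', hbB', hb'⟩ := h'.exists_basis hF
  let L₀ : UG n F q := ⟨b.equiv b' (Equiv.refl _), fun u v =>
    isometry_of_basis hF b (b.equiv b' (Equiv.refl _)).toLinearMap (fun s t => by simp [hb, hb']) u v⟩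
  obtain ⟨δ, hδdef⟩ : ∃ δ : Fˣ, δ = LinearEquiv.det L₀.1 := ⟨_, rfl⟩
  have hδ : δ ^ (q + 1) = 1 := Units.ext (by
    rw [Units.val_pow_eq_pow_val, hδdef]; exact Classical.U.det_norm_one hF L₀)
  obtain ⟨l, hl⟩ : ∃ l : Fˣ, l ^ (q - 1) = δ := by
    obtain ⟨γ, hγ⟩ := IsCyclic.exists_ofOrder_eq_natCard (α := Fˣ)
    have hgen : δ ∈ Subgroup.zpowers γ := by
      rw [show Subgroup.zpowers γ = ⊤ from Subgroup.eq_top_of_card_eq _ (by rw [Nat.card_zpowers, hγ])]
      trivial
    obtain ⟨j, rfl⟩ := mem_powers_iff_mem_zpowers.2 hgen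
    dsimp only at hδ
    rw [← pow_mul, ← orderOf_dvd_iff_pow_eq_one, hγ, hF.card_units] at hδ
    obtain ⟨i, hi⟩ := Nat.dvd_of_mul_dvd_mul_right q.succ_pos hδ
    exact ⟨γ ^ i, by rw [← pow_mul, mul_comm, hi]⟩
  let μ : Fˣ := (l⁻¹) ^ q
  let i₀ : Fin m := ⟨0, hm⟩
  let w : Fin m ⊕ Fin m → Fˣ := Sum.elim (Pi.mulSingle i₀ l) (Pi.mulSingle i₀ μ)
  let b'' := b'.unitsSMul w
  have hb'' : ∀ s t, herm q (b'' s) (b'' t) = pairVal s t := by
    intro s t
    simp only [b'', Basis.unitsSMul_apply, Units.smul_def, herm_smul_left, herm_smul_right, hb']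
    have e1 : (l : F) * (μ : F) ^ q = 1 := by
      simp [μ, hF.pow_pow]
    have e2 : (μ : F) * (l : F) ^ q = 1 := by
      simp [μ]
    rcases s with i | i <;> rcases t with j | j <;> simp only [pairVal, mul_zero, w, Sum.elim_inl, Sum.elim_inr]
    all_goals
      split_ifs with hij
      · subst hij
        by_cases hi : i = i₀
        · subst hi; simp [e1, e2, mul_comm _ (l : F), mul_comm ((l : F) ^ q)]
        · simp [hi]
      · simp
  let L : UG n F q := ⟨b.equiv b'' (Equiv.refl _), fun u v =>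
    isometry_of_basis hF b (b.equiv b'' (Equiv.refl _)).toLinearMap (fun s t => by simp [hb, hb'']) u v⟩
  have hdet : L ∈ SUG n F q := by
    rw [Classical.U.mem_SUG]
    have hfac : L.1 = (b'.equiv b'' (Equiv.refl _)) * L₀.1 :=
      b.ext' fun s => by simp [L, L₀, LinearEquiv.mul_apply]
    rw [hfac, map_mul, ← hδdef]
    refine Units.ext ?_
    rw [Units.val_mul, LinearEquiv.coe_det, ← LinearMap.det_toMatrix b',
      show LinearMap.toMatrix b' b' (b'.equiv b'' (Equiv.refl _)).toLinearMap = Matrix.diagonal (fun s => (w s : F)) from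
        Matrix.ext fun s t => by
          rw [LinearMap.toMatrix_apply]
          simp only [LinearEquiv.coe_coe, Basis.equiv_apply, Equiv.refl_apply, b'', Basis.unitsSMul_apply,
            Units.smul_def, map_smul, Basis.repr_self, Finsupp.smul_apply, Finsupp.single_apply, Matrix.diagonal_apply]
          by_cases hst : s = t
          · subst hst; simp
          · simp [hst, Ne.symm hst],
      Matrix.det_diagonal, ← Units.coe_prod, ← Units.val_mul, Units.val_eq_one.2]
    · rfl
    rw [Fintype.prod_sum_type]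
    simp only [w, Sum.elim_inl, Sum.elim_inr, Finset.prod_pi_mulSingle', Finset.mem_univ, if_true, μ, ← hl]
    rw [inv_pow, mul_assoc, inv_mul_eq_div, mul_div_assoc', ← pow_succ', div_eq_one]
    rw [Nat.sub_add_cancel (Nat.one_le_iff_ne_zero.2 hF.q_ne_zero)]
  obtain ⟨hg1, hg2⟩ := GeoClasses.ugToGL_mem_suGL hdet
  refine ⟨GeoClasses.ugToGL n F q L, ⟨hg1, hg2⟩, fun x hx => ?_, fun x hx => ?_⟩ <;>
    rw [GeoClasses.ugToGL_mulVec]
  · exact map_mem_of_basis b _ Sum.inl_injective hbA h.dimA L.1.toLinearMap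
      (fun i => by simpa [L, b'', Basis.unitsSMul_apply, Units.smul_def] using hbA' i) hx
  · exact map_mem_of_basis b _ Sum.inr_injective hbB h.dimB L.1.toLinearMap
      (fun i => by simpa [L, b'', Basis.unitsSMul_apply, Units.smul_def] using hbB' i) hx

/-- An isometry fixing both halves has even dimensional eigenspaces for eigenvalues of norm one. -/
theorem PolarPair.even_finrank_eigen {A B : Submodule F (Fin n → F)} (h : PolarPair q m A B)
    (f : (Fin n → F) →ₗ[F] (Fin n → F)) (hf : ∀ u v, herm q (f u) (f v) = herm q u v)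
    (hA : ∀ x ∈ A, f x ∈ A) (hB : ∀ x ∈ B, f x ∈ B) {μ : F} (hμ : μ ^ (q + 1) = 1) :
    Even (finrank F (LinearMap.ker (f - μ • (LinearMap.id : (Fin n → F) →ₗ[F] (Fin n → F))))) := by
  set N := f - μ • (LinearMap.id : (Fin n → F) →ₗ[F] (Fin n → F)) with hN
  have hNv : ∀ v, N v = f v - μ • v := fun v => by simp [hN]
  set K := LinearMap.ker N with hK
  have hAB : A ⊓ B = ⊥ := h.compl.inf_eq_bot
  have hsplit : K = (K ⊓ A) ⊔ (K ⊓ B) := by
    refine le_antisymm (fun v hv => ?_) (sup_le inf_le_left inf_le_left)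
    obtain ⟨a, ha, b, hb, rfl⟩ := Submodule.mem_sup.1 (show v ∈ A ⊔ B by rw [h.compl.sup_eq_top]; trivial)
    rw [hK, LinearMap.mem_ker, map_add] at hv
    have hNa : N a ∈ A := by rw [hNv]; exact A.sub_mem (hA a ha) (A.smul_mem _ ha)
    have hNb : N b ∈ B := by rw [hNv]; exact B.sub_mem (hB b hb) (B.smul_mem _ hb)
    have h0 : N a ∈ A ⊓ B := ⟨hNa, by rw [eq_neg_of_add_eq_zero_left hv]; exact B.neg_mem hNb⟩
    rw [hAB, Submodule.mem_bot] at h0
    rw [h0, zero_add] at hv
    exact Submodule.add_mem_sup ⟨h0, ha⟩ ⟨hv, hb⟩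
  have hdisj : (K ⊓ A) ⊓ (K ⊓ B) = ⊥ := by
    rw [eq_bot_iff, ← hAB]
    exact inf_le_inf inf_le_right inf_le_right
  have hfA : A.map f = A := by
    refine Submodule.eq_of_le_of_finrank_eq (Submodule.map_le_iff_le_comap.2 hA) ?_
    have hinj : Function.Injective f := fun u v huv => sub_eq_zero.1 (hF.eq_zero_of_herm _ fun w => by
      rw [Classical.U.herm_sub_left, ← hf u w, ← hf v w, huv, sub_self])
    rw [← (Submodule.equivMapOfInjective f hinj A).finrank_eq]
  set T := A.map N with hT
  have hTA : T ≤ A := Submodule.map_le_iff_le_comap.2 fun a ha => by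
    show N a ∈ A
    rw [hNv]; exact A.sub_mem (hA a ha) (A.smul_mem _ ha)
  have hKB : K ⊓ B = hperp q T ⊓ B := by
    ext w
    simp only [Submodule.mem_inf, and_congr_left_iff]
    intro hw
    rw [hK, LinearMap.mem_ker, mem_hperp]
    constructor
    · rintro hNw _ ⟨a, ha, rfl⟩
      have hfw : f w = μ • w := sub_eq_zero.1 (by rw [← hNv]; exact hNw)
      refine Forms.herm_comm_zero hF ?_
      rw [hNv, Classical.U.herm_sub_left, herm_smul_left, sub_eq_zero]
      have h1 := hf a w
      rw [hfw, herm_smul_right] at h1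
      calc herm q (f a) w = μ ^ (q + 1) * herm q (f a) w := by rw [hμ, one_mul]
        _ = μ * (μ ^ q * herm q (f a) w) := by ring
        _ = _ := by rw [h1]
    · intro hT'
      have hNB : N w ∈ B := by rw [hNv]; exact B.sub_mem (hB w hw) (B.smul_mem _ hw)
      refine hF.eq_zero_of_herm _ fun v => ?_
      obtain ⟨a', ha', b, hb, rfl⟩ := Submodule.mem_sup.1 (show v ∈ A ⊔ B by rw [h.compl.sup_eq_top]; trivial)
      rw [hF.herm_add_right, h.right _ hNB _ hb, add_zero]
      rw [← hfA] at ha'
      obtain ⟨a, ha, rfl⟩ := ha'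
      have h2 := hT' (N a) ⟨a, ha, rfl⟩
      rw [hNv, hF.herm_sub_right, herm_smul_right, sub_eq_zero] at h2
      rw [hNv, Classical.U.herm_sub_left, herm_smul_left, hf, h2]
      have hμq : μ * μ ^ q = 1 := by rw [← pow_succ', hμ]
      linear_combination (-(herm q w a)) * hμq
  have hdimT : finrank F T + finrank F ↥(K ⊓ A) = m := by
    have h1 := LinearMap.finrank_range_add_finrank_ker (N.domRestrict A)
    rw [LinearMap.range_domRestrict, LinearMap.ker_domRestrict, h.dimA] at h1
    have h2 : finrank F ↥(K.comap A.subtype) = finrank F ↥(K ⊓ A) := by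
      rw [inf_comm, ← Submodule.map_comap_subtype, Submodule.finrank_map_subtype_eq]
    rw [← hK] at h1
    rw [hT]
    omega
  have hperpT : finrank F ↥(hperp q T ⊓ B) = m - finrank F T := by
    have h1 := Submodule.finrank_sup_add_finrank_inf_eq A (hperp q T ⊓ B)
    have hle : A ≤ hperp q T := fun a ha t ht => h.left a ha t (hTA ht)
    have h3 : A ⊓ (hperp q T ⊓ B) = ⊥ := by
      rw [eq_bot_iff, ← hAB]
      exact inf_le_inf le_rfl inf_le_right
    have h4 : A ⊔ hperp q T ⊓ B = hperp q T := by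
      rw [inf_comm, ← sup_inf_assoc_of_le B hle, h.compl.sup_eq_top, top_inf_eq]
    rw [h3, h4, finrank_bot, finrank_hperp hF, h.dimA] at h1
    have := h.dim
    omega
  refine ⟨finrank F ↥(K ⊓ A), ?_⟩
  have h1 := Submodule.finrank_sup_add_finrank_inf_eq (K ⊓ A) (K ⊓ B)
  rw [hdisj, ← hsplit, finrank_bot, hKB, hperpT] at h1
  omega

/-- A non-degenerate subspace of even dimension is spanned by such a pair. -/
theorem exists_pair_of_nondeg (S : Submodule F (Fin n → F))
    (hS : ∀ x ∈ S, (∀ y ∈ S, herm q x y = 0) → x = 0) {k : ℕ} (hk : finrank F S = k + k) :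
    ∃ A B : Submodule F (Fin n → F), A ⊔ B = S ∧ (∀ x ∈ A, ∀ y ∈ A, herm q x y = 0) ∧
      (∀ x ∈ B, ∀ y ∈ B, herm q x y = 0) ∧ finrank F A = k ∧ finrank F B = k := by
  have : Finite F := hF.1
  obtain ⟨E, hE⟩ := Forms.exists_model hF S hS hk
  have hm1 : (-1 : F) ^ q = -1 := by rw [hF.neg_pow, one_pow]
  obtain ⟨t, ht⟩ := hF.exists_norm hm1
  obtain ⟨t', ht', hne⟩ : ∃ t' : F, t' ^ (q + 1) = -1 ∧ t' ≠ t := by
    by_contra hcon
    push Not at hcon
    have hcard := hF.card_norm_eq hm1 (neg_ne_zero.2 one_ne_zero)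
    have : Nat.card {x : F // x ^ (q + 1) = -1} = 1 := Nat.card_eq_one_iff_exists.2
      ⟨⟨t, ht⟩, fun x => Subtype.ext (hcon x.1 x.2)⟩
    have := hF.one_lt
    omega
  let ι : F → (Fin k → F) →ₗ[F] (Fin n → F) := fun c =>
    S.subtype ∘ₗ E.toLinearMap ∘ₗ
      { toFun := fun x => Sum.elim x (c • x) ∘ finSumFinEquiv.symm
        map_add' := fun x y => by
          ext i
          simp only [Function.comp_apply, Pi.add_apply]
          rcases finSumFinEquiv.symm i with j | j <;> simp
        map_smul' := fun a x => by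
          ext i
          simp only [Function.comp_apply, Pi.smul_apply, RingHom.id_apply, smul_eq_mul]
          rcases finSumFinEquiv.symm i with j | j <;> simp [mul_left_comm] }
  have hval : ∀ c x y, herm q (ι c x) (ι c y) = (1 + c ^ (q + 1)) * herm q x y := by
    intro c x y
    show herm q (E _ : Fin n → F) (E _) = _
    rw [hE, Classical.U.herm_def, ← finSumFinEquiv.sum_comp, Fintype.sum_sum_type, Classical.U.herm_def]
    simp only [LinearMap.coe_mk, AddHom.coe_mk, Function.comp_apply, Equiv.symm_apply_apply, Sum.elim_inl,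
      Sum.elim_inr, Pi.smul_apply, smul_eq_mul, add_mul, Finset.mul_sum, one_mul]
    rw [Finset.sum_add_distrib]
    congr 1
    exact Finset.sum_congr rfl fun i _ => by rw [mul_pow]; ring
  have hinj : ∀ c, Function.Injective (ι c) := fun c x y hxy => by
    have h1 := E.injective (Subtype.ext hxy)
    funext i
    simpa using congrFun h1 (finSumFinEquiv (Sum.inl i))
  refine ⟨LinearMap.range (ι t), LinearMap.range (ι t'), ?_, ?_, ?_,
    by rw [LinearMap.finrank_range_of_inj (hinj t), Module.finrank_fin_fun],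
    by rw [LinearMap.finrank_range_of_inj (hinj t'), Module.finrank_fin_fun]⟩
  · refine le_antisymm (sup_le ?_ ?_) fun v hv => ?_
    · rintro _ ⟨x, rfl⟩; exact Submodule.coe_mem _
    · rintro _ ⟨x, rfl⟩; exact Submodule.coe_mem _
    obtain ⟨z, hz⟩ := E.surjective ⟨v, hv⟩
    set x : Fin k → F := fun i => z (finSumFinEquiv (Sum.inl i))
    set y : Fin k → F := fun i => z (finSumFinEquiv (Sum.inr i))
    have htt : t' - t ≠ 0 := sub_ne_zero.2 hne
    set b : Fin k → F := (t' - t)⁻¹ • (y - t • x) with hb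
    refine Submodule.mem_sup.2 ⟨ι t (x - b), ⟨_, rfl⟩, ι t' b, ⟨_, rfl⟩, ?_⟩
    rw [← show ((E z : S) : Fin n → F) = v from congrArg Subtype.val hz]
    show ((E _ : S) : Fin n → F) + (E _ : S) = _
    rw [← Submodule.coe_add, ← map_add]
    congr 2
    ext i
    obtain ⟨s, rfl⟩ := finSumFinEquiv.surjective i
    rcases s with j | j <;>
      simp only [LinearMap.coe_mk, AddHom.coe_mk, Function.comp_apply, Equiv.symm_apply_apply, Sum.elim_inl,
        Sum.elim_inr, Pi.add_apply, Pi.sub_apply, Pi.smul_apply, smul_eq_mul, hb, x, y]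
    · ring
    ·
      field_simp
      ring
  all_goals
    rintro _ ⟨x, rfl⟩ _ ⟨y, rfl⟩
    simp [hval, ht, ht']

end Cfsg.Agent.Elusive25
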