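import Mathlib

/-!
The algebra of two by two matrices over the integral quaternions mapped to a matrix algebra by two
pairs of anticommuting matrices, and facts about its monomial group of order 32.
-/

set_option autoImplicit false

namespace Cfsg.Agent.Elusive25.Quat

open Matrix Quaternion

/-- Two by two matrices over the integral quaternions. -/
abbrev MQ := Matrix (Fin 2) (Fin 2) ℍ[ℤ]

instance : DecidableEq ℍ[ℤ] := fun a b =>
  decidable_of_iff (a.re = b.re ∧ a.imI = b.imI ∧ a.imJ = b.imJ ∧ a.imK = b.imK)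
    ⟨fun ⟨h1, h2, h3, h4⟩ => by ext <;> assumption, fun h => h ▸ ⟨rfl, rfl, rfl, rfl⟩⟩

/-- The quaternion `i`. -/
def qI : ℍ[ℤ] := ⟨0, 1, 0, 0⟩
/-- The quaternion `j`. -/
def qJ : ℍ[ℤ] := ⟨0, 0, 1, 0⟩
/-- The scalar `i`. -/
def gI : MQ := !![qI, 0; 0, qI]
/-- The scalar `j`. -/
def gJ : MQ := !![qJ, 0; 0, qJ]
/-- The sign matrix. -/
def gA : MQ := !![1, 0; 0, -1]
/-- The exchange matrix. -/
def gB : MQ := !![0, 1; 1, 0]

/-- The four generators. -/
def gen : Fin 4 → MQ := ![gI, gJ, gA, gB]

/-- Indices of the thirty-two monomials. -/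
abbrev Idx := Fin 2 × Fin 4 × Fin 4

/-- The monomials. -/
def mono (k : Idx) : MQ := (![1, -1] : Fin 2 → MQ) k.1 *
  ((![1, gI, gJ, gI * gJ] : Fin 4 → MQ) k.2.1 * (![1, gA, gB, gA * gB] : Fin 4 → MQ) k.2.2)

/-- Twice an element of order five. -/
def fiveQ : MQ := !![⟨0, 1, 1, 0⟩, ⟨1, 0, 0, 1⟩; ⟨0, 1, 1, 0⟩, ⟨-1, 0, 0, -1⟩]

theorem gen_mono : ∀ g, ∃ k, mono k = gen g := by decide +kernel

theorem mono_sep : ∀ k k', k ≠ k' → mono k = -mono k' ∨
    ∃ g, (gen g * mono k = mono k * gen g ∧ gen g * mono k' = -(mono k' * gen g)) ∨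
      (gen g * mono k' = mono k' * gen g ∧ gen g * mono k = -(mono k * gen g)) := by decide +kernel

theorem mono_sq : ∀ k, mono k * mono k = 1 ∨ mono k * mono k = -1 := by decide +kernel

theorem mono_count :
    (Finset.univ.filter fun k => mono k * mono k = 1 ∧ mono k ≠ 1 ∧ mono k ≠ -1).card = 10 := by decide +kernel

theorem fiveQ_mono : ∀ k, ∃ k', fiveQ * mono k = mono k' * fiveQ := by decide +kernel

theorem fiveQ_moves : ∃ k k', k ≠ k' ∧ fiveQ * mono k = mono k' * fiveQ := by decide +kernel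

theorem fiveQ_pow : fiveQ ^ 5 = (32 : ℕ) • (1 : MQ) := by decide +kernel

theorem fiveQ_unitary : fiveQᴴ * fiveQ = (4 : ℕ) • (1 : MQ) := by decide +kernel

/-- Two anticommuting pairs, commuting with each other, with squares `-1, -1, 1, 1`. -/
structure Rel {A : Type*} [Ring A] (I J a b : A) : Prop where
  II : I * I = -1
  JJ : J * J = -1
  IJ : I * J = -(J * I)
  aa : a * a = 1
  bb : b * b = 1
  ab : a * b = -(b * a)
  Ia : I * a = a * I
  Ib : I * b = b * I
  Ja : J * a = a * J
  Jb : J * b = b * J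

variable {F : Type*} [Field F] {ι : Type*} [Fintype ι] [DecidableEq ι]
variable {I J a b : Matrix ι ι F} (h : Rel I J a b)

/-- The map of the quaternions. -/
noncomputable def psi : ℍ[ℤ] →ₐ[ℤ] Matrix ι ι F :=
  QuaternionAlgebra.lift
    { i := I
      j := J
      k := I * J
      i_mul_i := by rw [h.II]; simp
      j_mul_j := by rw [h.JJ]; simp
      i_mul_j := rfl
      j_mul_i := by rw [h.IJ]; simp }

theorem psi_apply (q : ℍ[ℤ]) :
    psi h q = (q.re : Matrix ι ι F) + q.imI • I + q.imJ • J + q.imK • (I * J) := by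
  show QuaternionAlgebra.Basis.lift _ q = _
  simp [QuaternionAlgebra.Basis.lift]

/-- The projection onto the fixed space of the involution `a`. -/
def proj (a : Matrix ι ι F) : Matrix ι ι F := (2 : F)⁻¹ • (1 + a)

/-- The matrix units. -/
def unit2 (a b : Matrix ι ι F) (k l : Fin 2) : Matrix ι ι F := b ^ (k : ℕ) * proj a * b ^ (l : ℕ)

theorem commute_unit {X : Matrix ι ι F} (hXa : Commute X a) (hXb : Commute X b) (k l : Fin 2) :
    Commute X (unit2 a b k l) := by
  refine ((hXb.pow_right _).mul_right ?_).mul_right (hXb.pow_right _)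
  exact ((Commute.one_right X).add_right hXa).smul_right _

theorem commute_psi (q : ℍ[ℤ]) (k l : Fin 2) : Commute (psi h q) (unit2 a b k l) := by
  rw [psi_apply]
  have hI := commute_unit (show Commute I a from h.Ia) (show Commute I b from h.Ib) k l
  have hJ := commute_unit (show Commute J a from h.Ja) (show Commute J b from h.Jb) k l
  exact (((Int.cast_commute q.re _).add_left (hI.smul_left _)).add_left (hJ.smul_left _)).add_left
    ((hI.mul_left hJ).smul_left _)

variable (h2 : (2 : F) ≠ 0)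
include h h2

theorem proj_sq : proj a * proj a = proj a := by
  rw [proj, smul_mul_smul_comm, show (1 + a) * (1 + a) = (2 : F) • (1 + a) by
    rw [two_smul, add_mul, one_mul, mul_add, mul_one, h.aa]; abel, smul_smul]
  congr 1
  field_simp

omit h2 in
theorem proj_b_proj : proj a * b * proj a = 0 := by
  rw [proj, smul_mul_assoc, smul_mul_smul_comm, show (1 + a) * b * (1 + a) = 0 by
    rw [add_mul, one_mul, add_mul, mul_add, mul_add, mul_one, mul_one, h.ab, neg_mul, mul_assoc b a a, h.aa, mul_one]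
    abel, smul_zero]

theorem proj_add : proj a + b * proj a * b = 1 := by
  rw [proj, mul_smul_comm, smul_mul_assoc, ← smul_add, mul_add, mul_one, add_mul, h.bb, mul_assoc b a b, h.ab,
    mul_neg, ← mul_assoc, h.bb, one_mul, show (1 + a + (1 + -a)) = (2 : F) • (1 : Matrix ι ι F) by rw [two_smul]; abel,
    smul_smul, inv_mul_cancel₀ h2, one_smul]

theorem unit_mul (k l m n : Fin 2) : unit2 a b k l * unit2 a b m n = if l = m then unit2 a b k n else 0 := by
  have key : proj a * (b ^ (l : ℕ) * b ^ (m : ℕ)) * proj a = if l = m then proj a else 0 := by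
    fin_cases l <;> fin_cases m <;> simp [h.bb, proj_sq h h2, proj_b_proj h]
  calc _ = b ^ (k : ℕ) * (proj a * (b ^ (l : ℕ) * b ^ (m : ℕ)) * proj a) * b ^ (n : ℕ) := by
        simp only [unit2, mul_assoc]
    _ = _ := by rw [key]; split_ifs <;> simp [unit2]

theorem unit_sum : unit2 a b 0 0 + unit2 a b 1 1 = 1 := by
  simp [unit2, proj_add h h2]

/-- The map of the matrix algebra. -/
noncomputable def phi : MQ →+* Matrix ι ι F where
  toFun M := ∑ k, ∑ l, psi h (M k l) * unit2 a b k l
  map_one' := by simp [Fin.sum_univ_two, unit_sum h h2]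
  map_mul' M N := by
    have e : ∀ k l m n : Fin 2, psi h (M k l) * unit2 a b k l * (psi h (N m n) * unit2 a b m n) =
        if l = m then psi h (M k l * N m n) * unit2 a b k n else 0 := fun k l m n => by
      rw [mul_assoc, ← mul_assoc (unit2 a b k l), ← (commute_psi h (N m n) k l).eq, mul_assoc (psi h (N m n)),
        ← mul_assoc, ← map_mul, unit_mul h h2]
      split_ifs <;> simp
    simp only [Fin.sum_univ_two, add_mul, mul_add, e, Matrix.mul_apply, map_add]
    simp
    abel
  map_zero' := by simp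
  map_add' M N := by simp [Fin.sum_univ_two, add_mul]; abel

theorem phi_apply (M : MQ) : phi h h2 M = psi h (M 0 0) * unit2 a b 0 0 + psi h (M 0 1) * unit2 a b 0 1 +
    (psi h (M 1 0) * unit2 a b 1 0 + psi h (M 1 1) * unit2 a b 1 1) := by
  simp [phi, Fin.sum_univ_two]

theorem phi_gen : phi h h2 gI = I ∧ phi h h2 gJ = J ∧ phi h h2 gA = a ∧ phi h h2 gB = b := by
  have hs := unit_sum h h2
  have hi : psi h qI = I := by rw [psi_apply]; simp [qI]
  have hj : psi h qJ = J := by rw [psi_apply]; simp [qJ]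
  refine ⟨?_, ?_, ?_, ?_⟩ <;> rw [phi_apply] <;> simp [gI, gJ, gA, gB]
  · rw [hi, ← mul_add, hs, mul_one]
  · rw [hj, ← mul_add, hs, mul_one]
  · have hp : (2 : F) • proj a = 1 + a := by rw [proj, smul_smul, mul_inv_cancel₀ h2, one_smul]
    have h11 : unit2 a b 1 1 = 1 - proj a := by
      rw [eq_sub_iff_add_eq, add_comm]; simpa [unit2] using hs
    rw [h11, show unit2 a b 0 0 = proj a by simp [unit2]]
    calc proj a + -(1 - proj a) = (2 : F) • proj a - 1 := by rw [two_smul]; abel
      _ = a := by rw [hp]; abel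
  · simp only [unit2, Fin.val_zero, Fin.val_one, pow_zero, pow_one, one_mul, mul_one]
    calc proj a * b + b * proj a = (proj a + b * proj a * b) * b := by rw [add_mul, mul_assoc (b * proj a), h.bb, mul_one]
      _ = b := by rw [proj_add h h2, one_mul]

/-- An anti-automorphism fixing `a, b` and negating `I, J` reverses the map on conjugate transposes. -/
theorem phi_conjTranspose (σ : Matrix ι ι F →+ Matrix ι ι F) (hσm : ∀ X Y, σ (X * Y) = σ Y * σ X) (hσ1 : σ 1 = 1)
    (hσc : ∀ (c : F) X, σ (c • X) = c • σ X) (hI : σ I = -I) (hJ : σ J = -J) (ha : σ a = a) (hb : σ b = b) (M : MQ) :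
    σ (phi h h2 M) = phi h h2 Mᴴ := by
  have hp : σ (proj a) = proj a := by rw [proj, hσc, map_add, hσ1, ha]
  have hu : ∀ k l, σ (unit2 a b k l) = unit2 a b l k := fun k l => by
    have hpow : ∀ n : Fin 2, σ (b ^ (n : ℕ)) = b ^ (n : ℕ) := fun n => by fin_cases n <;> simp [hb, hσ1]
    rw [unit2, hσm, hσm, hp, hpow, hpow, ← mul_assoc]; rfl
  have hq : ∀ q : ℍ[ℤ], σ (psi h q) = psi h (star q) := fun q => by
    rw [psi_apply, psi_apply, Quaternion.re_star, Quaternion.imI_star, Quaternion.imJ_star, Quaternion.imK_star,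
      map_add, map_add, map_add, map_zsmul, map_zsmul, map_zsmul, hσm, hI, hJ, neg_mul_neg, ← zsmul_one, map_zsmul, hσ1,
      show J * I = -(I * J) by rw [h.IJ, neg_neg]]
    simp [neg_smul]
  rw [phi_apply, phi_apply]
  simp only [map_add, hσm, hu, hq, Matrix.conjTranspose_apply]
  rw [← (commute_psi h (star (M 0 0)) 0 0).eq, ← (commute_psi h (star (M 0 1)) 1 0).eq,
    ← (commute_psi h (star (M 1 0)) 0 1).eq, ← (commute_psi h (star (M 1 1)) 1 1).eq]
  abel

end Cfsg.Agent.Elusive25.Quat
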