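import Cfsg.Agent.Elusive.SkewPlanes
import Cfsg.Agent.Forms.Symplectic

/-!
Elements of `Sp_4` whose square is a sign, and triviality of elements of order three commuting with an
anticommuting pair.
-/

set_option autoImplicit false

namespace Cfsg.Agent.Elusive25

open Matrix Module Cfsg.Agent.Forms
open scoped MatrixGroups

variable {F : Type*} [Field F]

local notation "M4" => Matrix (Fin 2 ⊕ Fin 2) (Fin 2 ⊕ Fin 2) F
local notation "V4" => (Fin 2 ⊕ Fin 2 → F)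

/-- Two hyperbolic pairs. -/
def IsPairs (e f : Fin 2 → V4) : Prop :=
  ∀ j k, sympBil 2 F (e j) (f k) = (if j = k then (1 : F) else 0) ∧ sympBil 2 F (e j) (e k) = 0 ∧
    sympBil 2 F (f j) (f k) = 0

/-- Two hyperbolic pairs form a basis. -/
theorem IsPairs.span_top {e f : Fin 2 → V4} (h : IsPairs e f) : Submodule.span F (Set.range (Sum.elim e f)) = ⊤ := by
  have hA : (sympBil 2 F).IsAlt := sympBil_isAlt
  have hli : LinearIndependent F (Sum.elim e f) := by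
    rw [Fintype.linearIndependent_iff]
    intro c hc
    rw [Fintype.sum_sum_type] at hc
    simp only [Sum.elim_inl, Sum.elim_inr] at hc
    have hfe : ∀ j k, sympBil 2 F (f j) (e k) = -(if k = j then (1 : F) else 0) := fun j k => by
      rw [← LinearMap.IsAlt.neg hA, (h k j).1]
    rintro (j | j)
    · have := congrArg (fun v => sympBil 2 F v (f j)) hc
      fin_cases j <;> simpa [map_sum, (h _ _).1, (h _ _).2.2, Fin.sum_univ_two] using this
    · have := congrArg (fun v => sympBil 2 F v (e j)) hc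
      fin_cases j <;> simpa [map_sum, (h _ _).2.1, hfe, Fin.sum_univ_two] using this
  exact hli.span_eq_top_of_card_eq_finrank (Module.finrank_fintype_fun_eq_card F).symm

/-- Matrices agreeing on two hyperbolic pairs are equal. -/
theorem IsPairs.ext {e f : Fin 2 → V4} (h : IsPairs e f) {X Y : M4} (he : ∀ j, X *ᵥ e j = Y *ᵥ e j)
    (hf : ∀ j, X *ᵥ f j = Y *ᵥ f j) : X = Y :=
  Matrix.toLin'.injective (LinearMap.ext_on h.span_top (by
    rintro _ ⟨j | j, rfl⟩ <;> simp [he, hf]))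

theorem bil_mulVec {g : GL (Fin 2 ⊕ Fin 2) F} (hg : g ∈ Cfsg.spGL 2 F) (u v : V4) :
    sympBil 2 F ((g : M4) *ᵥ u) ((g : M4) *ᵥ v) = sympBil 2 F u v := by
  rw [sympBil_apply, sympBil_apply]; exact hg u v

/-- Adapted pairs for an involution. -/
theorem exists_pairs_invol (h2 : (2 : F) ≠ 0) {x : GL (Fin 2 ⊕ Fin 2) F} (hx : x ∈ Cfsg.spGL 2 F)
    (hxx : (x : M4) * x = 1) (hns : ∀ c : F, (x : M4) ≠ c • 1) :
    ∃ e f, IsPairs e f ∧ ∀ j, (x : M4) *ᵥ e j = (![1, -1] : Fin 2 → F) j • e j ∧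
      (x : M4) *ᵥ f j = (![1, -1] : Fin 2 → F) j • f j := by
  have hA : (sympBil 2 F).IsAlt := sympBil_isAlt
  have hX : ∀ v, (x : M4) *ᵥ ((x : M4) *ᵥ v) = v := fun v => by rw [Matrix.mulVec_mulVec, hxx, Matrix.one_mulVec]
  have hpair : ∀ s : F, s * s = 1 → (x : M4) ≠ (-s) • 1 → ∃ u v, (x : M4) *ᵥ u = s • u ∧ (x : M4) *ᵥ v = s • v ∧
      sympBil 2 F u v = 1 := by
    intro s hs hne
    obtain ⟨w, hw⟩ : ∃ w, (x : M4) *ᵥ w + s • w ≠ 0 := by
      by_contra hno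
      push Not at hno
      refine hne (Matrix.ext_of_mulVec_single fun k => ?_)
      rw [Matrix.smul_mulVec, Matrix.one_mulVec, neg_smul, eq_neg_iff_add_eq_zero, hno]
    set u := (x : M4) *ᵥ w + s • w
    have hu : (x : M4) *ᵥ u = s • u := by
      simp only [u, Matrix.mulVec_add, Matrix.mulVec_smul, hX, smul_add, smul_smul, hs, one_smul, add_comm]
    obtain ⟨v₀, hv₀⟩ : ∃ v, sympBil 2 F u v ≠ 0 := by
      by_contra hno
      push Not at hno
      exact hw (sympBil_nondegenerate.1 u hno)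
    set v := ((2 : F) * sympBil 2 F u v₀)⁻¹ • (v₀ + s • ((x : M4) *ᵥ v₀))
    refine ⟨u, v, hu, ?_, ?_⟩
    · simp only [v, Matrix.mulVec_smul, Matrix.mulVec_add, hX, smul_comm s, smul_add, smul_smul]
      rw [mul_assoc _ s s, hs, mul_one, add_comm]
    · have h1 : sympBil 2 F u ((x : M4) *ᵥ v₀) = s * sympBil 2 F u v₀ := by
        rw [← bil_mulVec hx, hu, hX, map_smul, LinearMap.smul_apply, smul_eq_mul]
      simp only [v, map_smul, map_add, h1, smul_eq_mul]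
      field_simp
      linear_combination hs
  obtain ⟨u, v, hu, hv, huv⟩ := hpair 1 (one_mul 1) (hns _)
  obtain ⟨u', v', hu', hv', huv'⟩ := hpair (-1) (by ring) (by rw [neg_neg]; exact hns _)
  have cross : ∀ a b, (x : M4) *ᵥ a = (1 : F) • a → (x : M4) *ᵥ b = (-1 : F) • b →
      sympBil 2 F a b = 0 ∧ sympBil 2 F b a = 0 := fun a b ha hb => by
    have h := bil_mulVec hx a b
    rw [ha, hb, map_smul, one_smul, neg_one_smul, eq_comm] at h
    have h' : (2 : F) * sympBil 2 F a b = 0 := by rw [two_mul]; nth_rewrite 2 [h]; exact add_neg_cancel _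
    have h0 := (mul_eq_zero.1 h').resolve_left h2
    exact ⟨h0, by rw [← LinearMap.IsAlt.neg hA, h0, neg_zero]⟩
  refine ⟨![u, u'], ![v, v'], fun j k => ?_, fun j => ?_⟩
  · fin_cases j <;> fin_cases k <;>
      simp [huv, huv', hA _, (cross u v' hu hv').1, (cross v u' hv hu').2, (cross u u' hu hu').1, (cross u u' hu hu').2,
        (cross v v' hv hv').1, (cross v v' hv hv').2]
  · fin_cases j
    exacts [⟨hu, hv⟩, ⟨hu', hv'⟩]

/-- Adapted pairs for an element with square minus one. -/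
theorem exists_pairs_neg [Fintype F] (hq : Fintype.card F % 2 = 1) {x : GL (Fin 2 ⊕ Fin 2) F}
    (hx : x ∈ Cfsg.spGL 2 F) (hxx : (x : M4) * x = -1) :
    ∃ e f, IsPairs e f ∧ ∀ j, (x : M4) *ᵥ e j = f j ∧ (x : M4) *ᵥ f j = -e j := by
  set S : Module.End F V4 := Matrix.toLin' (x : M4)
  have hS2 : ∀ v, S (S v) = (-1 : F) • v := fun v => by
    simp [S, Matrix.mulVec_mulVec, hxx, Matrix.neg_mulVec]
  have hS : ∀ u v, sympBil 2 F (S u) v = -sympBil 2 F u (S v) := fun u v => by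
    have h := bil_mulVec hx u (S v)
    rw [show (x : M4) *ᵥ S v = S (S v) from rfl, hS2, neg_one_smul, map_neg] at h
    rw [← h, neg_neg]; rfl
  obtain ⟨u, -, hu⟩ := Elusive.exists_skew_planes hq sympBil_isAlt hS (neg_ne_zero.2 one_ne_zero) hS2 2
    (fun _ => (1 : F)) (fun _ => one_ne_zero) ⊤ (fun v _ => Submodule.mem_top)
    (Elusive.nonDegOn_top sympBil_nondegenerate) (by rw [finrank_top, Module.finrank_fintype_fun_eq_card]; simp)
  refine ⟨u, fun j => S (u j), fun j k => ⟨(hu j k).1, (hu j k).2, ?_⟩, fun j => ⟨rfl, ?_⟩⟩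
  · show sympBil 2 F ((x : M4) *ᵥ u j) ((x : M4) *ᵥ u k) = 0
    rw [bil_mulVec hx, (hu j k).2]
  · show (x : M4) *ᵥ ((x : M4) *ᵥ u j) = -u j
    rw [Matrix.mulVec_mulVec, hxx, Matrix.neg_mulVec, Matrix.one_mulVec]

/-- Elements with the same sign as square are conjugate. -/
theorem exists_conj_invol [Fintype F] (hq : Fintype.card F % 2 = 1) {x x₀ : GL (Fin 2 ⊕ Fin 2) F}
    (hx : x ∈ Cfsg.spGL 2 F) (hx₀ : x₀ ∈ Cfsg.spGL 2 F)
    (h : ((x : M4) * x = 1 ∧ (x₀ : M4) * x₀ = 1 ∧ (∀ c : F, (x : M4) ≠ c • 1) ∧ ∀ c : F, (x₀ : M4) ≠ c • 1) ∨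
      ((x : M4) * x = -1 ∧ (x₀ : M4) * x₀ = -1)) :
    ∃ g ∈ Cfsg.spGL 2 F, g⁻¹ * x * g = x₀ := by
  have h2 : (2 : F) ≠ 0 := Ring.two_ne_zero fun e => by rw [FiniteField.even_card_iff_char_two] at e; omega
  suffices ∃ e f e' f', IsPairs e f ∧ IsPairs e' f' ∧ ∀ g : M4, (∀ j, g *ᵥ e' j = e j) → (∀ j, g *ᵥ f' j = f j) →
      (∀ j, (x : M4) *ᵥ (g *ᵥ e' j) = g *ᵥ ((x₀ : M4) *ᵥ e' j)) ∧ ∀ j, (x : M4) *ᵥ (g *ᵥ f' j) = g *ᵥ ((x₀ : M4) *ᵥ f' j) by
    obtain ⟨e, f, e', f', hp, hp', hact⟩ := this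
    obtain ⟨g, hg, hge, hgf⟩ := Elusive.exists_spGL_of_pairs (lam := fun _ => (1 : F)) (fun _ => one_ne_zero) hp' hp
    refine ⟨g, hg, ?_⟩
    rw [mul_assoc, inv_mul_eq_iff_eq_mul]
    obtain ⟨h1, h1'⟩ := hact (g : M4) hge hgf
    exact Units.ext (hp'.ext (fun j => by rw [Units.val_mul, Units.val_mul, ← Matrix.mulVec_mulVec, ← Matrix.mulVec_mulVec, h1])
      (fun j => by rw [Units.val_mul, Units.val_mul, ← Matrix.mulVec_mulVec, ← Matrix.mulVec_mulVec, h1']))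
  rcases h with ⟨ha, hb, hc, hd⟩ | ⟨ha, hb⟩
  · obtain ⟨e, f, hp, he⟩ := exists_pairs_invol h2 hx ha hc
    obtain ⟨e', f', hp', he'⟩ := exists_pairs_invol h2 hx₀ hb hd
    refine ⟨e, f, e', f', hp, hp', fun g hge hgf => ⟨fun j => ?_, fun j => ?_⟩⟩
    · rw [(he' j).1, Matrix.mulVec_smul, hge, (he j).1]
    · rw [(he' j).2, Matrix.mulVec_smul, hgf, (he j).2]
  · obtain ⟨e, f, hp, he⟩ := exists_pairs_neg hq hx ha
    obtain ⟨e', f', hp', he'⟩ := exists_pairs_neg hq hx₀ hb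
    refine ⟨e, f, e', f', hp, hp', fun g hge hgf => ⟨fun j => ?_, fun j => ?_⟩⟩
    · rw [(he' j).1, hgf, hge, (he j).1]
    · rw [(he' j).2, Matrix.mulVec_neg, hgf, hge, (he j).2]

/-- An element of order three of `Sp_4` fixing a vector and commuting with an anticommuting pair is trivial. -/
theorem eq_one_of_commute (h2 : (2 : F) ≠ 0) (h3 : (3 : F) ≠ 0) {y a h : GL (Fin 2 ⊕ Fin 2) F}
    (hy : y ∈ Cfsg.spGL 2 F) (hy3 : y ^ 3 = 1) (ha : a ∈ Cfsg.spGL 2 F) (haa : (a : M4) * a = 1)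
    (hh : h ∈ Cfsg.spGL 2 F) (hah : (a : M4) * h = -((h : M4) * a))
    (hya : (y : M4) * a = (a : M4) * y) (hyh : (y : M4) * h = (h : M4) * y)
    {v : V4} (hv0 : v ≠ 0) (hv : (y : M4) *ᵥ v = v) : y = 1 := by
  have hA : (sympBil 2 F).IsAlt := sympBil_isAlt
  have hX : ∀ v, (a : M4) *ᵥ ((a : M4) *ᵥ v) = v := fun v => by rw [Matrix.mulVec_mulVec, haa, Matrix.one_mulVec]
  have hyA : ∀ v, (y : M4) *ᵥ ((a : M4) *ᵥ v) = (a : M4) *ᵥ ((y : M4) *ᵥ v) := fun v => by
    rw [Matrix.mulVec_mulVec, hya, ← Matrix.mulVec_mulVec]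
  have hyH : ∀ v, (y : M4) *ᵥ ((h : M4) *ᵥ v) = (h : M4) *ᵥ ((y : M4) *ᵥ v) := fun v => by
    rw [Matrix.mulVec_mulVec, hyh, ← Matrix.mulVec_mulVec]
  have hAH : ∀ v, (a : M4) *ᵥ ((h : M4) *ᵥ v) = -((h : M4) *ᵥ ((a : M4) *ᵥ v)) := fun v => by
    rw [Matrix.mulVec_mulVec, hah, Matrix.neg_mulVec, ← Matrix.mulVec_mulVec]
  have hinj : ∀ g : GL (Fin 2 ⊕ Fin 2) F, ∀ w, (g : M4) *ᵥ w = 0 → w = 0 := fun g w hw => by
    rw [← Matrix.one_mulVec w, ← Units.val_one, ← inv_mul_cancel g, Units.val_mul, ← Matrix.mulVec_mulVec, hw,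
      Matrix.mulVec_zero]
  -- a fixed vector in the plus eigenspace
  obtain ⟨u, hu0, hau, hyu⟩ : ∃ u, u ≠ 0 ∧ (a : M4) *ᵥ u = u ∧ (y : M4) *ᵥ u = u := by
    by_cases h0 : v + (a : M4) *ᵥ v = 0
    · refine ⟨(h : M4) *ᵥ v, fun e => hv0 (hinj h v e), ?_, by rw [hyH, hv]⟩
      rw [hAH, eq_neg_of_add_eq_zero_right h0, Matrix.mulVec_neg, neg_neg]
    · exact ⟨_, h0, by rw [Matrix.mulVec_add, hX, add_comm], by rw [Matrix.mulVec_add, hv, hyA, hv]⟩
  have hfe : ∀ w, sympBil 2 F u ((a : M4) *ᵥ w) = sympBil 2 F u w := fun w => by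
    conv_lhs => rw [← bil_mulVec ha, hau, hX]
  obtain ⟨w₀, hw₀⟩ : ∃ w, sympBil 2 F u w ≠ 0 := by
    by_contra hno; push Not at hno; exact hu0 (sympBil_nondegenerate.1 u hno)
  set w := ((2 : F) * sympBil 2 F u w₀)⁻¹ • (w₀ + (a : M4) *ᵥ w₀)
  have haw : (a : M4) *ᵥ w = w := by simp only [w, Matrix.mulVec_smul, Matrix.mulVec_add, hX, add_comm]
  have huw : sympBil 2 F u w = 1 := by
    simp only [w, map_smul, map_add, hfe, smul_eq_mul]
    field_simp
    ring
  have cross : ∀ p r, (a : M4) *ᵥ p = p → (a : M4) *ᵥ r = r → sympBil 2 F p ((h : M4) *ᵥ r) = 0 ∧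
      sympBil 2 F ((h : M4) *ᵥ r) p = 0 := fun p r hp hr => by
    have e := bil_mulVec ha p ((h : M4) *ᵥ r)
    rw [hp, hAH, hr, map_neg, eq_comm] at e
    have h' : (2 : F) * sympBil 2 F p ((h : M4) *ᵥ r) = 0 := by rw [two_mul]; nth_rewrite 2 [e]; exact add_neg_cancel _
    have h0 := (mul_eq_zero.1 h').resolve_left h2
    exact ⟨h0, by rw [← LinearMap.IsAlt.neg hA, h0, neg_zero]⟩
  have hp : IsPairs ![u, (h : M4) *ᵥ u] ![w, (h : M4) *ᵥ w] := fun j k => by
    fin_cases j <;> fin_cases k <;>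
      simp [huw, hA _, bil_mulVec hh, (cross u w hau haw).1, (cross u u hau hau).1, (cross u u hau hau).2,
        (cross w u haw hau).2, (cross w w haw haw).1, (cross w w haw haw).2]
  -- the second vector of the pair is fixed as well
  set z := (y : M4) *ᵥ w - w
  have haz : (a : M4) *ᵥ z = z := by simp only [z, Matrix.mulVec_sub, ← hyA, haw]
  have huz : sympBil 2 F u z = 0 := by
    simp only [z, map_sub]
    conv_lhs => arg 1; rw [← hyu, bil_mulVec hy]
    exact sub_self _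
  obtain ⟨t, hzt⟩ : ∃ t : F, z = t • u := by
    refine ⟨-sympBil 2 F w z, sub_eq_zero.1 (sympBil_nondegenerate.1 _ fun p => ?_)⟩
    set d := z - (-sympBil 2 F w z) • u
    have had : (a : M4) *ᵥ d = d := by simp only [d, Matrix.mulVec_sub, Matrix.mulVec_smul, haz, hau]
    have hd1 : sympBil 2 F u d = 0 := by simp [d, huz, hA u]
    have hd2 : sympBil 2 F w d = 0 := by
      simp [d, show sympBil 2 F w u = -1 by rw [← LinearMap.IsAlt.neg hA, huw]]
    have hle : (sympBil 2 F d) = 0 := LinearMap.ext_on hp.span_top (by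
      rintro _ ⟨j | j, rfl⟩ <;> fin_cases j <;> simp only [Sum.elim_inl, Sum.elim_inr, LinearMap.zero_apply]
      · exact neg_eq_zero.1 ((LinearMap.IsAlt.neg hA _ _).trans hd1)
      · exact (cross d u had hau).1
      · exact neg_eq_zero.1 ((LinearMap.IsAlt.neg hA _ _).trans hd2)
      · exact (cross d w had haw).1)
    rw [hle]; rfl
  have hyw : (y : M4) *ᵥ w = w + t • u := by rw [← hzt]; simp [z]
  have ht : t = 0 := by
    have h' := congrArg (· *ᵥ w) (show ((y : M4)) * y * y = 1 by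
      rw [← Units.val_mul, ← Units.val_mul, ← Units.val_one, ← hy3]; simp [pow_succ])
    simp only [← Matrix.mulVec_mulVec, hyw, Matrix.mulVec_add, Matrix.mulVec_smul, hyu, Matrix.one_mulVec] at h'
    have h'' : ((3 : F) * t) • u = 0 := by
      rw [show ((3 : F) * t) • u = (w + t • u + t • u + t • u) - w by module, h', sub_self]
    exact (mul_eq_zero.1 ((smul_eq_zero.1 h'').resolve_right hu0)).resolve_left h3
  rw [ht, zero_smul, add_zero] at hyw
  refine Units.ext (hp.ext (fun j => ?_) (fun j => ?_)) <;> rw [Units.val_one, Matrix.one_mulVec] <;> fin_cases j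
  · exact hyu
  · exact (hyH u).trans (by rw [hyu]; rfl)
  · exact hyw
  · exact (hyH w).trans (by rw [hyw]; rfl)

/-- An element moving everything along one line and commuting with an anticommuting pair is trivial. -/
theorem eq_one_of_rank_one (h2 : (2 : F) ≠ 0) {y a h : GL (Fin 2 ⊕ Fin 2) F}
    (hah : (a : M4) * h = -((h : M4) * a))
    (hya : (y : M4) * a = (a : M4) * y) (hyh : (y : M4) * h = (h : M4) * y)
    {d : V4} (hd : ∀ v, ∃ c : F, (y : M4) *ᵥ v - v = c • d) : y = 1 := by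
  by_contra hne
  have hinj : ∀ g : GL (Fin 2 ⊕ Fin 2) F, ∀ w, (g : M4) *ᵥ w = 0 → w = 0 := fun g w hw => by
    rw [← Matrix.one_mulVec w, ← Units.val_one, ← inv_mul_cancel g, Units.val_mul, ← Matrix.mulVec_mulVec, hw,
      Matrix.mulVec_zero]
  obtain ⟨v, c, hc, hvc⟩ : ∃ v, ∃ c : F, c ≠ 0 ∧ (y : M4) *ᵥ v - v = c • d := by
    by_contra hno
    push Not at hno
    refine hne (Units.ext (Matrix.ext_of_mulVec_single fun k => ?_))
    rw [Units.val_one, Matrix.one_mulVec]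
    obtain ⟨c, hc⟩ := hd (Pi.single k 1)
    by_cases h0 : c = 0
    · rwa [h0, zero_smul, sub_eq_zero] at hc
    · exact absurd hc (hno _ c h0)
  have hd0 : d ≠ 0 := fun e => hne (Units.ext (Matrix.ext_of_mulVec_single fun k => by
    obtain ⟨c, hc⟩ := hd (Pi.single k 1)
    rw [e, smul_zero, sub_eq_zero] at hc
    rw [Units.val_one, Matrix.one_mulVec, hc]))
  have eig : ∀ g : GL (Fin 2 ⊕ Fin 2) F, (y : M4) * g = (g : M4) * y → ∃ s : F, (g : M4) *ᵥ d = s • d := fun g hg => by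
    obtain ⟨c', hc'⟩ := hd ((g : M4) *ᵥ v)
    rw [Matrix.mulVec_mulVec, hg, ← Matrix.mulVec_mulVec, ← Matrix.mulVec_sub, hvc, Matrix.mulVec_smul] at hc'
    exact ⟨c⁻¹ * c', by rw [← smul_smul, ← hc', smul_smul, inv_mul_cancel₀ hc, one_smul]⟩
  obtain ⟨s, hs⟩ := eig a hya
  obtain ⟨s', hs'⟩ := eig h hyh
  have h' := congrArg (· *ᵥ d) hah
  simp only [Matrix.neg_mulVec, ← Matrix.mulVec_mulVec, hs, hs', Matrix.mulVec_smul] at h'
  have h'' : ((2 : F) * (s * s')) • d = 0 := by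
    rw [show ((2 : F) * (s * s')) • d = s' • s • d + s • s' • d by module, h']; abel
  rcases mul_eq_zero.1 ((mul_eq_zero.1 ((smul_eq_zero.1 h'').resolve_right hd0)).resolve_left h2) with e | e
  · exact hd0 (hinj a d (by rw [hs, e, zero_smul]))
  · exact hd0 (hinj h d (by rw [hs', e, zero_smul]))

end Cfsg.Agent.Elusive25
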