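import Cfsg.Agent.Elusive25.Even
import Cfsg.Agent.Forms.Symplectic
import Cfsg.Agent.SympSub.Count

/-!
Quadratic forms polarising to the standard alternating form in characteristic two, and conjugacy
into their isometry groups.
-/

set_option autoImplicit false

namespace Cfsg.Agent.Elusive25

open QuadraticMap Module Cfsg.Agent.Classical Cfsg.Agent.Forms
open scoped Matrix

variable {F : Type*} [Field F] [Fintype F] [CharP F 2] {d : ℕ}

/-- The quadratic form polarises to `sympForm`. -/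
def PolarSymp (P : QuadraticForm F (Fin d ⊕ Fin d → F)) : Prop :=
  ∀ u v, polar P u v = Cfsg.sympForm d F u v

omit [Fintype F] in
theorem sympBil_comm (u v : Fin d ⊕ Fin d → F) : sympBil d F u v = sympBil d F v u := by
  rw [sympBil_apply, sympBil_apply, sympForm_swap, CharTwo.neg_eq]

omit [Fintype F] in
theorem polarSymp_plusQF : PolarSymp (plusQF d F) := fun u v => by
  rw [polar, plusQF_apply, plusQF_apply, plusQF_apply, sympForm_apply]
  simp only [Cfsg.quadFormPlus, Pi.add_apply, ← Finset.sum_sub_distrib]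
  refine Finset.sum_congr rfl fun i _ => ?_
  have h2 : (2 : F) = 0 := CharTwo.two_eq_zero
  grind

omit [Fintype F] in
theorem bNondeg_of_polarSymp {P : QuadraticForm F (Fin d ⊕ Fin d → F)} (hP : PolarSymp P) : BNondeg P :=
  fun u hu => sympBil_nondegenerate.1 u fun v => by rw [sympBil_apply, ← hP]; exact hu v

omit [Fintype F] [CharP F 2] in
theorem finrank_space : finrank F (Fin d ⊕ Fin d → F) = 2 * d := by
  simp [Module.finrank_fintype_fun_eq_card]; omega

/-- A form polarising to `sympForm`, from the minus type. -/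
theorem exists_polarSymp_minus {m : ℕ} (hd : d = m + 1) {a b : F} (hab : BinaryAniso a b) :
    ∃ (P : QuadraticForm F (Fin d ⊕ Fin d → F)) (e : ((Fin m ⊕ Fin m) ⊕ Fin 2 → F) ≃ₗ[F] (Fin d ⊕ Fin d → F)),
      PolarSymp P ∧ (∀ v, P (e v) = minusQF m a b v) ∧
      ∀ U : Submodule F (Fin d ⊕ Fin d → F), (∀ u ∈ U, P u = 0) → finrank F U < d := by
  have hB := bNondeg_minusQF (F := F) (m := m) hab
  have hA : (polarBilin (minusQF m a b)).IsAlt := fun v => by
    rw [polarBilin_apply_apply, polar_self, two_smul, CharTwo.add_self_eq_zero]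
  have hnd : (polarBilin (minusQF m a b)).Nondegenerate :=
    ⟨fun u hu => hB u hu, fun u hu => hB u fun v => by rw [polar_comm]; exact hu v⟩
  obtain ⟨e, he⟩ := exists_equiv_sympForm hA hnd (a := d) (by
    simp [Module.finrank_fintype_fun_eq_card]; omega)
  refine ⟨(minusQF m a b).comp e.symm.toLinearMap, e, fun u v => ?_, fun v => ?_, fun U hU => ?_⟩
  · rw [← e.apply_symm_apply u, ← e.apply_symm_apply v, he, polarBilin_apply_apply]
    simp only [polar, ← map_add, QuadraticMap.comp_apply, LinearEquiv.coe_coe, LinearEquiv.symm_apply_apply]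
  · simp
  · have := finrank_le_of_vanishes_quadFormMinus hab (U.map e.symm.toLinearMap) (by
      rintro _ ⟨u, hu, rfl⟩
      rw [← minusQF_apply]
      exact hU u hu)
    rw [LinearEquiv.finrank_map_eq] at this
    omega

/-- Two forms with the same polar differ by the square of a linear form. -/
theorem exists_twist {P Q : QuadraticForm F (Fin d ⊕ Fin d → F)} (hP : PolarSymp P) (hQ : PolarSymp Q) :
    ∃ b, ∀ v, Q v = P v + sympBil d F v b ^ 2 := by
  let h : (Fin d ⊕ Fin d → F) → F := fun v => Q v - P v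
  have hadd : ∀ u v, h (u + v) = h u + h v := fun u v => by
    simp only [h, qf_add, hP u v, hQ u v]; ring
  let σ := frobeniusEquiv F 2
  let ℓ : (Fin d ⊕ Fin d → F) →ₗ[F] F :=
    { toFun := fun v => σ.symm (h v)
      map_add' := fun u v => by rw [hadd, map_add]
      map_smul' := fun c v => by
        rw [show h (c • v) = σ c * h v by
          simp only [h, QuadraticMap.map_smul, smul_eq_mul, σ, frobeniusEquiv_apply, frobenius_def]; ring,
          map_mul, RingEquiv.symm_apply_apply, RingHom.id_apply, smul_eq_mul] }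
  refine ⟨((sympBil d F).toDual sympBil_nondegenerate).symm ℓ, fun v => ?_⟩
  have h1 : sympBil d F (((sympBil d F).toDual sympBil_nondegenerate).symm ℓ) v = ℓ v :=
    LinearMap.BilinForm.apply_toDual_symm_apply ℓ v
  have h2 : ℓ v ^ 2 = Q v - P v := by
    show σ.symm (h v) ^ 2 = _
    rw [← frobenius_def 2, ← frobeniusEquiv_apply]
    exact σ.apply_symm_apply _
  rw [sympBil_comm, h1, h2]
  ring

/-- The matrix of a linear automorphism. -/
noncomputable def glOfEquiv (φ : (Fin d ⊕ Fin d → F) ≃ₗ[F] (Fin d ⊕ Fin d → F)) :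
    Matrix.GeneralLinearGroup (Fin d ⊕ Fin d) F :=
  Matrix.GeneralLinearGroup.toLin.symm ((LinearMap.GeneralLinearGroup.generalLinearEquiv F _).symm φ)

omit [Fintype F] [CharP F 2] in
theorem glOfEquiv_mulVec (φ : (Fin d ⊕ Fin d → F) ≃ₗ[F] (Fin d ⊕ Fin d → F)) (v : Fin d ⊕ Fin d → F) :
    (glOfEquiv φ : Matrix (Fin d ⊕ Fin d) (Fin d ⊕ Fin d) F) *ᵥ v = φ v := by
  show ((LinearMap.toMatrix' φ.toLinearMap) *ᵥ v) = _
  rw [LinearMap.toMatrix'_mulVec]
  rfl

omit [Fintype F] [CharP F 2] in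
theorem polar_map {P Q : QuadraticForm F (Fin d ⊕ Fin d → F)} {φ : (Fin d ⊕ Fin d → F) ≃ₗ[F] (Fin d ⊕ Fin d → F)}
    (h : ∀ v, P (φ v) = Q v) (u v : Fin d ⊕ Fin d → F) : polar P (φ u) (φ v) = polar Q u v := by
  simp only [polar, ← map_add, h]

omit [Fintype F] [CharP F 2] in
/-- An isometry of a form polarising to `sympForm` is symplectic. -/
theorem mem_spGL_of_isometry {P : QuadraticForm F (Fin d ⊕ Fin d → F)} (hP : PolarSymp P)
    {x : Matrix.GeneralLinearGroup (Fin d ⊕ Fin d) F}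
    (hx : ∀ v, P ((x : Matrix (Fin d ⊕ Fin d) (Fin d ⊕ Fin d) F) *ᵥ v) = P v) : x ∈ Cfsg.spGL d F := by
  intro u v
  show Cfsg.sympForm d F ((x : Matrix (Fin d ⊕ Fin d) (Fin d ⊕ Fin d) F) *ᵥ u)
    ((x : Matrix (Fin d ⊕ Fin d) (Fin d ⊕ Fin d) F) *ᵥ v) = _
  rw [← hP, ← hP]
  simp only [polar, ← Matrix.mulVec_add, hx]

omit [Fintype F] [CharP F 2] in
/-- A form carried to an invariant form gives a conjugate preserving it. -/
theorem exists_conj_of_equiv {P Q : QuadraticForm F (Fin d ⊕ Fin d → F)} (hP : PolarSymp P) (hQ : PolarSymp Q)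
    (φ : (Fin d ⊕ Fin d → F) ≃ₗ[F] (Fin d ⊕ Fin d → F)) (hφ : ∀ v, P (φ v) = Q v)
    {x : Matrix.GeneralLinearGroup (Fin d ⊕ Fin d) F}
    (hx : ∀ v, P ((x : Matrix (Fin d ⊕ Fin d) (Fin d ⊕ Fin d) F) *ᵥ v) = P v) :
    ∃ g ∈ Cfsg.spGL d F, ∀ v,
      Q (((g⁻¹ * x * g : Matrix.GeneralLinearGroup (Fin d ⊕ Fin d) F) : Matrix (Fin d ⊕ Fin d) (Fin d ⊕ Fin d) F) *ᵥ v) = Q v := by
  refine ⟨glOfEquiv φ, fun u v => ?_, fun v => ?_⟩
  · show Cfsg.sympForm d F ((glOfEquiv φ : Matrix (Fin d ⊕ Fin d) (Fin d ⊕ Fin d) F) *ᵥ u) _ = _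
    rw [glOfEquiv_mulVec, ← hP]
    show polar P (φ u) ((glOfEquiv φ : Matrix (Fin d ⊕ Fin d) (Fin d ⊕ Fin d) F) *ᵥ v) = _
    rw [glOfEquiv_mulVec, polar_map hφ, hQ]
  · rw [← hφ, ← glOfEquiv_mulVec φ, Matrix.mulVec_mulVec, ← Units.val_mul,
      show glOfEquiv φ * ((glOfEquiv φ)⁻¹ * x * glOfEquiv φ) = x * glOfEquiv φ by group,
      Units.val_mul, ← Matrix.mulVec_mulVec, hx, glOfEquiv_mulVec, hφ]

/-- Forms with totally singular subspaces of half dimension are equivalent. -/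
theorem exists_equiv_plus {Q : QuadraticForm F (Fin d ⊕ Fin d → F)} (hQ : PolarSymp Q)
    {U : Submodule F (Fin d ⊕ Fin d → F)} (hU : ∀ u ∈ U, Q u = 0) (hUd : finrank F U = d) :
    ∃ e : (Fin d ⊕ Fin d → F) ≃ₗ[F] (Fin d ⊕ Fin d → F), ∀ v, Q v = plusQF d F (e v) := by
  obtain ⟨m, h⟩ := exists_finite_witt_decomposition Q (fun u _ hu _ => bNondeg_of_polarSymp hQ u fun v => hu v trivial)
  rcases h with ⟨hm, e, he⟩ | ⟨hm, -⟩ | ⟨hm, a, b, hab, e, he⟩
  · rw [finrank_space] at hm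
    obtain rfl : m = d := by omega
    exact ⟨e, fun v => by rw [he, plusQF_apply]⟩
  · rw [finrank_space] at hm; omega
  · exfalso
    have := finrank_le_of_vanishes_quadFormMinus hab (U.map e.toLinearMap) (by
      rintro _ ⟨u, hu, rfl⟩
      exact (he u).symm.trans (hU u hu))
    rw [LinearEquiv.finrank_map_eq] at this
    rw [finrank_space] at hm
    omega

/-- Forms without totally singular subspaces of half dimension are equivalent to the minus form. -/
theorem exists_equiv_minus {m : ℕ} (hd : d = m + 1) {a b : F} (hab : BinaryAniso a b)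
    {Q : QuadraticForm F (Fin d ⊕ Fin d → F)} (hQ : PolarSymp Q)
    (hU : ¬ ∃ U : Submodule F (Fin d ⊕ Fin d → F), (∀ u ∈ U, Q u = 0) ∧ finrank F U = d) :
    ∃ e : (Fin d ⊕ Fin d → F) ≃ₗ[F] ((Fin m ⊕ Fin m) ⊕ Fin 2 → F), ∀ v, Q v = minusQF m a b (e v) := by
  obtain ⟨k, h⟩ := exists_finite_witt_decomposition Q (fun u _ hu _ => bNondeg_of_polarSymp hQ u fun v => hu v trivial)
  rcases h with ⟨hm, e, he⟩ | ⟨hm, -⟩ | ⟨hm, a₁, b₁, hab₁, e, he⟩
  · exfalso
    rw [finrank_space] at hm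
    obtain rfl : k = d := by omega
    obtain ⟨hT, hTd, -⟩ := totallySingular_ker_inr (F := F) (m := k)
    refine hU ⟨(LinearMap.ker (LinearMap.funLeft F F (Sum.inr : Fin k → Fin k ⊕ Fin k))).map e.symm.toLinearMap, ?_,
      by rw [LinearEquiv.finrank_map_eq, hTd]⟩
    rintro _ ⟨u, hu, rfl⟩
    rw [he, ← plusQF_apply]
    simpa using hT u hu
  · rw [finrank_space] at hm; omega
  · rw [finrank_space] at hm
    obtain rfl : k = m := by omega
    obtain ⟨T, hT⟩ := exists_quadFormMinus_equiv hab₁ hab k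
    exact ⟨e.trans T, fun v => by rw [LinearEquiv.trans_apply, minusQF_apply, hT, he]⟩

/-- An isometry fixing a non-singular vector is conjugate into the isometry group of every form
with the same polar. -/
theorem exists_conj_of_fixed_nonsingular {P Q : QuadraticForm F (Fin d ⊕ Fin d → F)} (hP : PolarSymp P)
    (hQ : PolarSymp Q) {x : Matrix.GeneralLinearGroup (Fin d ⊕ Fin d) F}
    (hx : ∀ v, P ((x : Matrix (Fin d ⊕ Fin d) (Fin d ⊕ Fin d) F) *ᵥ v) = P v) {w : Fin d ⊕ Fin d → F}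
    (hw : (x : Matrix (Fin d ⊕ Fin d) (Fin d ⊕ Fin d) F) *ᵥ w = w) (hw0 : P w ≠ 0) :
    ∃ g ∈ Cfsg.spGL d F, ∀ v,
      Q (((g⁻¹ * x * g : Matrix.GeneralLinearGroup (Fin d ⊕ Fin d) F) : Matrix (Fin d ⊕ Fin d) (Fin d ⊕ Fin d) F) *ᵥ v) = Q v := by
  classical
  obtain ⟨b, hb⟩ := exists_twist hP hQ
  obtain ⟨s, hs⟩ := FiniteField.isSquare_of_char_two (ringChar.eq F 2) (P b / P w)
  set a := s • w with ha
  have hPa : P a = P b := by
    rw [ha, QuadraticMap.map_smul, smul_eq_mul, ← hs, div_mul_cancel₀ _ hw0]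
  have hpol : ∀ u v, polar P u v = sympBil d F u v := fun u v => by rw [hP, sympBil_apply]
  let Pa : QuadraticForm F (Fin d ⊕ Fin d → F) :=
    P + QuadraticMap.linMulLin ((sympBil d F).flip a) ((sympBil d F).flip a)
  have hPa' : ∀ v, Pa v = P v + sympBil d F v a ^ 2 := fun v => by simp [Pa, pow_two]
  have hPaS : PolarSymp Pa := fun u v => by
    rw [← hP]
    simp only [polar, hPa', map_add, LinearMap.add_apply]
    have h2 : (2 : F) = 0 := CharTwo.two_eq_zero
    linear_combination sympBil d F u a * sympBil d F v a * h2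
  have hxa : (x : Matrix (Fin d ⊕ Fin d) (Fin d ⊕ Fin d) F) *ᵥ a = a := by
    rw [ha, Matrix.mulVec_smul, hw]
  have hxPa : ∀ v, Pa ((x : Matrix (Fin d ⊕ Fin d) (Fin d ⊕ Fin d) F) *ᵥ v) = Pa v := fun v => by
    rw [hPa', hPa', hx]
    congr 2
    conv_lhs => rw [← hxa]
    rw [← hpol, ← hpol]
    simp only [polar, ← Matrix.mulVec_add, hx]
  suffices h : ∃ φ : (Fin d ⊕ Fin d → F) ≃ₗ[F] (Fin d ⊕ Fin d → F), ∀ v, Pa (φ v) = Q v by
    obtain ⟨φ, hφ⟩ := h
    exact exists_conj_of_equiv hPaS hQ φ hφ hxPa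
  by_cases hb0 : P b = 0
  · have ha0 : a = 0 := by
      rw [ha]
      have : s = 0 := by rw [hb0, zero_div] at hs; simpa using hs.symm
      rw [this, zero_smul]
    let N : (Fin d ⊕ Fin d → F) →ₗ[F] (Fin d ⊕ Fin d → F) := ((sympBil d F).flip b).smulRight b
    have hNN : ∀ v, N (N v) = 0 := fun v => by
      simp [N, LinearMap.smulRight_apply, sympBil_isAlt.self_eq_zero]
    have hN : ∀ v, N v = sympBil d F v b • b := fun v => rfl
    let φ : (Fin d ⊕ Fin d → F) ≃ₗ[F] (Fin d ⊕ Fin d → F) :=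
      LinearEquiv.ofInjectiveEndo (LinearMap.id + N) ((injective_iff_map_eq_zero _).2 fun v hv => by
        have h1 := congrArg N hv
        simp [hNN] at h1
        simpa [h1] using hv)
    refine ⟨φ, fun v => ?_⟩
    show Pa (v + N v) = Q v
    rw [hPa', ha0, map_zero, hb, hN, qf_add, QuadraticMap.map_smul, hb0, polar_smul_right, hpol]
    simp [pow_two]
  · have hbne : b ≠ 0 := fun h => hb0 (by rw [h, map_zero])
    have hane : a ≠ 0 := fun h => hb0 (by rw [← hPa, h, map_zero])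
    have hnd : (polarBilin P).Nondegenerate :=
      ⟨fun u hu => bNondeg_of_polarSymp hP u hu, fun u hu => bNondeg_of_polarSymp hP u fun v => by
        rw [polar_comm]; exact hu v⟩
    obtain ⟨φ, hφ, hφb⟩ := witt_extension_quad_nondeg hnd (F ∙ b) (F ∙ a)
      ((LinearEquiv.toSpanNonzeroSingleton F _ b hbne).symm.trans (LinearEquiv.toSpanNonzeroSingleton F _ a hane))
      (by
        rintro ⟨z, hz⟩
        obtain ⟨c, rfl⟩ := Submodule.mem_span_singleton.1 hz
        rw [show (⟨c • b, hz⟩ : F ∙ b) = LinearEquiv.toSpanNonzeroSingleton F _ b hbne c from rfl,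
          LinearEquiv.trans_apply, LinearEquiv.symm_apply_apply]
        show P (c • a) = P (c • b)
        rw [QuadraticMap.map_smul P c a, QuadraticMap.map_smul P c b, hPa])
    have hφb' : φ b = a := by
      have h := hφb ⟨b, Submodule.mem_span_singleton_self b⟩
      rw [show (⟨b, Submodule.mem_span_singleton_self b⟩ : F ∙ b) = LinearEquiv.toSpanNonzeroSingleton F _ b hbne 1 from
        Subtype.ext (one_smul F b).symm, LinearEquiv.trans_apply, LinearEquiv.symm_apply_apply] at h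
      simpa using h
    refine ⟨φ, fun v => ?_⟩
    rw [hPa', hb, hφ, ← hφb', ← hpol, polar_map hφ, hpol]

/-- An involution of the symplectic group preserves a form polarising to `sympForm`. -/
theorem exists_invariant_form {Q : QuadraticForm F (Fin d ⊕ Fin d → F)} (hQ : PolarSymp Q)
    {x : Matrix.GeneralLinearGroup (Fin d ⊕ Fin d) F} (hx : x ∈ Cfsg.spGL d F)
    (hinv : ∀ v, (x : Matrix (Fin d ⊕ Fin d) (Fin d ⊕ Fin d) F) *ᵥ ((x : Matrix (Fin d ⊕ Fin d) (Fin d ⊕ Fin d) F) *ᵥ v) = v) :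
    ∃ P : QuadraticForm F (Fin d ⊕ Fin d → F), PolarSymp P ∧
      ∀ v, P ((x : Matrix (Fin d ⊕ Fin d) (Fin d ⊕ Fin d) F) *ᵥ v) = P v := by
  classical
  set M := (x : Matrix (Fin d ⊕ Fin d) (Fin d ⊕ Fin d) F)
  have h2 : (2 : F) = 0 := CharTwo.two_eq_zero
  have hxB : ∀ u v, sympBil d F (M *ᵥ u) (M *ᵥ v) = sympBil d F u v := fun u v => by
    rw [sympBil_apply, sympBil_apply]; exact hx u v
  have hQ' : PolarSymp (Q.comp (Matrix.toLin' M)) := fun u v => by
    simp only [polar, QuadraticMap.comp_apply, Matrix.toLin'_apply, Matrix.mulVec_add]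
    rw [← sympBil_apply, ← hxB, sympBil_apply, ← hQ]
    rfl
  obtain ⟨b, hb⟩ := exists_twist hQ hQ'
  simp only [QuadraticMap.comp_apply, Matrix.toLin'_apply] at hb
  obtain ⟨a, ha⟩ : ∃ a, M *ᵥ a + a = b := by
    by_contra hno
    obtain ⟨ℓ, hℓb, hℓ⟩ := Submodule.exists_dual_map_eq_bot_of_notMem (x := b)
      (p := LinearMap.range (Matrix.toLin' M + LinearMap.id)) (by
        rintro ⟨a, ha⟩; exact hno ⟨a, ha⟩) inferInstance
    set w := ((sympBil d F).toDual sympBil_nondegenerate).symm ℓ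
    have hw : ∀ v, sympBil d F w v = ℓ v := fun v => LinearMap.BilinForm.apply_toDual_symm_apply ℓ v
    have hw0 : ∀ v, ℓ (M *ᵥ v + v) = 0 := fun v => by
      have hm : ℓ (M *ᵥ v + v) ∈ (LinearMap.range (Matrix.toLin' M + LinearMap.id)).map ℓ := ⟨_, ⟨v, rfl⟩, rfl⟩
      rwa [hℓ, Submodule.mem_bot] at hm
    have hfix : M *ᵥ w = w := by
      have h : M *ᵥ w + w = 0 := sympBil_nondegenerate.1 _ fun v => by
        rw [map_add, LinearMap.add_apply]
        conv_lhs => arg 1; rw [← hinv v, hxB]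
        rw [hw, hw, ← map_add, hw0]
      have := eq_neg_of_add_eq_zero_left h
      rwa [show -w = w from funext fun i => CharTwo.neg_eq (w i)] at this
    have h0 := hb w
    rw [hfix, left_eq_add, pow_eq_zero_iff two_ne_zero, hw] at h0
    exact hℓb h0
  refine ⟨Q + QuadraticMap.linMulLin ((sympBil d F).flip a) ((sympBil d F).flip a), fun u v => ?_, fun v => ?_⟩
  · have hap : ∀ v, (Q + QuadraticMap.linMulLin ((sympBil d F).flip a) ((sympBil d F).flip a)) v =
        Q v + sympBil d F v a * sympBil d F v a := fun v => rfl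
    rw [← hQ]
    simp only [polar, hap, map_add, LinearMap.add_apply]
    linear_combination sympBil d F u a * sympBil d F v a * h2
  · show Q (M *ᵥ v) + sympBil d F (M *ᵥ v) a * sympBil d F (M *ᵥ v) a = Q v + sympBil d F v a * sympBil d F v a
    have h1 : sympBil d F (M *ᵥ v) a = sympBil d F v (M *ᵥ a) := by rw [← hxB, hinv]
    rw [hb, h1, ← ha, map_add]
    linear_combination (sympBil d F v (M *ᵥ a) ^ 2 + sympBil d F v (M *ᵥ a) * sympBil d F v a) * h2

/-- A form left invariant by an element with singular fixed vectors only. -/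
theorem exists_equiv_of_invariant {P Q : QuadraticForm F (Fin d ⊕ Fin d → F)} (hP : PolarSymp P)
    (hQ : PolarSymp Q) {M : Matrix (Fin d ⊕ Fin d) (Fin d ⊕ Fin d) F}
    (hMP : ∀ v, P (M *ᵥ v) = P v) (hMQ : ∀ v, Q (M *ᵥ v) = Q v)
    (hsurj : ∀ w, ∃ v, M *ᵥ v = w) (hS : ∀ v, M *ᵥ v = v → P v = 0) :
    ∃ φ : (Fin d ⊕ Fin d → F) ≃ₗ[F] (Fin d ⊕ Fin d → F), ∀ v, P (φ v) = Q v := by
  obtain ⟨b, hb⟩ := exists_twist hP hQ
  have hpol : ∀ u v, polar P u v = sympBil d F u v := fun u v => by rw [hP, sympBil_apply]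
  have hfix : M *ᵥ b = b := by
    refine sub_eq_zero.1 (sympBil_nondegenerate.1 _ fun w => ?_)
    obtain ⟨v, rfl⟩ := hsurj w
    rw [sympBil_comm, map_sub, sub_eq_zero]
    have h := hMQ v
    rw [hb, hb, hMP, add_right_inj, CharTwo.sq_inj] at h
    rw [h, ← hpol, ← hpol]
    simp only [polar, ← Matrix.mulVec_add, hMP]
  have hb0 := hS b hfix
  let N : (Fin d ⊕ Fin d → F) →ₗ[F] (Fin d ⊕ Fin d → F) := ((sympBil d F).flip b).smulRight b
  have hNN : ∀ v, N (N v) = 0 := fun v => by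
    simp [N, LinearMap.smulRight_apply, sympBil_isAlt.self_eq_zero]
  refine ⟨LinearEquiv.ofInjectiveEndo (LinearMap.id + N) ((injective_iff_map_eq_zero _).2 fun v hv => by
    have h1 := congrArg N hv
    simp [hNN] at h1
    simpa [h1] using hv), fun v => ?_⟩
  show P (v + sympBil d F v b • b) = Q v
  rw [hb, qf_add, QuadraticMap.map_smul, hb0, polar_smul_right, hpol]
  simp [pow_two]

end Cfsg.Agent.Elusive25
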