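import Cfsg.Agent.GeoClasses.UnitBase
import Cfsg.Agent.Classical.UGroup
import Cfsg.Agent.Forms.UnitaryGeom
import Cfsg.Agent.Elusive25.SelfDual

/-!
Elements of `SL_n(q₀²)` conjugate into the similitudes of a hermitian form.
-/

set_option autoImplicit false

namespace Cfsg.Agent.Elusive25

open Module Matrix Cfsg.Agent.GeoClasses
open Cfsg.Agent.Classical.U (SqField UG SUG glEquiv herm)

variable {F : Type*} [Field F] [Fintype F] {n q : ℕ}

/-- The similitude condition for the standard hermitian form. -/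
def IsHermSim (q : ℕ) (X : GL (Fin n) F) (c : F) : Prop :=
  ∀ u v, Cfsg.hermForm n F q ((X : Matrix (Fin n) (Fin n) F) *ᵥ u) ((X : Matrix (Fin n) (Fin n) F) *ᵥ v) =
    c * Cfsg.hermForm n F q u v

/-- A change of basis to the standard hermitian form. -/
theorem exists_hermBasis (hF : SqField F q) {f : (Fin n → F) → (Fin n → F) → F}
    (hf : Cfsg.Geo.IsUnitaryFormPow q f) :
    ∃ D : GL (Fin n) F, ∀ u v, f ((D : Matrix (Fin n) (Fin n) F) *ᵥ u) ((D : Matrix (Fin n) (Fin n) F) *ᵥ v) =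
      Cfsg.hermForm n F q u v := by
  have hfu : Cfsg.Geo.IsUnitaryForm (qConj hF) f :=
    ⟨qConj_ne hF, qConj_invol hF, hf.add_left, hf.smul_left, fun v w => hf.herm v w, hf.nondegenerate⟩
  have he := unitaryForm_eq_formOf hfu
  set J := Cfsg.Geo.gramMatrix f
  have hJ : IsUnit J := isUnit_of_isNondegenerateForm (σ := qConj hF) (he ▸ hf.nondegenerate)
  have hstar : starMat (qConj hF) J = J := by
    refine formOf_injective (σ := qConj hF) fun u v => ?_
    rw [← he, hfu.herm u v, he, formOf_star (qConj_invol hF)]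
  obtain ⟨D, hD⟩ := exists_congr_one (qConj_invol hF) (qConj_ne hF) hJ hstar
  exact ⟨D, fun u v => by rw [he, formOf_mulVec, hD, hermForm_eq_formOf hF]⟩

omit [Fintype F] in
/-- A conjugate that is a similitude of the standard form gives a conjugate by an element of determinant one in the
similarity group of any form equivalent to it. -/
theorem exists_conj_of_hermSim {f : (Fin n → F) → (Fin n → F) → F} {D : GL (Fin n) F}
    (hD : ∀ u v, f ((D : Matrix (Fin n) (Fin n) F) *ᵥ u) ((D : Matrix (Fin n) (Fin n) F) *ᵥ v) =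
      Cfsg.hermForm n F q u v)
    {x : GL (Fin n) F} (P : GL (Fin n) F) {c : F} (hc : c ≠ 0) (hX : IsHermSim q (P * x * P⁻¹) c)
    (hdet : ∀ t : F, t ≠ 0 → ∃ y : Module.End F (Fin n → F),
      y * Matrix.toLin' (x : Matrix (Fin n) (Fin n) F) = Matrix.toLin' (x : Matrix (Fin n) (Fin n) F) * y ∧
        LinearMap.det y = t) :
    ∃ g ∈ Cfsg.Geo.specialLinear (Fin n) F, g⁻¹ * x * g ∈ Cfsg.Geo.similarityGroup f := by
  have hne : ((D : Matrix (Fin n) (Fin n) F) * P).det ≠ 0 := (Matrix.GeneralLinearGroup.det (D * P)).ne_zero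
  obtain ⟨y, hy, hyd⟩ := hdet _ (inv_ne_zero hne)
  have hyd' : (LinearMap.toMatrix' y).det = (((D : Matrix (Fin n) (Fin n) F) * P).det)⁻¹ := by
    rw [LinearMap.det_toMatrix', hyd]
  let Y : GL (Fin n) F := Matrix.GeneralLinearGroup.mkOfDetNeZero (LinearMap.toMatrix' y)
    (hyd'.trans_ne (inv_ne_zero hne))
  have hYx : Y * x = x * Y := by
    refine Units.ext ?_
    show LinearMap.toMatrix' y * (x : Matrix (Fin n) (Fin n) F) = (x : Matrix (Fin n) (Fin n) F) * LinearMap.toMatrix' y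
    have := congrArg LinearMap.toMatrix' hy
    rwa [LinearMap.toMatrix'_mul, LinearMap.toMatrix'_mul, LinearMap.toMatrix'_toLin'] at this
  refine ⟨(D * P * Y)⁻¹, inv_mem (Units.ext ?_), Units.mk0 c hc, fun u v => ?_⟩
  · show (((D * P * Y : GL (Fin n) F)) : Matrix (Fin n) (Fin n) F).det = 1
    rw [Units.val_mul, Units.val_mul, Matrix.det_mul]
    show _ * (LinearMap.toMatrix' y).det = 1
    rw [hyd', mul_inv_cancel₀ hne]
  · have e : (D * P * Y)⁻¹⁻¹ * x * (D * P * Y)⁻¹ = D * (P * x * P⁻¹) * D⁻¹ := by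
      rw [inv_inv, _root_.mul_inv_rev, _root_.mul_inv_rev]
      calc D * P * Y * x * (Y⁻¹ * (P⁻¹ * D⁻¹)) = D * P * (Y * x) * Y⁻¹ * P⁻¹ * D⁻¹ := by group
        _ = D * P * (x * Y) * Y⁻¹ * P⁻¹ * D⁻¹ := by rw [hYx]
        _ = _ := by group
    have hrec : ∀ w, w = (D : Matrix (Fin n) (Fin n) F) *ᵥ (((D⁻¹ : GL (Fin n) F) : Matrix (Fin n) (Fin n) F) *ᵥ w) :=
      fun w => by rw [Matrix.mulVec_mulVec, ← Units.val_mul, mul_inv_cancel, Units.val_one, Matrix.one_mulVec]
    rw [e, Units.val_mul, Units.val_mul, Units.val_mk0, ← Matrix.mulVec_mulVec, ← Matrix.mulVec_mulVec,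
      ← Matrix.mulVec_mulVec, ← Matrix.mulVec_mulVec, hD, hX, ← hD, ← hrec, ← hrec]

omit [Fintype F] in
/-- An element conjugate into the similarity group is conjugate to a similitude of the standard form. -/
theorem exists_hermSim_of_conj {f : (Fin n → F) → (Fin n → F) → F} {D : GL (Fin n) F}
    (hD : ∀ u v, f ((D : Matrix (Fin n) (Fin n) F) *ᵥ u) ((D : Matrix (Fin n) (Fin n) F) *ᵥ v) =
      Cfsg.hermForm n F q u v)
    {x g : GL (Fin n) F} (h : g⁻¹ * x * g ∈ Cfsg.Geo.similarityGroup f) :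
    ∃ (P : GL (Fin n) F) (c : F), c ≠ 0 ∧ IsHermSim q (P * x * P⁻¹) c := by
  obtain ⟨c, hc⟩ := h
  refine ⟨D⁻¹ * g⁻¹, c, c.ne_zero, fun u v => ?_⟩
  rw [← hD, show D⁻¹ * g⁻¹ * x * (D⁻¹ * g⁻¹)⁻¹ = D⁻¹ * (g⁻¹ * x * g) * D by group, Units.val_mul _ D,
    ← Matrix.mulVec_mulVec, ← Matrix.mulVec_mulVec, Units.val_mul D⁻¹]
  simp only [← Matrix.mulVec_mulVec]
  rw [Matrix.mulVec_mulVec _ (D : Matrix (Fin n) (Fin n) F) ((D⁻¹ : GL (Fin n) F) : Matrix (Fin n) (Fin n) F),
    Matrix.mulVec_mulVec _ (D : Matrix (Fin n) (Fin n) F) ((D⁻¹ : GL (Fin n) F) : Matrix (Fin n) (Fin n) F),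
    ← Units.val_mul D D⁻¹, mul_inv_cancel, Units.val_one, Matrix.one_mulVec, Matrix.one_mulVec, hc, hD]

/-- The multiplier of a similitude lies in the fixed field and its `k`th power is determined by `X ^ k`. -/
theorem hermSim_pow (hF : SqField F q) (hn : 0 < n) {X : GL (Fin n) F} {c : F} (h : IsHermSim q X c) :
    c ^ q = c ∧ ∀ (k : ℕ) (z : F), ((X ^ k : GL (Fin n) F) : Matrix (Fin n) (Fin n) F) = z • 1 → c ^ k = z ^ (q + 1) := by
  set e : Fin n → F := Pi.single ⟨0, hn⟩ 1
  have he : Cfsg.hermForm n F q e e = 1 := by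
    rw [Cfsg.hermForm, Finset.sum_eq_single ⟨0, hn⟩]
    · simp [e]
    · intro j _ hj; simp [e, hj]
    · exact fun h => absurd (Finset.mem_univ _) h
  have hit : ∀ (k : ℕ) u v, Cfsg.hermForm n F q (((X ^ k : GL (Fin n) F) : Matrix (Fin n) (Fin n) F) *ᵥ u)
      (((X ^ k : GL (Fin n) F) : Matrix (Fin n) (Fin n) F) *ᵥ v) = c ^ k * Cfsg.hermForm n F q u v := by
    intro k
    induction k with
    | zero => intro u v; simp
    | succ k ih =>
      intro u v
      rw [pow_succ', Units.val_mul, ← Matrix.mulVec_mulVec, ← Matrix.mulVec_mulVec, h, ih]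
      ring
  refine ⟨?_, fun k z hz => ?_⟩
  · have h1 := h e e
    rw [he, mul_one] at h1
    rw [← h1]
    exact hF.herm_symm _ _
  · have h1 := hit k e e
    rw [he, hz, mul_one, Matrix.smul_mulVec, Matrix.one_mulVec] at h1
    rw [← h1, show Cfsg.hermForm n F q (z • e) (z • e) = z * z ^ q * Cfsg.hermForm n F q e e from ?_, he, mul_one,
      pow_succ']
    simp only [Cfsg.hermForm, Pi.smul_apply, smul_eq_mul, mul_pow, Finset.mul_sum]
    exact Finset.sum_congr rfl fun i _ => by ring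

/-- A basis change with prescribed invariant Gram matrix. -/
theorem exists_hermSim_of_gram (hF : SqField F q) {x : GL (Fin n) F} (b : Basis (Fin n) F (Fin n → F))
    (M : Matrix (Fin n) (Fin n) F)
    (hb : ∀ i, (x : Matrix (Fin n) (Fin n) F) *ᵥ b i = ∑ j, M j i • b j)
    (J : Matrix (Fin n) (Fin n) F) (hJ : IsUnit J) (hherm : starMat (qConj hF) J = J) {c : F}
    (hM : adjForm (qConj hF) J M = c • J) : ∃ P : GL (Fin n) F, IsHermSim q (P * x * P⁻¹) c := by
  obtain ⟨D, hD⟩ := exists_congr_one (qConj_invol hF) (qConj_ne hF) hJ hherm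
  set Bm : Matrix (Fin n) (Fin n) F := (Pi.basisFun F (Fin n)).toMatrix b
  let Bu : GL (Fin n) F := ⟨Bm, b.toMatrix (Pi.basisFun F (Fin n)), Basis.toMatrix_mul_toMatrix_flip _ _,
    Basis.toMatrix_mul_toMatrix_flip _ _⟩
  have hBM : (x : Matrix (Fin n) (Fin n) F) * Bm = Bm * M := by
    ext i j
    have := congrFun (hb j) i
    simpa [Bm, Matrix.mul_apply, Matrix.mulVec, dotProduct, Basis.toMatrix_apply, Finset.sum_apply, mul_comm] using this
  refine ⟨D⁻¹ * Bu⁻¹, fun u v => ?_⟩
  have hconj : (((Bu⁻¹ * x * Bu : GL (Fin n) F)) : Matrix (Fin n) (Fin n) F) = M := by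
    rw [Units.val_mul, Units.val_mul, Matrix.mul_assoc]
    show ((Bu⁻¹ : GL (Fin n) F) : Matrix (Fin n) (Fin n) F) * ((x : Matrix (Fin n) (Fin n) F) * Bm) = M
    rw [hBM, ← Matrix.mul_assoc, show Bm = (Bu : Matrix (Fin n) (Fin n) F) from rfl, ← Units.val_mul, inv_mul_cancel,
      Units.val_one, Matrix.one_mul]
  rw [show D⁻¹ * Bu⁻¹ * x * (D⁻¹ * Bu⁻¹)⁻¹ = D⁻¹ * (Bu⁻¹ * x * Bu) * D by group, hermForm_eq_formOf hF,
    formOf_mulVec, ← formOf_smul]
  congr 1
  rw [Units.val_mul, Units.val_mul, hconj, adjForm_mul, adjForm_mul,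
    show adjForm (qConj hF) 1 ((D⁻¹ : GL (Fin n) F) : Matrix (Fin n) (Fin n) F) = J by
      rw [← hD, ← adjForm_mul, ← Units.val_mul, mul_inv_cancel, Units.val_one, adjForm_one],
    hM, adjForm_smul_left, hD]

/-- A map with square `w²` is conjugate to a similitude. -/
theorem exists_hermSim_of_sq (hF : SqField F q) (hn : 0 < n) {x : GL (Fin n) F} {w : F} (hw : w ≠ 0)
    (hx : ∀ v, (x : Matrix (Fin n) (Fin n) F) *ᵥ ((x : Matrix (Fin n) (Fin n) F) *ᵥ v) = (w * w) • v) :
    ∃ (P : GL (Fin n) F) (c : F), c ≠ 0 ∧ IsHermSim q (P * x * P⁻¹) c ∧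
      ∀ t : F, t ≠ 0 → ∃ y : Module.End F (Fin n → F),
        y * Matrix.toLin' (x : Matrix (Fin n) (Fin n) F) = Matrix.toLin' (x : Matrix (Fin n) (Fin n) F) * y ∧
          LinearMap.det y = t := by
  classical
  set f : Module.End F (Fin n → F) := Matrix.toLin' (x : Matrix (Fin n) (Fin n) F) with hf
  obtain ⟨ι, _, v₀, π₀, hli, hsp, hπ₀, hb₀⟩ := Elusive.exists_monomial_basis f (mul_ne_zero hw hw)
    (fun v => by simpa [hf, Matrix.toLin'_apply] using hx v)
  choose a₀ ha₀ using fun i => Submodule.mem_span_singleton.1 (hb₀ i)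
  let b₀ : Basis ι F (Fin n → F) := Basis.mk hli (top_le_iff.2 hsp)
  let e : ι ≃ Fin n := Fintype.equivFinOfCardEq (by rw [← Module.finrank_eq_card_basis b₀, Module.finrank_fin_fun])
  let b : Basis (Fin n) F (Fin n → F) := b₀.reindex e
  let π : Fin n → Fin n := fun i => e (π₀ (e.symm i))
  let a : Fin n → F := fun i => a₀ (e.symm i)
  have hπ : ∀ i, π (π i) = i := fun i => by simp [π, hπ₀]
  have hfb : ∀ i, f (b i) = a i • b (π i) := fun i => by simp [b, b₀, π, a, ha₀]
  have haa : ∀ i, a i * a (π i) = w * w := fun i => by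
    have h := hx (b i)
    rw [← Matrix.toLin'_apply, ← Matrix.toLin'_apply, ← hf, hfb, map_smul, hfb, hπ, smul_smul] at h
    exact smul_left_injective F (b.ne_zero i) h
  have haa0 : ∀ i, a i * a (π i) ≠ 0 := fun i => by rw [haa]; exact mul_ne_zero hw hw
  have ha0 : ∀ i, a i ≠ 0 := fun i h => haa0 i (by rw [h, zero_mul])
  have N_mul : ∀ s t : F, s ^ (q + 1) * t ^ (q + 1) = (s * t) ^ (q + 1) := fun s t => (mul_pow s t _).symm
  have hfix : ∀ i, π i = i → a i ^ (q + 1) = w ^ (q + 1) := fun i hi => by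
    have := haa i
    rw [hi] at this
    rcases mul_self_eq_mul_self_iff.1 this with h | h
    · rw [h]
    · rw [h, pow_succ, pow_succ, hF.neg_pow, neg_mul_neg]
  set c := w ^ (q + 1) with hc
  let d : Fin n → F := fun i => if i ≤ π i then 1 else c / a (π i) ^ (q + 1)
  have hd : ∀ i, a i ^ (q + 1) * d (π i) = c * d i := fun i => by
    simp only [d, hπ]
    rcases lt_trichotomy i (π i) with h | h | h
    · rw [if_neg (not_le.2 h), if_pos h.le, mul_one, mul_div_cancel₀ _ (pow_ne_zero _ (ha0 i))]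
    · rw [← h, if_pos le_rfl, mul_one, mul_one, hfix i h.symm]
    · rw [if_pos h.le, if_neg (not_le.2 h), mul_one, eq_comm, mul_div_assoc', div_eq_iff (pow_ne_zero _ (ha0 _)),
        N_mul, N_mul, haa]
  have hcq : ∀ s : F, (s ^ (q + 1)) ^ q = s ^ (q + 1) := fun s => by
    rw [pow_succ, mul_pow, hF.pow_pow, mul_comm]
  have hd0 : ∀ i, d i ≠ 0 := fun i => by
    simp only [d]
    split_ifs
    · exact one_ne_zero
    · exact div_ne_zero (pow_ne_zero _ hw) (pow_ne_zero _ (ha0 _))
  obtain ⟨P, hP⟩ := exists_hermSim_of_gram hF (x := x) b (Matrix.of fun k i => if k = π i then a i else 0)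
    (fun i => by
      rw [← Matrix.toLin'_apply, ← hf, hfb, Finset.sum_eq_single (π i)]
      · simp
      · intro j _ hj; simp [hj]
      · exact fun h => absurd (Finset.mem_univ _) h)
    (Matrix.diagonal d)
    ((Matrix.isUnit_iff_isUnit_det _).2 (isUnit_iff_ne_zero.2 (by
      rw [Matrix.det_diagonal]; exact Finset.prod_ne_zero_iff.2 fun i _ => hd0 i)))
    (by
      rw [starMat, Matrix.diagonal_map (map_zero (qConj hF)), Matrix.diagonal_transpose]
      congr 1
      funext i
      show d i ^ q = d i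
      simp only [d]
      split_ifs
      · exact one_pow q
      · rw [div_pow, hc, hcq, hcq])
    (c := c) (by
      ext i j
      rw [adjForm, Matrix.mul_assoc, Matrix.mul_apply, Finset.sum_eq_single (π i)]
      · rw [Matrix.transpose_apply, Matrix.diagonal_mul, Matrix.map_apply, Matrix.smul_apply, Matrix.diagonal_apply,
          Matrix.of_apply, Matrix.of_apply, if_pos rfl, smul_eq_mul]
        by_cases hij : i = j
        · subst hij
          rw [if_pos rfl, if_pos rfl, qConj_apply, ← hd]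
          ring
        · rw [if_neg hij, if_neg (fun h => hij (by rw [← hπ i, h, hπ])), map_zero, mul_zero, mul_zero, mul_zero]
      · intro k _ hk
        rw [Matrix.transpose_apply, Matrix.of_apply, if_neg hk, zero_mul]
      · exact fun h => absurd (Finset.mem_univ _) h)
  have : Nonempty (Fin n) := ⟨⟨0, hn⟩⟩
  exact ⟨P, c, pow_ne_zero _ hw, hP, fun t _ => Elusive.exists_commute_det b π hπ a hfb haa0 t⟩

/-- Primes in the index of the similitudes. -/
theorem dvd_index_unitary (hF : SqField F q) (hn : 0 < n) {f : (Fin n → F) → (Fin n → F) → F} {D : GL (Fin n) F}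
    (hD : ∀ u v, f ((D : Matrix (Fin n) (Fin n) F) *ᵥ u) ((D : Matrix (Fin n) (Fin n) F) *ᵥ v) =
      Cfsg.hermForm n F q u v) {r : ℕ} (hr : r.Prime) (hrq : ¬ r ∣ q)
    (hdvd : r ∣ (Cfsg.Geo.similarityGroup f).relIndex (Cfsg.Geo.specialLinear (Fin n) F)) :
    ∃ k, 1 ≤ k ∧ k < n ∧ r ∣ (if Even k then q ^ (k + 1) - 1 else q ^ (k + 1) + 1) := by
  classical
  have : Nonempty (Fin n) := ⟨⟨0, hn⟩⟩
  set S := Cfsg.Geo.specialLinear (Fin n) F
  set H := (Cfsg.Geo.similarityGroup f).subgroupOf S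
  let φ : SUG n F q →* GL (Fin n) F :=
    (MulAut.conj D).toMonoidHom.comp ((glEquiv n F).symm.toMonoidHom.comp
      ((UG n F q).subtype.comp (SUG n F q).subtype))
  have hφ : ∀ g, φ g ∈ S ∧ φ g ∈ Cfsg.Geo.similarityGroup f := fun g => by
    obtain ⟨a, ha⟩ := (glEquiv n F).surjective (g.1.1)
    have hφg : φ g = D * a * D⁻¹ := by
      show D * (glEquiv n F).symm g.1.1 * D⁻¹ = _
      rw [← ha, MulEquiv.symm_apply_apply]
    rw [hφg]
    refine ⟨?_, 1, fun u v => ?_⟩
    · have h1 : LinearEquiv.det (glEquiv n F a) = 1 := by rw [ha]; exact g.2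
      rw [Classical.U.det_glEquiv] at h1
      show Matrix.GeneralLinearGroup.det (D * a * D⁻¹) = 1
      rw [map_mul, map_mul, h1, mul_one, ← map_mul, mul_inv_cancel, map_one]
    · have hrec : ∀ w, w = (D : Matrix (Fin n) (Fin n) F) *ᵥ (((D⁻¹ : GL (Fin n) F) : Matrix (Fin n) (Fin n) F) *ᵥ w) :=
        fun w => by rw [Matrix.mulVec_mulVec, ← Units.val_mul, mul_inv_cancel, Units.val_one, Matrix.one_mulVec]
      rw [Units.val_mul, Units.val_mul, Units.val_one, one_mul, ← Matrix.mulVec_mulVec, ← Matrix.mulVec_mulVec,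
        ← Matrix.mulVec_mulVec, ← Matrix.mulVec_mulVec, hD]
      have h1 := Classical.U.UG_app g.1 (((D⁻¹ : GL (Fin n) F) : Matrix (Fin n) (Fin n) F) *ᵥ u)
        (((D⁻¹ : GL (Fin n) F) : Matrix (Fin n) (Fin n) F) *ᵥ v)
      rw [← ha] at h1
      rw [← hD] at *
      simp only [Classical.U.glEquiv_apply] at h1
      refine Eq.trans ?_ (congrArg₂ f (hrec u).symm (hrec v).symm)
      rw [hD, hD]
      exact h1
  let ψ : SUG n F q →* H :=
    { toFun := fun g => ⟨⟨φ g, (hφ g).1⟩, (hφ g).2⟩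
      map_one' := Subtype.ext (Subtype.ext (map_one _))
      map_mul' := fun g h => Subtype.ext (Subtype.ext (map_mul _ _ _)) }
  have hψ : Function.Injective ψ := fun g h e =>
    Subtype.ext (Subtype.ext ((glEquiv n F).symm.injective
      ((MulAut.conj D).injective (congrArg (fun z : H => ((z.1 : S) : GL (Fin n) F)) e))))
  have hkH : Nat.card (SUG n F q) ∣ Nat.card H := Subgroup.card_dvd_of_injective ψ hψ
  have hcard : Fintype.card F = q ^ 2 := by rw [← Nat.card_eq_fintype_card]; exact hF.2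
  have hS : Nat.card (GL (Fin n) F) = Nat.card S * (Fintype.card F - 1) := by
    rw [← Subgroup.card_mul_index S]
    congr 1
    show ((Matrix.GeneralLinearGroup.det : GL (Fin n) F →* Fˣ).ker).index = _
    rw [Linear.index_ker_det, Nat.card_units, Nat.card_eq_fintype_card]
  obtain ⟨s, hs⟩ := card_GL_prod (F := F) n
  have hdiv : r * Nat.card (UG n F q) * (Fintype.card F - 1) ∣ (q + 1) * Nat.card (GL (Fin n) F) := by
    rw [← Classical.U.card_SUG hF hn, hS, ← H.card_mul_index]
    calc r * ((q + 1) * Nat.card (SUG n F q)) * (Fintype.card F - 1)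
        = (q + 1) * (Nat.card (SUG n F q) * r * (Fintype.card F - 1)) := by ring
      _ ∣ _ := mul_dvd_mul_left _ (mul_dvd_mul_right (mul_dvd_mul hkH hdvd) _)
  have hq1 := hF.one_lt
  set A : ℕ → ℕ := fun i => if Even i then q ^ (i + 1) + 1 else q ^ (i + 1) - 1 with hA
  set B : ℕ → ℕ := fun i => if Even i then q ^ (i + 1) - 1 else q ^ (i + 1) + 1 with hB
  have hAB : ∀ i, (q ^ 2) ^ (i + 1) - 1 = A i * B i := fun i => by
    rw [← pow_mul, mul_comm 2, pow_mul, ← one_pow 2, Nat.sq_sub_sq, one_pow]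
    simp only [hA, hB]
    split_ifs <;> ring
  obtain ⟨N, rfl⟩ : ∃ N, n = N + 1 := ⟨n - 1, by omega⟩
  rw [hs, hcard, Classical.U.card_UG hF, Finset.prod_congr rfl fun i _ => hAB i, Finset.prod_mul_distrib,
    ← hA] at hdiv
  have hB0 : B 0 = q - 1 := by simp [hB]
  rw [Finset.prod_range_succ' B, hB0] at hdiv
  have hfac : q ^ 2 - 1 = (q + 1) * (q - 1) := by rw [← Nat.sq_sub_sq, one_pow]
  rw [hfac] at hdiv
  have hpos : 0 < (q + 1) * (q - 1) * ∏ i ∈ Finset.range (N + 1), A i := by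
    refine Nat.mul_pos (Nat.mul_pos (Nat.succ_pos _) (by omega)) (Finset.prod_pos fun i _ => ?_)
    simp only [hA]
    split_ifs
    · exact Nat.succ_pos _
    · exact Nat.sub_pos_of_lt (Nat.one_lt_pow (by omega) hq1)
  have h' : r * q ^ ((N + 1) * (N + 1 - 1) / 2) * ((q + 1) * (q - 1) * ∏ i ∈ Finset.range (N + 1), A i) ∣
      (q ^ 2) ^ s * (∏ i ∈ Finset.range N, B (i + 1)) * ((q + 1) * (q - 1) * ∏ i ∈ Finset.range (N + 1), A i) := by
    convert hdiv using 1 <;> ring
  rcases hr.dvd_mul.1 ((dvd_mul_right r _).trans (Nat.dvd_of_mul_dvd_mul_right hpos h')) with h | h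
  · exact absurd (hr.dvd_of_dvd_pow (hr.dvd_of_dvd_pow h)) hrq
  · obtain ⟨k, hk, hk'⟩ := (Prime.dvd_finsetProd_iff hr.prime _).1 h
    exact ⟨k + 1, by omega, by have := Finset.mem_range.1 hk; omega, by simpa only [hB] using hk'⟩

/-- An isometry of order `r` with a fixed space of codimension `e` gives one of dimension `e`. -/
theorem dvd_card_UG_of_fixed (hF : SqField F q) {r e : ℕ} (hr : r.Prime) (hrF : (r : F) ≠ 0) (he : 0 < e)
    {X : GL (Fin n) F} (hX : IsHermSim q X 1) (hXr : X ^ r = 1)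
    (hfix : finrank F (LinearMap.ker (Matrix.toLin' (X : Matrix (Fin n) (Fin n) F) - 1)) + e = n) :
    r ∣ Nat.card (UG e F q) := by
  set f : Module.End F (Fin n → F) := Matrix.toLin' (X : Matrix (Fin n) (Fin n) F) with hf
  set N : Module.End F (Fin n → F) := f - 1 with hN
  set S := LinearMap.range N
  have hfr : f ^ r = 1 := by
    show (Matrix.toLinAlgEquiv' (X : Matrix (Fin n) (Fin n) F)) ^ r = 1
    rw [← map_pow, ← Units.val_pow_eq_pow_val, hXr, Units.val_one, map_one]
  have hiso : ∀ u v, herm q (f u) (f v) = herm q u v := fun u v => by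
    have := hX u v
    rw [one_mul] at this
    exact this
  have hdisj : ∀ u, N (N u) = 0 → N u = 0 := by
    intro u hu
    have hf1 : f (N u) = N u := by
      rw [hN, LinearMap.sub_apply, Module.End.one_apply] at hu
      exact sub_eq_zero.1 hu
    have hk : ∀ k : ℕ, (f ^ k) u = u + (k : F) • N u := by
      intro k
      induction k with
      | zero => simp
      | succ k ih =>
        rw [pow_succ', Module.End.mul_apply, ih, map_add, map_smul, hf1,
          show f u = u + N u by simp [hN], Nat.cast_succ, add_smul, one_smul]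
        abel
    have := hk r
    rw [hfr, Module.End.one_apply, left_eq_add] at this
    exact (smul_eq_zero.1 this).resolve_left hrF
  have hSrk : finrank F S = e := by
    have := LinearMap.finrank_range_add_finrank_ker N
    rw [Module.finrank_fin_fun] at this
    simp only [S]
    omega
  have hsup : S ⊔ LinearMap.ker N = ⊤ := by
    refine Submodule.eq_top_of_finrank_eq ?_
    have h1 := Submodule.finrank_sup_add_finrank_inf_eq S (LinearMap.ker N)
    have h0 : S ⊓ LinearMap.ker N = ⊥ := (Submodule.eq_bot_iff _).2 fun v ⟨⟨u, hu⟩, hv⟩ => by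
      rw [← hu]; exact hdisj u (by rw [hu]; exact hv)
    rw [h0, finrank_bot] at h1
    rw [Module.finrank_fin_fun]
    omega
  have horth : ∀ w ∈ LinearMap.ker N, ∀ u, herm q (N u) w = 0 := fun w hw u => by
    have hfw : f w = w := by
      rw [LinearMap.mem_ker, hN, LinearMap.sub_apply, Module.End.one_apply] at hw
      exact sub_eq_zero.1 hw
    rw [hN, LinearMap.sub_apply, Module.End.one_apply, sub_eq_add_neg, Classical.U.herm_add_left, ← neg_one_smul F u,
      Classical.U.herm_smul_left]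
    conv_lhs => arg 1; rw [← hfw]
    rw [hiso]; ring
  have hnd : ∀ x ∈ S, (∀ y ∈ S, herm q x y = 0) → x = 0 := by
    intro x hx hxy
    refine hF.eq_zero_of_herm x fun v => ?_
    obtain ⟨s, hs, w, hw, rfl⟩ := Submodule.mem_sup.1 (hsup.symm ▸ Submodule.mem_top (x := v))
    obtain ⟨u, hu⟩ := hx
    rw [hF.herm_add_right, hxy s hs, zero_add, ← hu]
    exact horth w hw u
  obtain ⟨E, hE⟩ := Forms.exists_model hF S hnd hSrk
  have hfS : ∀ v ∈ S, f v ∈ S := by
    rintro _ ⟨u, rfl⟩
    exact ⟨f u, by simp [hN]⟩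
  let T : Module.End F S := f.restrict hfS
  have hTr : ∀ (k : ℕ) (v : S), (((T ^ k) v : S) : Fin n → F) = (f ^ k) v := by
    intro k
    induction k with
    | zero => intro v; simp
    | succ k ih =>
      intro v
      rw [pow_succ', Module.End.mul_apply, LinearMap.restrict_apply, pow_succ', Module.End.mul_apply, ← ih]
  have hTr1 : T ^ r = 1 := LinearMap.ext fun v => Subtype.ext (by rw [hTr, hfr]; rfl)
  let Te : S ≃ₗ[F] S := LinearEquiv.ofLinearMap T (T ^ (r - 1))
    (by rw [← Module.End.mul_eq_comp, ← pow_succ', Nat.sub_add_cancel hr.one_le, hTr1]; rfl)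
    (by rw [← Module.End.mul_eq_comp, ← pow_succ, Nat.sub_add_cancel hr.one_le, hTr1]; rfl)
  let g : UG e F q := ⟨(E.trans Te).trans E.symm, fun u v => by
    rw [← hE, ← hE]
    simp only [LinearEquiv.trans_apply, LinearEquiv.apply_symm_apply]
    show herm q (f (E u : Fin n → F)) (f (E v : Fin n → F)) = _
    rw [hiso]⟩
  have hg : orderOf g = r := by
    haveI := Fact.mk hr
    refine orderOf_eq_prime (Subtype.ext (LinearEquiv.ext fun v => ?_)) fun h => ?_
    · have hp : ∀ (k : ℕ) v, (g.1 ^ k) v = E.symm ((T ^ k) (E v)) := by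
        intro k
        induction k with
        | zero => intro v; simp
        | succ k ih =>
          intro v
          rw [pow_succ', LinearEquiv.mul_apply, ih, pow_succ', Module.End.mul_apply]
          show E.symm (T (E (E.symm _))) = _
          rw [LinearEquiv.apply_symm_apply]
      rw [SubgroupClass.coe_pow, hp, hTr1]
      simp
    · have hS0 : S ≠ ⊥ := fun h0 => by rw [h0, finrank_bot] at hSrk; omega
      obtain ⟨s, hs, hs0⟩ := Submodule.exists_mem_ne_zero_of_ne_bot hS0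
      obtain ⟨u, hu⟩ := hs
      refine hs0 (hu ▸ hdisj u ?_)
      have h1 := congrArg (fun k : UG e F q => E (k.1 (E.symm ⟨N u, ⟨u, rfl⟩⟩))) h
      have h2 : f (N u) = N u := by simpa [g, Te, T] using congrArg Subtype.val h1
      rw [hN, LinearMap.sub_apply, Module.End.one_apply, ← hN, h2, sub_self]
  exact hg ▸ orderOf_dvd_natCard g

end Cfsg.Agent.Elusive25
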