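import Cfsg.Agent.Elusive25.PauliFrame
import Cfsg.Agent.Elusive25.PolarPair
import Cfsg.Agent.Elusive25.Eigen
import Cfsg.Agent.ClassConj.Unitary
import Cfsg.Agent.Classical.UGroup

/-!
Tools for elements of small order in `SU_4(q)`: gram matrices, elements of order three up to conjugacy,
rank-one unipotent elements, and frames of groups of symplectic type inside the unitary group.
-/

set_option autoImplicit false

namespace Cfsg.Agent.Elusive25

open Matrix Module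
open Cfsg.Agent.Classical.U (SqField herm herm_def herm_add_left herm_smul_left herm_smul_right)
open scoped MatrixGroups

variable {F : Type*} [Field F] {n q : ℕ}

/-- Membership in the unitary group through the gram matrix. -/
theorem mem_GU_iff_gram (hF : SqField F q) (g : GL (Fin n) F) :
    g ∈ Cfsg.GU n F q ↔ ((g : Matrix (Fin n) (Fin n) F))ᵀ * (g : Matrix (Fin n) (Fin n) F).map (Forms.sqConj hF) = 1 := by
  rw [ClassConj.mem_GU_iff_cstar hF, ← Matrix.transpose_inj, Matrix.transpose_mul, ClassConj.cstar,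
    Matrix.transpose_transpose, Matrix.transpose_one]

/-- The entries of a gram matrix. -/
theorem gram_apply (hF : SqField F q) (Q : Matrix (Fin n) (Fin n) F) (i j : Fin n) :
    (Qᵀ * Q.map (Forms.sqConj hF)) i j = herm q (Q.col i) (Q.col j) := by
  simp [Matrix.mul_apply, herm_def, Matrix.col_apply, Forms.sqConj_apply]

/-- Determinants of unitary matrices have norm one. -/
theorem det_norm_GU (hF : SqField F q) {g : GL (Fin n) F} (hg : g ∈ Cfsg.GU n F q) :
    (g : Matrix (Fin n) (Fin n) F).det ^ (q + 1) = 1 := by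
  have h := congrArg Matrix.det ((mem_GU_iff_gram hF g).1 hg)
  rwa [Matrix.det_mul, Matrix.det_transpose, Matrix.det_one, ← RingHom.mapMatrix_apply, ← RingHom.map_det,
    Forms.sqConj_apply, ← pow_succ'] at h

/-- A diagonal matrix with entries of norm one is unitary. -/
theorem mem_GU_diag (hF : SqField F q) {g : GL (Fin n) F} {d : Fin n → F}
    (hg : (g : Matrix (Fin n) (Fin n) F) = Matrix.diagonal d) (hd : ∀ i, d i ^ (q + 1) = 1) : g ∈ Cfsg.GU n F q := by
  rw [mem_GU_iff_gram hF, hg, Matrix.diagonal_transpose, Matrix.diagonal_map (map_zero _),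
    Matrix.diagonal_mul_diagonal, ← Matrix.diagonal_one]
  congr 1
  funext i
  rw [Forms.sqConj_apply, ← pow_succ', hd]

/-- A unitary block beside an identity is unitary. -/
theorem mem_GU_block (hF : SqField F q) {a b : ℕ} (e : Fin a ⊕ Fin b ≃ Fin n) {g : GL (Fin n) F}
    {A : Matrix (Fin a) (Fin a) F} (hA : Aᵀ * A.map (Forms.sqConj hF) = 1)
    (hg : (g : Matrix (Fin n) (Fin n) F) = Matrix.reindexAlgEquiv F F e (Matrix.fromBlocks A 0 0 1)) :
    g ∈ Cfsg.GU n F q := by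
  rw [mem_GU_iff_gram hF, hg, Matrix.coe_reindexAlgEquiv, Matrix.transpose_reindex,
    show (Matrix.reindex e e (Matrix.fromBlocks A 0 0 1)).map (Forms.sqConj hF) =
      Matrix.reindex e e ((Matrix.fromBlocks A 0 0 1).map (Forms.sqConj hF)) from rfl,
    Matrix.fromBlocks_transpose, Matrix.fromBlocks_map]
  simp only [Matrix.transpose_zero, Matrix.transpose_one, Matrix.map_zero _ (map_zero _), Matrix.map_one _ (map_zero _) (map_one _),
    ← Matrix.coe_reindexAlgEquiv F F]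
  rw [← map_mul, Matrix.fromBlocks_multiply]
  simp [hA, Matrix.fromBlocks_one]

/-- A rank-one perturbation of the identity commutes with a large algebra. -/
theorem nine_le_cent (M : Matrix (Fin 4) (Fin 4) F) {a φ : Fin 4 → F} (ha : a ≠ 0)
    (hM : M = 1 + Matrix.vecMulVec a φ) : 9 ≤ finrank F (cent M) := by
  let g : Matrix (Fin 4) (Fin 4) F →ₗ[F] (Fin 4 → F) × (Fin 4 → F) :=
    { toFun := fun A => (A *ᵥ a, φ ᵥ* A)
      map_add' := fun A B => by simp [Matrix.add_mulVec, Matrix.vecMul_add]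
      map_smul' := fun c A => by simp [Matrix.smul_mulVec, Matrix.vecMul_smul] }
  have hK : 8 ≤ finrank F (LinearMap.ker g) := by
    have h := LinearMap.finrank_range_add_finrank_ker g
    have hr := (LinearMap.range g).finrank_le
    rw [Module.finrank_matrix, Module.finrank_self, Fintype.card_fin] at h
    rw [Module.finrank_prod, Module.finrank_fin_fun] at hr
    omega
  have hle : LinearMap.ker g ≤ cent M := fun A hA => by
    rw [LinearMap.mem_ker] at hA
    obtain ⟨h1, h2⟩ : A *ᵥ a = 0 ∧ φ ᵥ* A = 0 := ⟨congrArg Prod.fst hA, congrArg Prod.snd hA⟩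
    rw [mem_cent, hM, mul_add, add_mul, mul_one, one_mul, Matrix.mul_vecMulVec, Matrix.vecMulVec_mul, h1, h2,
      Matrix.zero_vecMulVec, Matrix.vecMulVec_zero]
  have hlt : LinearMap.ker g < cent M := by
    refine lt_of_le_of_ne hle fun h => ha ?_
    have : (1 : Matrix (Fin 4) (Fin 4) F) ∈ LinearMap.ker g := by rw [h, mem_cent, one_mul, mul_one]
    rw [LinearMap.mem_ker] at this
    simpa [g] using congrArg Prod.fst this
  have := Submodule.finrank_lt_finrank_of_lt hlt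
  omega

/-- A unitary transvection. -/
theorem exists_transvection (hF : SqField F q) {i : F} (hi : i ≠ 0) (hiq : i ^ q = -i) :
    ∃ (g : GL (Fin 4) F) (a φ : Fin 4 → F), g ∈ Cfsg.GU 4 F q ∧ a ≠ 0 ∧ φ ⬝ᵥ a = 0 ∧ φ ≠ 0 ∧
      (g : Matrix (Fin 4) (Fin 4) F) = 1 + Matrix.vecMulVec a φ := by
  obtain ⟨e, he⟩ := hF.exists_norm (show (-1 : F) ^ q = -1 by rw [hF.neg_pow, one_pow])
  let a : Fin 4 → F := ![1, e, 0, 0]
  let φ : Fin 4 → F := fun k => i * a k ^ q
  have haa : φ ⬝ᵥ a = 0 := by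
    simp only [dotProduct, Fin.sum_univ_four, φ, a, Matrix.cons_val, zero_pow hF.q_ne_zero, one_pow]
    linear_combination i * ((pow_succ e q).symm.trans he)
  have hsq : Matrix.vecMulVec a φ * Matrix.vecMulVec a φ = 0 := by
    rw [Matrix.vecMulVec_mul_vecMulVec, haa, zero_smul]
    simp
  have h1 : (1 + Matrix.vecMulVec a φ) * (1 - Matrix.vecMulVec a φ) = 1 := by
    rw [mul_sub, add_mul, one_mul, mul_one, add_mul, one_mul, hsq]; abel
  have h1' : (1 - Matrix.vecMulVec a φ) * (1 + Matrix.vecMulVec a φ) = 1 := by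
    rw [mul_add, sub_mul, one_mul, mul_one, sub_mul, one_mul, hsq]; abel
  suffices hiso : ∀ u v : Fin 4 → F, herm q ((1 + Matrix.vecMulVec a φ) *ᵥ u) ((1 + Matrix.vecMulVec a φ) *ᵥ v) =
      herm q u v by
    obtain ⟨g, hg⟩ : ∃ g : GL (Fin 4) F, (g : Matrix (Fin 4) (Fin 4) F) = 1 + Matrix.vecMulVec a φ :=
      ⟨⟨_, _, h1, h1'⟩, rfl⟩
    refine ⟨g, a, φ, fun u v => ?_, fun h => by simpa [a] using congrFun h 0, haa,
      fun h => hi (by simpa [φ, a] using congrFun h 0), hg⟩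
    show herm q ((g : Matrix (Fin 4) (Fin 4) F) *ᵥ u) ((g : Matrix (Fin 4) (Fin 4) F) *ᵥ v) = herm q u v
    rw [hg]
    exact hiso u v
  intro u v
  have happ : ∀ x, (1 + Matrix.vecMulVec a φ) *ᵥ x = x + (i * herm q x a) • a := fun x => by
    rw [Matrix.add_mulVec, Matrix.one_mulVec, Matrix.vecMulVec_mulVec, op_smul_eq_smul]
    congr 2
    simp [dotProduct, φ, herm_def, Finset.mul_sum]
    exact Finset.sum_congr rfl fun k _ => by ring
  have ha0 : herm q a a = 0 := by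
    simp only [herm_def, Fin.sum_univ_four, a, Matrix.cons_val, zero_pow hF.q_ne_zero, one_pow]
    linear_combination (pow_succ' e q).symm.trans he
  rw [happ, happ, herm_add_left, hF.herm_add_right, hF.herm_add_right, herm_smul_left, herm_smul_left,
    herm_smul_right, herm_smul_right, ha0, mul_pow, hiq, hF.herm_symm]
  ring

/-- The gram matrix of a basis `e, e', u, w` with `e, e'` orthonormal and `u, w` a hyperbolic pair. -/
def threeGram : Matrix (Fin 4) (Fin 4) F := !![1, 0, 0, 0; 0, 1, 0, 0; 0, 0, 0, 1; 0, 0, 1, 0]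

theorem threeGram_sq : (threeGram : Matrix (Fin 4) (Fin 4) F) * threeGram = 1 := by
  ext i j
  fin_cases i <;> fin_cases j <;> simp [threeGram, Matrix.mul_apply, Fin.sum_univ_four]

/-- An eigenspace of a matrix. -/
def eigS (y : GL (Fin 4) F) (μ : F) : Submodule F (Fin 4 → F) :=
  LinearMap.ker (Matrix.toLin' (y : Matrix (Fin 4) (Fin 4) F) - μ • LinearMap.id)

theorem mem_eigS {y : GL (Fin 4) F} {μ : F} {x : Fin 4 → F} :
    x ∈ eigS y μ ↔ (y : Matrix (Fin 4) (Fin 4) F) *ᵥ x = μ • x := by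
  simp [eigS, sub_eq_zero]

section Three

variable (hF : SqField F q) {ω : F} (hω : IsPrimitiveRoot ω 3) (hωq : ω ^ q = ω)
  {y : GL (Fin 4) F} (hy : y ∈ Cfsg.GU 4 F q) (hy3 : y ^ 3 = 1)
include hF hω hωq hy hy3

/-- The eigenspaces of a unitary element of order three. -/
theorem three_facts :
    let E : F → Submodule F (Fin 4 → F) := eigS y
    (∀ u ∈ E 1, ∀ w ∈ E ω, herm q u w = 0) ∧ (∀ u ∈ E 1, ∀ w ∈ E (ω ^ 2), herm q u w = 0) ∧
      (∀ u ∈ E ω, ∀ w ∈ E ω, herm q u w = 0) ∧ (∀ u ∈ E (ω ^ 2), ∀ w ∈ E (ω ^ 2), herm q u w = 0) ∧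
      finrank F (E ω) = finrank F (E (ω ^ 2)) ∧ finrank F (E 1) + 2 * finrank F (E ω) = 4 ∧
      (∀ u ∈ E 1, (∀ w ∈ E 1, herm q u w = 0) → u = 0) ∧ IsCompl (E 1) (E ω ⊔ E (ω ^ 2)) ∧
      E ω ⊓ E (ω ^ 2) = ⊥ ∧ (∀ u ∈ E ω, (∀ w ∈ E (ω ^ 2), herm q u w = 0) → u = 0) := by
  intro E
  have hω3 := hω.pow_eq_one
  have hω1 : ω ≠ 1 := hω.ne_one (by norm_num)
  have hω2 : ω ^ 2 ≠ 1 := hω.pow_ne_one_of_pos_of_lt two_ne_zero (by norm_num)
  have mem : ∀ {μ x}, x ∈ E μ ↔ (y : Matrix (Fin 4) (Fin 4) F) *ᵥ x = μ • x := mem_eigS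
  have orth : ∀ {μ ν : F}, μ * ν ^ q ≠ 1 → ∀ u ∈ E μ, ∀ w ∈ E ν, herm q u w = 0 := by
    intro μ ν hne u hu w hw
    have h : herm q ((y : Matrix (Fin 4) (Fin 4) F) *ᵥ u) ((y : Matrix (Fin 4) (Fin 4) F) *ᵥ w) = herm q u w := hy u w
    rw [mem.1 hu, mem.1 hw, herm_smul_left, herm_smul_right] at h
    have h' : (μ * ν ^ q - 1) * herm q u w = 0 := by linear_combination h
    exact (mul_eq_zero.1 h').resolve_left (sub_ne_zero.2 hne)
  have hωω : (ω ^ 2) ^ q = ω ^ 2 := by rw [← pow_mul, mul_comm, pow_mul, hωq]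
  have o1 := orth (μ := 1) (ν := ω) (by rwa [one_mul, hωq])
  have o2 := orth (μ := 1) (ν := ω ^ 2) (by rwa [one_mul, hωω])
  have o3 := orth (μ := ω) (ν := ω) (by rwa [hωq, ← pow_two])
  have o4 := orth (μ := ω ^ 2) (ν := ω ^ 2) (by rwa [hωω, show ω ^ 2 * ω ^ 2 = ω ^ 3 * ω by ring, hω3, one_mul])
  have o1' : ∀ u ∈ E ω, ∀ w ∈ E 1, herm q u w = 0 := fun u hu w hw => Forms.herm_comm_zero hF (o1 w hw u hu)
  have o2' : ∀ u ∈ E (ω ^ 2), ∀ w ∈ E 1, herm q u w = 0 := fun u hu w hw => Forms.herm_comm_zero hF (o2 w hw u hu)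
  have hsup : E 1 ⊔ (E ω ⊔ E (ω ^ 2)) = ⊤ := by
    refine eq_top_iff.2 fun v _ => ?_
    refine (Submodule.span_le.2 ?_) (span_eigen_cube (η := 1) hω one_ne_zero (y : Matrix (Fin 4) (Fin 4) F)
      (fun v => by
        rw [Matrix.mulVec_mulVec, Matrix.mulVec_mulVec, ← Units.val_mul, ← Units.val_mul,
          show y * y * y = y ^ 3 by rw [pow_succ, pow_two], hy3]
        simp) v)
    rintro u ⟨μ, ⟨k, hk, rfl⟩, hu⟩
    rw [one_mul] at hu
    interval_cases k
    · exact Submodule.mem_sup_left (mem.2 (by rw [pow_zero] at hu; exact hu))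
    · exact Submodule.mem_sup_right (Submodule.mem_sup_left (mem.2 (by rw [pow_one] at hu; exact hu)))
    · exact Submodule.mem_sup_right (Submodule.mem_sup_right (mem.2 hu))
  have split : ∀ v, ∃ a ∈ E 1, ∃ b ∈ E ω, ∃ c ∈ E (ω ^ 2), v = a + (b + c) := fun v => by
    obtain ⟨a, ha, bc, hbc, rfl⟩ := Submodule.mem_sup.1 (hsup.symm ▸ Submodule.mem_top (x := v))
    obtain ⟨b, hb, c, hc, rfl⟩ := Submodule.mem_sup.1 hbc
    exact ⟨a, ha, b, hb, c, hc, rfl⟩
  have zero : ∀ x, (∀ a ∈ E 1, herm q x a = 0) → (∀ b ∈ E ω, herm q x b = 0) →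
      (∀ c ∈ E (ω ^ 2), herm q x c = 0) → x = 0 := fun x h1 h2 h3 => hF.eq_zero_of_herm x fun v => by
    obtain ⟨a, ha, b, hb, c, hc, rfl⟩ := split v
    rw [hF.herm_add_right, hF.herm_add_right, h1 a ha, h2 b hb, h3 c hc, add_zero, add_zero]
  have hd23 : E ω ⊓ E (ω ^ 2) = ⊥ := (Submodule.eq_bot_iff _).2 fun x ⟨hx, hx'⟩ =>
    zero x (o1' x hx) (o3 x hx) (o4 x hx')
  have hd1 : E 1 ⊓ (E ω ⊔ E (ω ^ 2)) = ⊥ := (Submodule.eq_bot_iff _).2 fun x ⟨hx, hx'⟩ => by
    refine zero x (fun a ha => ?_) (o1 x hx) (o2 x hx)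
    obtain ⟨b, hb, c, hc, rfl⟩ := Submodule.mem_sup.1 hx'
    rw [herm_add_left, o1' b hb a ha, o2' c hc a ha, add_zero]
  have pair : ∀ A B : Submodule F (Fin 4 → F), (∀ x ∈ A, (∀ w ∈ B, herm q x w = 0) → x = 0) →
      finrank F A ≤ finrank F B := fun A B h => by
    have h0 : A ⊓ Forms.hperp q B = ⊥ := (Submodule.eq_bot_iff _).2 fun x ⟨hx, hx'⟩ => h x hx hx'
    have h1 := Submodule.finrank_sup_add_finrank_inf_eq A (Forms.hperp q B)
    have h2 := Submodule.finrank_le (A ⊔ Forms.hperp q B)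
    rw [h0, finrank_bot, Forms.finrank_hperp hF] at h1
    rw [Module.finrank_fin_fun] at h2
    have h3 := Submodule.finrank_le B
    rw [Module.finrank_fin_fun] at h3
    omega
  have p1 := pair (E ω) (E (ω ^ 2)) fun x hx h => zero x (o1' x hx) (o3 x hx) h
  have p2 := pair (E (ω ^ 2)) (E ω) fun x hx h => zero x (o2' x hx) h (o4 x hx)
  have hsum1 := Submodule.finrank_sup_add_finrank_inf_eq (E 1) (E ω ⊔ E (ω ^ 2))
  have hsum2 := Submodule.finrank_sup_add_finrank_inf_eq (E ω) (E (ω ^ 2))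
  rw [hd23, finrank_bot] at hsum2
  rw [hd1, hsup, finrank_bot, finrank_top, Module.finrank_fin_fun] at hsum1
  exact ⟨o1, o2, o3, o4, le_antisymm p1 p2, by omega, fun u hu h => zero u h (o1 u hu) (o2 u hu),
    ⟨disjoint_iff.2 hd1, codisjoint_iff.2 hsup⟩, hd23, fun x hx h => zero x (o1' x hx) (o3 x hx) h⟩

/-- A basis adapted to an element of order three with fixed vectors. -/
theorem exists_three_gram (hy1 : y ≠ 1) {v : Fin 4 → F} (hv0 : v ≠ 0)
    (hv : (y : Matrix (Fin 4) (Fin 4) F) *ᵥ v = v) :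
    ∃ Q : Matrix (Fin 4) (Fin 4) F, Qᵀ * Q.map (Forms.sqConj hF) = threeGram ∧
      (y : Matrix (Fin 4) (Fin 4) F) * Q = Q * Matrix.diagonal ![1, 1, ω, ω ^ 2] := by
  obtain ⟨o1, o2, o3, o4, hdim, hsum, hnd, hcompl, -, hpair⟩ := three_facts hF hω hωq hy hy3
  set E : F → Submodule F (Fin 4 → F) := eigS y
  have mem : ∀ {μ x}, x ∈ E μ ↔ (y : Matrix (Fin 4) (Fin 4) F) *ᵥ x = μ • x := mem_eigS
  have h1pos : 0 < finrank F (E 1) := Nat.pos_of_ne_zero fun h => hv0 (by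
    rw [← Submodule.mem_bot F, ← Submodule.finrank_eq_zero.1 h]; exact mem.2 (by rw [hv, one_smul]))
  have hmpos : 0 < finrank F (E ω) := Nat.pos_of_ne_zero fun h => hy1 (by
    have htop : E 1 = ⊤ := Submodule.eq_top_of_finrank_eq (by rw [Module.finrank_fin_fun]; omega)
    refine Units.ext (Matrix.ext_of_mulVec_single fun j => ?_)
    rw [Units.val_one, Matrix.one_mulVec, ← one_smul F (Pi.single j (1 : F) : Fin 4 → F)]
    refine (mem.1 (htop ▸ Submodule.mem_top)).trans ?_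
    rw [one_smul])
  obtain ⟨b, hb⟩ := Forms.exists_model hF (E 1) hnd (m := 2) (by omega)
  obtain ⟨u, hu, hu0⟩ := Submodule.exists_mem_ne_zero_of_ne_bot
    (show E ω ≠ ⊥ from fun h => by rw [h, finrank_bot] at hmpos; omega)
  obtain ⟨w₀, hw₀, hne⟩ : ∃ w ∈ E (ω ^ 2), herm q u w ≠ 0 := by
    by_contra hno; push Not at hno; exact hu0 (hpair u hu hno)
  set w := ((herm q u w₀)⁻¹) ^ q • w₀
  have hw : w ∈ E (ω ^ 2) := Submodule.smul_mem _ _ hw₀
  have huw : herm q u w = 1 := by rw [herm_smul_right, hF.pow_pow, inv_mul_cancel₀ hne]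
  have hwu : herm q w u = 1 := by rw [← hF.herm_symm, huw, one_pow]
  let e0 : Fin 4 → F := (b (Pi.single 0 1) : Fin 4 → F)
  let e1 : Fin 4 → F := (b (Pi.single 1 1) : Fin 4 → F)
  have he0 : e0 ∈ E 1 := (b _).2
  have he1 : e1 ∈ E 1 := (b _).2
  let col : Fin 4 → Fin 4 → F := ![e0, e1, u, w]
  refine ⟨Matrix.of fun i j => col j i, ?_, ?_⟩
  · ext i j
    rw [gram_apply]
    show herm q (col i) (col j) = _
    have hz := fun {a b : Fin 4 → F} (h : herm q a b = 0) => Forms.herm_comm_zero hF h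
    fin_cases i <;> fin_cases j <;>
      simp [col, threeGram, e0, e1, huw, hwu, o1 _ he0 _ hu, o1 _ he1 _ hu, o2 _ he0 _ hw, o2 _ he1 _ hw,
        hz (o1 _ he0 _ hu), hz (o1 _ he1 _ hu), hz (o2 _ he0 _ hw), hz (o2 _ he1 _ hw), o3 _ hu _ hu, o4 _ hw _ hw,
        hb, herm_def, Fin.sum_univ_two, hF.q_ne_zero]
  · ext i j
    rw [Matrix.mul_diagonal]
    have hj : (y : Matrix (Fin 4) (Fin 4) F) *ᵥ col j = (![1, 1, ω, ω ^ 2] : Fin 4 → F) j • col j := by
      fin_cases j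
      exacts [mem.1 he0, mem.1 he1, mem.1 hu, mem.1 hw]
    refine (congrFun hj i).trans ?_
    rw [Pi.smul_apply, smul_eq_mul, mul_comm]
    rfl

/-- The two halves of an element of order three without fixed vectors. -/
theorem exists_three_pair (hfix : ∀ v, (y : Matrix (Fin 4) (Fin 4) F) *ᵥ v = v → v = 0) :
    ∃ A B : Submodule F (Fin 4 → F), PolarPair q 2 A B ∧ (∀ x ∈ A, (y : Matrix (Fin 4) (Fin 4) F) *ᵥ x = ω • x) ∧
      ∀ x ∈ B, (y : Matrix (Fin 4) (Fin 4) F) *ᵥ x = ω ^ 2 • x := by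
  obtain ⟨-, -, o3, o4, hdim, hsum, -, hcompl, hd, -⟩ := three_facts hF hω hωq hy hy3
  have h1 : eigS y 1 = ⊥ :=
    (Submodule.eq_bot_iff _).2 fun x hx => hfix x (by simpa using mem_eigS.1 hx)
  rw [h1] at hsum hcompl
  rw [finrank_bot] at hsum
  exact ⟨_, _, ⟨⟨disjoint_iff.2 hd, codisjoint_iff.2 (by simpa using hcompl.sup_eq_top)⟩, o3, o4, by omega, by omega⟩,
    fun x hx => mem_eigS.1 hx, fun x hx => mem_eigS.1 hx⟩

end Three

/-- Elements of order three with the same behaviour are conjugate in the special unitary group. -/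
theorem exists_conj_three_unitary [Fintype F] (hF : SqField F q) {ω : F} (hω : IsPrimitiveRoot ω 3) (hωq : ω ^ q = ω)
    {y y₀ : GL (Fin 4) F} (hy : y ∈ Cfsg.GU 4 F q) (hy3 : y ^ 3 = 1) (hy₀ : y₀ ∈ Cfsg.GU 4 F q) (hy₀3 : y₀ ^ 3 = 1)
    (h : ((∀ v, (y : Matrix (Fin 4) (Fin 4) F) *ᵥ v = v → v = 0) ∧
        ∀ v, (y₀ : Matrix (Fin 4) (Fin 4) F) *ᵥ v = v → v = 0) ∨
      ((y ≠ 1 ∧ ∃ v : Fin 4 → F, v ≠ 0 ∧ (y : Matrix (Fin 4) (Fin 4) F) *ᵥ v = v) ∧
        (y₀ ≠ 1 ∧ ∃ v : Fin 4 → F, v ≠ 0 ∧ (y₀ : Matrix (Fin 4) (Fin 4) F) *ᵥ v = v))) :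
    ∃ g ∈ Cfsg.GU 4 F q ⊓ Cfsg.Geo.specialLinear (Fin 4) F, g⁻¹ * y * g = y₀ := by
  classical
  rcases h with ⟨h, h₀⟩ | ⟨⟨h1, v, hv0, hv⟩, h1', v', hv0', hv'⟩
  · obtain ⟨A, B, hAB, hA, hB⟩ := exists_three_pair hF hω hωq hy hy3 h
    obtain ⟨A₀, B₀, hAB₀, hA₀, hB₀⟩ := exists_three_pair hF hω hωq hy₀ hy₀3 h₀
    obtain ⟨g, hg, hgA, hgB⟩ := hAB₀.exists_move hF two_pos hAB
    refine ⟨g, hg, ?_⟩
    rw [mul_assoc, inv_mul_eq_iff_eq_mul]
    refine Units.ext (Matrix.ext_of_mulVec_single fun j => ?_)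
    obtain ⟨a, ha, b, hb, hab⟩ := Submodule.mem_sup.1
      (show (Pi.single j (1 : F) : Fin 4 → F) ∈ A₀ ⊔ B₀ by rw [hAB₀.compl.sup_eq_top]; trivial)
    rw [← hab, Units.val_mul, Units.val_mul, ← Matrix.mulVec_mulVec, ← Matrix.mulVec_mulVec, Matrix.mulVec_add,
      Matrix.mulVec_add, Matrix.mulVec_add, Matrix.mulVec_add, hA _ (hgA a ha), hB _ (hgB b hb), hA₀ a ha, hB₀ b hb,
      Matrix.mulVec_smul, Matrix.mulVec_smul]
  · obtain ⟨Q, hQ, hQy⟩ := exists_three_gram hF hω hωq hy hy3 h1 hv0 hv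
    obtain ⟨Q₀, hQ₀, hQy₀⟩ := exists_three_gram hF hω hωq hy₀ hy₀3 h1' hv0' hv'
    have hJ : (threeGram : Matrix (Fin 4) (Fin 4) F).det * threeGram.det = 1 := by
      rw [← Matrix.det_mul, threeGram_sq, Matrix.det_one]
    have hdet : ∀ M : Matrix (Fin 4) (Fin 4) F, Mᵀ * M.map (Forms.sqConj hF) = threeGram →
        M.det ^ (q + 1) = (threeGram : Matrix (Fin 4) (Fin 4) F).det := fun M hM => by
      rw [← hM, Matrix.det_mul, Matrix.det_transpose, ← RingHom.mapMatrix_apply, ← RingHom.map_det,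
        Forms.sqConj_apply, ← pow_succ']
    have hne : ∀ M : Matrix (Fin 4) (Fin 4) F, Mᵀ * M.map (Forms.sqConj hF) = threeGram → M.det ≠ 0 := fun M hM h0 => by
      have := hdet M hM
      rw [h0, zero_pow (Nat.succ_ne_zero q)] at this
      rw [← this, zero_mul] at hJ
      exact zero_ne_one hJ
    set δ := Q₀.det / Q.det with hδ
    have hδ0 : δ ≠ 0 := div_ne_zero (hne _ hQ₀) (hne _ hQ)
    have hδ1 : δ ^ (q + 1) = 1 := by
      rw [hδ, div_pow, hdet _ hQ, hdet _ hQ₀, div_self]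
      exact fun h0 => by rw [h0, zero_mul] at hJ; exact zero_ne_one hJ
    set d : Fin 4 → F := ![δ, 1, 1, 1] with hd
    set D : Matrix (Fin 4) (Fin 4) F := Matrix.diagonal d
    have hdd : Dᵀ * threeGram * D.map (Forms.sqConj hF) = threeGram := by
      ext i j
      rw [Matrix.diagonal_transpose, Matrix.diagonal_map (map_zero _), Matrix.mul_diagonal, Matrix.diagonal_mul]
      fin_cases i <;> fin_cases j <;>
        simp [hd, threeGram, Forms.sqConj_apply, (pow_succ' δ q).symm.trans hδ1]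
    have hQTdet : (Q * D).det = Q₀.det := by
      rw [Matrix.det_mul, Matrix.det_diagonal]
      simp [hd, Fin.prod_univ_four, hδ, mul_div_cancel₀ _ (hne _ hQ)]
    let G : GL (Fin 4) F := Matrix.GeneralLinearGroup.mkOfDetNeZero (Q * D) (by rw [hQTdet]; exact hne _ hQ₀)
    let G₀ : GL (Fin 4) F := Matrix.GeneralLinearGroup.mkOfDetNeZero Q₀ (hne _ hQ₀)
    have hL : Matrix.diagonal ![(1 : F), 1, ω, ω ^ 2] * D = D * Matrix.diagonal ![(1 : F), 1, ω, ω ^ 2] := by
      rw [Matrix.diagonal_mul_diagonal, Matrix.diagonal_mul_diagonal]; congr 1; funext k; exact mul_comm _ _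
    refine ⟨G * G₀⁻¹, ⟨(mem_GU_iff_gram hF _).2 ?_, Units.ext ?_⟩, ?_⟩
    · have e : ((G * G₀⁻¹ : GL (Fin 4) F) : Matrix (Fin 4) (Fin 4) F) * Q₀ = Q * D := by
        show ((G * G₀⁻¹ : GL (Fin 4) F) : Matrix (Fin 4) (Fin 4) F) * (G₀ : Matrix (Fin 4) (Fin 4) F) = _
        rw [← Units.val_mul, inv_mul_cancel_right]; rfl
      set M := ((G * G₀⁻¹ : GL (Fin 4) F) : Matrix (Fin 4) (Fin 4) F)
      have h2 : Q₀ᵀ * (Mᵀ * M.map (Forms.sqConj hF)) * Q₀.map (Forms.sqConj hF) = Q₀ᵀ * Q₀.map (Forms.sqConj hF) := by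
        rw [hQ₀, ← hdd, ← hQ, ← mul_assoc Q₀ᵀ, ← Matrix.transpose_mul, mul_assoc _ (M.map _), ← Matrix.map_mul, e,
          Matrix.transpose_mul, Matrix.map_mul]
        simp only [mul_assoc]
      have hu1 : IsUnit Q₀ᵀ := by
        rw [Matrix.isUnit_iff_isUnit_det, Matrix.det_transpose]; exact isUnit_iff_ne_zero.2 (hne _ hQ₀)
      have hu2 : IsUnit (Q₀.map (Forms.sqConj hF)) := by
        rw [Matrix.isUnit_iff_isUnit_det, ← RingHom.mapMatrix_apply, ← RingHom.map_det]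
        exact (isUnit_iff_ne_zero.2 (hne _ hQ₀)).map _
      rw [mul_assoc] at h2
      exact hu2.mul_eq_right.1 (hu1.mul_left_cancel h2)
    · show ((G * G₀⁻¹ : GL (Fin 4) F) : Matrix (Fin 4) (Fin 4) F).det = 1
      rw [Units.val_mul, Matrix.det_mul, Matrix.coe_units_inv, Matrix.det_nonsing_inv, Ring.inverse_eq_inv']
      show (Q * D).det * Q₀.det⁻¹ = 1
      rw [hQTdet, mul_inv_cancel₀ (hne _ hQ₀)]
    · have hy' : y * G = G * (G₀⁻¹ * y₀ * G₀) := by
        refine Units.ext ?_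
        rw [Units.val_mul, Units.val_mul, Units.val_mul, Units.val_mul, mul_assoc ((G₀⁻¹ : GL (Fin 4) F) : Matrix (Fin 4) (Fin 4) F)]
        show _ * (Q * D) = Q * D * (((G₀⁻¹ : GL (Fin 4) F) : Matrix (Fin 4) (Fin 4) F) *
          ((y₀ : Matrix (Fin 4) (Fin 4) F) * Q₀))
        rw [hQy₀, ← mul_assoc _ Q₀]
        show _ = Q * D * (((G₀⁻¹ : GL (Fin 4) F) : Matrix (Fin 4) (Fin 4) F) * (G₀ : Matrix (Fin 4) (Fin 4) F) * _)
        rw [← Units.val_mul, inv_mul_cancel, Units.val_one, one_mul, ← mul_assoc, hQy, mul_assoc, hL, ← mul_assoc]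
      calc (G * G₀⁻¹)⁻¹ * y * (G * G₀⁻¹) = G₀ * G⁻¹ * (y * G) * G₀⁻¹ := by group
        _ = y₀ := by rw [hy']; group

/-- A frame inside the unitary group gives a unitary change of basis. -/
theorem PauliData.exists_conj_unitary [Finite F] (hF : SqField F q) {R : Subgroup (GL (Fin 4) F)} (h : PauliData R)
    (hRU : R ≤ Cfsg.GU 4 F q) :
    ∃ P ∈ Cfsg.GU 4 F q, R = (ClassicalMax.MonomialFour.R₁ F).map (MulAut.conj P).toMonoidHom := by
  classical
  obtain ⟨f⟩ := h.exists_frame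
  obtain ⟨P, hcol, hPa, hPc, hPb, hPd⟩ := f.exists_matrix h.two
  have hiso : ∀ g ∈ R, ∀ x w, herm q ((g : Matrix (Fin 4) (Fin 4) F) *ᵥ x) ((g : Matrix (Fin 4) (Fin 4) F) *ᵥ w) =
      herm q x w := fun g hg x w => hRU hg x w
  set N := herm q f.v f.v
  have horth : ∀ j k, j ≠ k → herm q (f.col j) (f.col k) = 0 := by
    intro j k hjk
    have key : ∀ j k : Fin 4, j ≠ k → ClassicalMax.MonomialFive.chi 1 j * ClassicalMax.MonomialFive.chi 1 k = -1 ∨
        ClassicalMax.MonomialFive.chi 2 j * ClassicalMax.MonomialFive.chi 2 k = -1 := by decide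
    have hq : ∀ z : ℤ, ((z : F)) ^ q = z := fun z => by rw [← Forms.sqConj_apply hF, map_intCast]
    rcases key j k hjk with e | e
    · have h' := hiso f.a f.ha (f.col j) (f.col k)
      rw [(f.action j).1, (f.action k).1, herm_smul_left, herm_smul_right, hq, ← mul_assoc, ← Int.cast_mul, e] at h'
      push_cast at h'
      have h'' : (2 : F) * herm q (f.col j) (f.col k) = 0 := by linear_combination -h'
      exact (mul_eq_zero.1 h'').resolve_left h.two
    · have h' := hiso f.c f.hc (f.col j) (f.col k)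
      rw [(f.action j).2.1, (f.action k).2.1, herm_smul_left, herm_smul_right, hq, ← mul_assoc, ← Int.cast_mul, e] at h'
      push_cast at h'
      have h'' : (2 : F) * herm q (f.col j) (f.col k) = 0 := by linear_combination -h'
      exact (mul_eq_zero.1 h'').resolve_left h.two
  have hdiag : ∀ j, herm q (f.col j) (f.col j) = N := by
    intro j
    fin_cases j <;> simp only [PauliFrame.col, Fin.zero_eta, Fin.mk_one, Matrix.cons_val]
    · rfl
    · exact hiso f.b f.hb _ _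
    · exact hiso f.d f.hd _ _
    · exact (hiso f.b f.hb _ _).trans (hiso f.d f.hd _ _)
  have hgram : ((P : Matrix (Fin 4) (Fin 4) F))ᵀ * (P : Matrix (Fin 4) (Fin 4) F).map (Forms.sqConj hF) = N • 1 := by
    ext j k
    rw [gram_apply, ← Matrix.mulVec_single_one, ← Matrix.mulVec_single_one, hcol, hcol, Matrix.smul_apply,
      Matrix.one_apply]
    by_cases hjk : j = k
    · rw [if_pos hjk, hjk, hdiag, smul_eq_mul, mul_one]
    · rw [if_neg hjk, horth j k hjk, smul_zero]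
  have hN0 : N ≠ 0 := fun h0 => by
    have h' := congrArg Matrix.det hgram
    rw [h0, zero_smul, Matrix.det_zero, Matrix.det_mul, Matrix.det_transpose, ← RingHom.mapMatrix_apply,
      ← RingHom.map_det, mul_eq_zero, map_eq_zero, or_self] at h'
    exact (Matrix.GeneralLinearGroup.det P).ne_zero h'
  obtain ⟨t, ht⟩ := hF.exists_norm (c := N⁻¹) (by rw [inv_pow, show N ^ q = N from hF.herm_symm f.v f.v])
  have ht0 : t ≠ 0 := fun e => hN0 (inv_eq_zero.1 (by rw [← ht, e, zero_pow (Nat.succ_ne_zero q)]))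
  let P' : GL (Fin 4) F := Matrix.GeneralLinearGroup.mkOfDetNeZero (t • (P : Matrix (Fin 4) (Fin 4) F))
    (by rw [Matrix.det_smul]; exact mul_ne_zero (pow_ne_zero _ ht0) (Matrix.GeneralLinearGroup.det P).ne_zero)
  refine ⟨P', (mem_GU_iff_gram hF P').2 ?_, h.eq_map f ?_ ?_ ?_ ?_⟩
  · show (t • (P : Matrix (Fin 4) (Fin 4) F))ᵀ * (t • (P : Matrix (Fin 4) (Fin 4) F)).map (Forms.sqConj hF) = 1
    rw [Matrix.transpose_smul, Matrix.map_smul' _ _ _ (map_mul (Forms.sqConj hF)), smul_mul_smul_comm, hgram, smul_smul,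
      Forms.sqConj_apply, ← pow_succ', ht, inv_mul_cancel₀ hN0, one_smul]
  all_goals
    show _ * (t • (P : Matrix (Fin 4) (Fin 4) F)) = t • (P : Matrix (Fin 4) (Fin 4) F) * _
    rw [mul_smul_comm, smul_mul_assoc]
  · rw [hPa]
  · rw [hPc]
  · rw [hPb]
  · rw [hPd]

end Cfsg.Agent.Elusive25
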